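import Mathlib
import Cfsg.Agent.Lib.Helper10.CNQuot

/-!
Solvable groups all of whose elements have prime power order: tools.
-/

set_option autoImplicit false

namespace Cfsg.Agent.Lib.Helper10.EPPO

open scoped commutatorElement

universe u

/-- A nontrivial solvable normal subgroup contains a nontrivial abelian normal `p`-subgroup. -/
theorem exists_normal_abelian_pgroup {G : Type*} [Group G] [Finite G] :
    ∀ (n : ℕ) (K : Subgroup G), K.Normal → K ≠ ⊥ → Group.IsSolvable K → Nat.card K ≤ n →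
      ∃ (V : Subgroup G) (p : ℕ), V.Normal ∧ V ≠ ⊥ ∧ p.Prime ∧ IsPGroup p V ∧ V ≤ K ∧
        ∀ a ∈ V, ∀ b ∈ V, a * b = b * a := by
  intro n
  induction n with
  | zero =>
    intro K _ _ _ h
    have := Nat.card_pos (α := K)
    omega
  | succ n ih =>
    intro K hKn hK hs hcard
    by_cases hc : ⁅K, K⁆ = ⊥
    · have hA4 : ∀ x ∈ K, ∀ y ∈ K, x * y = y * x := by
        intro x hx y hy
        have h1 : ⁅x, y⁆ ∈ ⁅K, K⁆ := Subgroup.commutator_mem_commutator hx hy
        rw [hc, Subgroup.mem_bot] at h1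
        exact commutatorElement_eq_one_iff_mul_comm.mp h1
      have hAnt : Nontrivial K := (Subgroup.nontrivial_iff_ne_bot K).mpr hK
      have hcard1 : 1 < Nat.card K := Finite.one_lt_card
      obtain ⟨p, hp, hpd⟩ := Nat.exists_prime_and_dvd (ne_of_gt hcard1)
      have hfact : Fact p.Prime := ⟨hp⟩
      obtain ⟨x, hx⟩ := exists_prime_orderOf_dvd_card' p hpd
      let V : Subgroup G :=
        { carrier := {a | a ∈ K ∧ a ^ p = 1}
          one_mem' := ⟨K.one_mem, one_pow _⟩
          mul_mem' := by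
            rintro a b ⟨ha, ha'⟩ ⟨hb, hb'⟩
            refine ⟨K.mul_mem ha hb, ?_⟩
            have hcomm : Commute a b := hA4 a ha b hb
            rw [hcomm.mul_pow, ha', hb', one_mul]
          inv_mem' := by
            rintro a ⟨ha, ha'⟩
            exact ⟨K.inv_mem ha, by rw [inv_pow, ha', inv_one]⟩ }
      refine ⟨V, p, ?_, ?_, hp, ?_, ?_, ?_⟩
      · constructor
        rintro a ⟨ha, ha'⟩ g
        exact ⟨hKn.conj_mem a ha g, by rw [conj_pow, ha', mul_one, mul_inv_cancel]⟩
      · intro hbot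
        have hxV : (x : G) ∈ V := by
          refine ⟨x.2, ?_⟩
          have : x ^ p = 1 := by rw [← hx]; exact pow_orderOf_eq_one x
          exact_mod_cast congrArg Subtype.val this
        rw [hbot, Subgroup.mem_bot] at hxV
        have hx1 : x = 1 := Subtype.ext hxV
        rw [hx1, orderOf_one] at hx
        exact hp.one_lt.ne hx
      · intro a
        refine ⟨1, Subtype.ext ?_⟩
        have := a.2.2
        simpa using this
      · intro a ha
        exact ha.1
      · intro a ha b hb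
        exact hA4 a ha.1 b hb.1
    · have hle : ⁅K, K⁆ ≤ K := Subgroup.commutator_le_left K K
      have hne : ⁅K, K⁆ ≠ K := by
        intro heq
        have : Nontrivial K := (Subgroup.nontrivial_iff_ne_bot K).mpr hK
        have := hs
        have h1 := Group.IsSolvable.commutator_lt_top_of_nontrivial K
        have h2 : (commutator K).map K.subtype = (⊤ : Subgroup K).map K.subtype := by
          rw [Subgroup.map_subtype_commutator, heq, ← MonoidHom.range_eq_map,
            Subgroup.range_subtype]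
        have h3 := Subgroup.map_injective K.subtype_injective h2
        exact (ne_of_lt h1) h3
      have hnor : (⁅K, K⁆).Normal := by
        have := hKn
        exact Subgroup.commutator_normal K K
      have hs' : Group.IsSolvable ↥⁅K, K⁆ := by
        have := hs
        exact Group.isSolvable_of_isSolvable_injective (Subgroup.inclusion_injective hle)
      have hcard' : Nat.card ↥⁅K, K⁆ ≤ n := by
        by_contra hcon
        have h5 : Nat.card K ≤ Nat.card ↥⁅K, K⁆ := by omega
        exact hne (Subgroup.eq_of_le_of_card_ge hle h5)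
      obtain ⟨V, p, h1, h2, h3, h4, h5, h6⟩ := ih ⁅K, K⁆ hnor hc hs' hcard'
      exact ⟨V, p, h1, h2, h3, h4, h5.trans hle, h6⟩

/-- In a group all of whose elements have prime power order, commuting elements of coprime
orders cannot both be non-trivial. -/
theorem eppo_no_comm {G : Type*} [Group G] [Finite G]
    (h : ∀ g : G, IsPrimePow (orderOf g) ∨ g = 1) {a b : G} (hc : a * b = b * a)
    (hcop : (orderOf a).Coprime (orderOf b)) (ha : a ≠ 1) : b = 1 := by
  by_contra hb
  have hoa : orderOf a ≠ 1 := fun h1 => ha (orderOf_eq_one_iff.mp h1)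
  have hob : orderOf b ≠ 1 := fun h1 => hb (orderOf_eq_one_iff.mp h1)
  have hab : orderOf (a * b) = orderOf a * orderOf b :=
    Commute.orderOf_mul_eq_mul_orderOf_of_coprime hc hcop
  obtain ⟨p, hp, hpa⟩ := Nat.exists_prime_and_dvd hoa
  obtain ⟨q, hq, hqb⟩ := Nat.exists_prime_and_dvd hob
  have hpq : p ≠ q := by
    rintro rfl
    exact hp.one_lt.ne' (Nat.eq_one_of_dvd_coprimes hcop hpa hqb)
  rcases h (a * b) with hpp | h1
  · rw [hab, isPrimePow_iff_unique_prime_dvd] at hpp
    obtain ⟨r, -, hr⟩ := hpp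
    have e1 := hr p ⟨hp, hpa.trans (Dvd.intro _ rfl)⟩
    have e2 := hr q ⟨hq, hqb.trans (Dvd.intro_left _ rfl)⟩
    exact hpq (e1.trans e2.symm)
  · rw [h1, orderOf_one] at hab
    have := Nat.eq_one_of_mul_eq_one_right hab.symm
    exact hoa this

/-- The product argument: if a group `M ⋊ ⟨y⟩` acts on an abelian group `V` such that `y`, `M`
have no non-trivial fixed points on `V`, and the non-trivial powers of `y` have no non-trivial
fixed points on `M`, then `V` has exponent dividing `|M|`. -/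
theorem frob_lemma {Γ V : Type*} [Group Γ] [CommGroup V] (c : Γ →* MulAut V) (M : Subgroup Γ)
    [Finite M] (y : Γ) (t : ℕ) (ht : 0 < t) (hyt : y ^ t = 1) (hyM : ∀ m ∈ M, y * m * y⁻¹ ∈ M)
    (hB : ∀ v : V, c y v = v → v = 1) (hA : ∀ v : V, (∀ m ∈ M, c m v = v) → v = 1)
    (hC : ∀ m ∈ M, ∀ i, 0 < i → i < t → y ^ i * m * (y ^ i)⁻¹ = m → m = 1) (v : V) :
    v ^ Nat.card M = 1 := by
  classical
  haveI : Fintype M := Fintype.ofFinite _
  have hmul : ∀ (g h : Γ) (w : V), c (g * h) w = c g (c h w) := by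
    intro g h w
    rw [map_mul]; rfl
  have hone : ∀ w : V, c 1 w = w := by
    intro w
    rw [map_one]; rfl
  have hpowM : ∀ j : ℕ, ∀ m ∈ M, y ^ j * m * (y ^ j)⁻¹ ∈ M := by
    intro j
    induction j with
    | zero => intro m hm; simpa using hm
    | succ j ih =>
      intro m hm
      have := hyM _ (ih m hm)
      have e : y ^ (j + 1) * m * (y ^ (j + 1))⁻¹ = y * (y ^ j * m * (y ^ j)⁻¹) * y⁻¹ := by
        rw [pow_succ']; group
      rw [e]; exact this
  -- the norm of `⟨y⟩`
  have hNy : ∀ w : V, ∏ i ∈ Finset.range t, c (y ^ i) w = 1 := by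
    intro w
    apply hB
    rw [map_prod]
    have e : ∀ i, c y (c (y ^ i) w) = c (y ^ (i + 1)) w := by
      intro i; rw [pow_succ', hmul]
    rw [Finset.prod_congr rfl (fun i _ => e i)]
    have h1 := Finset.prod_range_succ (fun i => c (y ^ i) w) t
    have h2 := Finset.prod_range_succ' (fun i => c (y ^ i) w) t
    rw [h2] at h1
    simp only [pow_zero, hyt] at h1
    exact mul_right_cancel h1
  -- the norm of `M`
  have hNM : ∀ w : V, ∏ m : M, c (m : Γ) w = 1 := by
    intro w
    apply hA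
    intro m₀ hm₀
    rw [map_prod]
    apply Fintype.prod_equiv (Equiv.mulLeft (⟨m₀, hm₀⟩ : M))
    intro m
    show c m₀ (c (m : Γ) w) = c ((⟨m₀, hm₀⟩ * m : M) : Γ) w
    rw [Subgroup.coe_mul, hmul]
  -- the total product
  have hT1 : ∏ m : M, ∏ i ∈ Finset.range t, c ((m : Γ) * y ^ i) v = 1 := by
    have : ∀ m : M, ∏ i ∈ Finset.range t, c ((m : Γ) * y ^ i) v =
        c (m : Γ) (∏ i ∈ Finset.range t, c (y ^ i) v) := by
      intro m
      rw [map_prod]
      exact Finset.prod_congr rfl (fun i _ => hmul _ _ _)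
    rw [Finset.prod_congr rfl (fun m _ => this m)]
    simp only [hNy v, map_one, Finset.prod_const_one]
  obtain ⟨t', rfl⟩ : ∃ t', t = t' + 1 := ⟨t - 1, by omega⟩
  rw [Finset.prod_comm, Finset.prod_range_succ'] at hT1
  have h0 : ∏ m : M, c ((m : Γ) * y ^ 0) v = 1 := by
    simpa using hNM v
  rw [h0, mul_one] at hT1
  have hre : ∀ i ∈ Finset.range t', ∏ m : M, c ((m : Γ) * y ^ (i + 1)) v =
      ∏ n : M, c ((n : Γ) * y ^ (i + 1) * (n : Γ)⁻¹) v := by
    intro i hi
    rw [Finset.mem_range] at hi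
    let φ : M → M := fun n => ⟨(n : Γ) * (y ^ (i + 1) * (n : Γ)⁻¹ * (y ^ (i + 1))⁻¹),
      M.mul_mem n.2 (hpowM _ _ (M.inv_mem n.2))⟩
    have hφinj : Function.Injective φ := by
      intro n n' h
      have h' : (n : Γ) * (y ^ (i + 1) * (n : Γ)⁻¹ * (y ^ (i + 1))⁻¹) =
          (n' : Γ) * (y ^ (i + 1) * (n' : Γ)⁻¹ * (y ^ (i + 1))⁻¹) := congrArg Subtype.val h
      have h2 : y ^ (i + 1) * ((n' : Γ)⁻¹ * n) * (y ^ (i + 1))⁻¹ = (n' : Γ)⁻¹ * n := by
        calc y ^ (i + 1) * ((n' : Γ)⁻¹ * n) * (y ^ (i + 1))⁻¹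
            = (n' : Γ)⁻¹ * ((n' : Γ) * (y ^ (i + 1) * (n' : Γ)⁻¹ * (y ^ (i + 1))⁻¹)) *
              (y ^ (i + 1) * (n : Γ)⁻¹ * (y ^ (i + 1))⁻¹)⁻¹ := by group
          _ = (n' : Γ)⁻¹ * ((n : Γ) * (y ^ (i + 1) * (n : Γ)⁻¹ * (y ^ (i + 1))⁻¹)) *
              (y ^ (i + 1) * (n : Γ)⁻¹ * (y ^ (i + 1))⁻¹)⁻¹ := by rw [h']
          _ = (n' : Γ)⁻¹ * n := by group
      have h3 := hC _ (M.mul_mem (M.inv_mem n'.2) n.2) (i + 1) (by omega) (by omega) h2
      exact Subtype.ext (inv_mul_eq_one.mp h3).symm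
    have hφbij : Function.Bijective φ := Finite.injective_iff_bijective.mp hφinj
    symm
    apply Fintype.prod_bijective φ hφbij
    intro n
    have e : (n : Γ) * y ^ (i + 1) * (n : Γ)⁻¹ = ((φ n : M) : Γ) * y ^ (i + 1) := by
      show (n : Γ) * y ^ (i + 1) * (n : Γ)⁻¹ =
        (n : Γ) * (y ^ (i + 1) * (n : Γ)⁻¹ * (y ^ (i + 1))⁻¹) * y ^ (i + 1)
      group
    rw [e]
  rw [Finset.prod_congr rfl hre, Finset.prod_comm] at hT1
  have hn : ∀ n : M, ∏ i ∈ Finset.range t', c ((n : Γ) * y ^ (i + 1) * (n : Γ)⁻¹) v = v⁻¹ := by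
    intro n
    have e1 : ∀ i, c ((n : Γ) * y ^ (i + 1) * (n : Γ)⁻¹) v =
        c (n : Γ) (c (y ^ (i + 1)) (c (n : Γ)⁻¹ v)) := by
      intro i; rw [hmul, hmul]
    rw [Finset.prod_congr rfl (fun i _ => e1 i), ← map_prod]
    have h3 := hNy (c (n : Γ)⁻¹ v)
    rw [Finset.prod_range_succ'] at h3
    simp only [pow_zero] at h3
    rw [hone] at h3
    rw [eq_inv_of_mul_eq_one_left h3, map_inv, ← hmul, mul_inv_cancel, hone]
  rw [Finset.prod_congr rfl (fun n _ => hn n), Finset.prod_const, Finset.card_univ, inv_pow,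
    inv_eq_one] at hT1
  rw [Nat.card_eq_fintype_card]; exact hT1

end Cfsg.Agent.Lib.Helper10.EPPO
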