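import Mathlib
import Cfsg.Prelude.Def_Characters
import Cfsg.Agent.Lib.Helper1.CharFrob
import Cfsg.Agent.Lib.Helper10.Coprime2

/-!
The configuration `L = K ⋊ W₁` with `W₁` a cyclic Hall subgroup and `C_K(x) = W₂` abelian for
every non-identity `x ∈ W₁`: fixed classes and fixed irreducible characters of `K`.
-/

set_option autoImplicit false
open Pointwise

namespace Cfsg.Agent.Lib.Helper10.KW

open Cfsg.Agent.Lib.Helper1 Cfsg.Agent.Lib.Helper10.Coprime Cfsg.Agent.Lib.Helper10.SZ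

universe u

variable {L : Type u} [Group L]

theorem exists_decomp (K W₁ : Subgroup L) [K.Normal] (hKW₁' : K ⊔ W₁ = ⊤) (g : L) :
    ∃ k ∈ K, ∃ w ∈ W₁, g = k * w := by
  have h : g ∈ ((K ⊔ W₁ : Subgroup L) : Set L) := by rw [hKW₁']; exact Subgroup.mem_top g
  rw [Subgroup.normal_mul] at h
  obtain ⟨k, hk, w, hw, rfl⟩ := Set.mem_mul.mp h
  exact ⟨k, hk, w, hw, rfl⟩

theorem cyclic_comm (W : Subgroup L) (hW : IsCyclic W) {a b : L} (ha : a ∈ W) (hb : b ∈ W) :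
    a * b = b * a := by
  have e : (⟨a, ha⟩ : W) * ⟨b, hb⟩ = ⟨b, hb⟩ * ⟨a, ha⟩ :=
    (IsCyclic.commGroup (α := W)).mul_comm _ _
  exact congrArg Subtype.val e

/-- `L / K` is abelian. -/
theorem comm_mem (K W₁ : Subgroup L) [hK : K.Normal] (hKW₁' : K ⊔ W₁ = ⊤) (hW₁c : IsCyclic W₁)
    (x y : L) : x * y * x⁻¹ * y⁻¹ ∈ K := by
  obtain ⟨k, hk, w, hw, rfl⟩ := exists_decomp K W₁ hKW₁' x
  obtain ⟨k', hk', w', hw', rfl⟩ := exists_decomp K W₁ hKW₁' y
  have hcomm : w * w' = w' * w := cyclic_comm W₁ hW₁c hw hw'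
  apply (QuotientGroup.eq_one_iff _).mp
  have h1 : QuotientGroup.mk' K k = 1 := (QuotientGroup.eq_one_iff k).mpr hk
  have h1' : QuotientGroup.mk' K k' = 1 := (QuotientGroup.eq_one_iff k').mpr hk'
  show QuotientGroup.mk' K (k * w * (k' * w') * (k * w)⁻¹ * (k' * w')⁻¹) = 1
  have h2 : QuotientGroup.mk' K (w * w') = QuotientGroup.mk' K (w' * w) := by rw [hcomm]
  rw [map_mul, map_mul] at h2
  simp only [map_mul, map_inv, h1, h1', one_mul]
  rw [h2]
  group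

theorem card_facts [Finite L] (K W₁ : Subgroup L) [hK : K.Normal] (hKW₁ : K ⊓ W₁ = ⊥)
    (hKW₁' : K ⊔ W₁ = ⊤) (hHall : Nat.Coprime (Nat.card W₁) W₁.index) :
    W₁.index = Nat.card K ∧ K.index = Nat.card W₁ ∧ (Nat.card K).Coprime (Nat.card W₁) := by
  have hcompl : Subgroup.IsComplement' K W₁ := by
    apply Subgroup.isComplement'_of_disjoint_and_mul_eq_univ (disjoint_iff.mpr hKW₁)
    rw [← Subgroup.normal_mul, hKW₁']
    rfl
  have h1 : W₁.index = Nat.card K := hcompl.index_eq_card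
  have h2 : K.index = Nat.card W₁ := hcompl.symm.index_eq_card
  refine ⟨h1, h2, ?_⟩
  rw [← h1]
  exact hHall.symm

/-- The inertia group of a function on a normal subgroup. -/
theorem exists_inertia (K : Subgroup L) [hK : K.Normal] (θ : K → ℂ) :
    ∃ T : Subgroup L, ∀ g : L, g ∈ T ↔
      ∀ h : K, θ ⟨g * h * g⁻¹, hK.conj_mem h h.2 g⟩ = θ h := by
  refine ⟨{ carrier := {g | ∀ h : K, θ ⟨g * h * g⁻¹, hK.conj_mem h h.2 g⟩ = θ h}
            mul_mem' := ?_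
            one_mem' := ?_
            inv_mem' := ?_ }, fun g => Iff.rfl⟩
  · intro a b ha hb h
    have e : (⟨a * b * h * (a * b)⁻¹, hK.conj_mem h h.2 (a * b)⟩ : K) =
        ⟨a * ((⟨b * h * b⁻¹, hK.conj_mem h h.2 b⟩ : K) : L) * a⁻¹,
          hK.conj_mem _ (hK.conj_mem h h.2 b) a⟩ := Subtype.ext (by simp [mul_assoc])
    rw [e, ha, hb]
  · intro h
    have e : (⟨1 * (h : L) * 1⁻¹, hK.conj_mem h h.2 1⟩ : K) = h := Subtype.ext (by simp)
    rw [e]
  · intro a ha h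
    have h1 := ha ⟨a⁻¹ * h * a⁻¹⁻¹, hK.conj_mem h h.2 a⁻¹⟩
    have e : (⟨a * ((⟨a⁻¹ * h * a⁻¹⁻¹, hK.conj_mem h h.2 a⁻¹⟩ : K) : L) * a⁻¹,
        hK.conj_mem _ (hK.conj_mem h h.2 a⁻¹) a⟩ : K) = h := Subtype.ext (by simp [mul_assoc])
    rw [e] at h1
    exact h1.symm

section classes

variable [Finite L] (K W₁ W₂ : Subgroup L) [hK : K.Normal]

/-- Two elements of `W₂ = C_K(x)` conjugate under `K` are equal. -/
theorem inj_aux (hKW₁ : K ⊓ W₁ = ⊥) (hcop : (Nat.card K).Coprime (Nat.card W₁))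
    (hW₂ab : ∀ a ∈ W₂, ∀ b ∈ W₂, a * b = b * a) (x : L) (hx : x ∈ W₁)
    (hCx : K ⊓ Subgroup.centralizer ({x} : Set L) = W₂) (u u' k : L) (hu : u ∈ W₂)
    (hu' : u' ∈ W₂) (hk : k ∈ K) (hconj : k * u * k⁻¹ = u') : u = u' := by
  have hxu : ∀ v ∈ W₂, v * x = x * v := by
    intro v hv
    rw [← hCx] at hv
    exact Subgroup.mem_centralizer_singleton_iff.mp (Subgroup.mem_inf.mp hv).2
  have hau : ∀ v ∈ W₂, ∀ a ∈ Subgroup.zpowers x, a * v = v * a := by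
    intro v hv a ha
    obtain ⟨i, rfl⟩ := Subgroup.mem_zpowers_iff.mp ha
    have hc : Commute x v := (hxu v hv).symm
    exact (hc.zpow_left i).eq
  have hcardx : Nat.card (Subgroup.zpowers x) ∣ Nat.card W₁ :=
    Subgroup.card_dvd_of_le (Subgroup.zpowers_le.mpr hx)
  have hHN : Subgroup.zpowers x ≤
      Subgroup.normalizer ((K ⊓ Subgroup.centralizer ({u} : Set L) : Subgroup L) : Set L) := by
    intro a ha
    apply mem_normalizer_of_conj_mem
    intro s hs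
    obtain ⟨hsK, hsC⟩ := Subgroup.mem_inf.mp hs
    refine Subgroup.mem_inf.mpr ⟨hK.conj_mem s hsK a, ?_⟩
    rw [Subgroup.mem_centralizer_singleton_iff] at hsC ⊢
    have h1 := hau u hu a ha
    have h1' : a⁻¹ * u = u * a⁻¹ := by
      have hc : Commute a u := h1
      exact hc.inv_left.eq
    calc a * s * a⁻¹ * u = a * s * (a⁻¹ * u) := by group
      _ = a * (s * u) * a⁻¹ := by rw [h1']; group
      _ = a * (u * s) * a⁻¹ := by rw [hsC]
      _ = (a * u) * s * a⁻¹ := by group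
      _ = u * (a * s * a⁻¹) := by rw [h1]; group
  have hB : MulAut.conj k⁻¹ • Subgroup.zpowers x ≤
      (K ⊓ Subgroup.centralizer ({u} : Set L)) ⊔ Subgroup.zpowers x := by
    intro b hb
    rw [mem_conj_smul_iff, inv_inv] at hb
    -- `a = k b k⁻¹ ∈ ⟨x⟩`
    have h1 : b * (k * b * k⁻¹)⁻¹ ∈ K ⊓ Subgroup.centralizer ({u} : Set L) := by
      refine Subgroup.mem_inf.mpr ⟨?_, ?_⟩
      · have e : b * (k * b * k⁻¹)⁻¹ = (b * k * b⁻¹) * k⁻¹ := by group
        rw [e]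
        exact K.mul_mem (hK.conj_mem k hk b) (K.inv_mem hk)
      · rw [Subgroup.mem_centralizer_singleton_iff]
        -- `b` centralizes `u`, and so does `k b k⁻¹`
        have ha := hau u' hu' _ hb
        have hau2 := hau u hu _ hb
        have hbu : b * u = u * b := by
          have e1 : k * b * k⁻¹ * (k * u * k⁻¹) = k * u * k⁻¹ * (k * b * k⁻¹) := by
            rw [hconj]; exact ha
          have e2 : k * (b * u) * k⁻¹ = k * (u * b) * k⁻¹ := by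
            calc k * (b * u) * k⁻¹ = k * b * k⁻¹ * (k * u * k⁻¹) := by group
              _ = k * u * k⁻¹ * (k * b * k⁻¹) := e1
              _ = k * (u * b) * k⁻¹ := by group
          exact mul_left_cancel (mul_right_cancel e2)
        have hc1 : Commute b u := hbu
        have hc2 : Commute (k * b * k⁻¹) u := hau2
        exact (hc1.mul_left hc2.inv_left).eq
    have h2 := Subgroup.mul_mem_sup h1 hb
    have e : b * (k * b * k⁻¹)⁻¹ * (k * b * k⁻¹) = b := by group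
    rw [e] at h2
    exact h2
  have hcard : Nat.card (MulAut.conj k⁻¹ • Subgroup.zpowers x : Subgroup L) =
      Nat.card (Subgroup.zpowers x) := card_conj_smul _ _
  have hcopD : (Nat.card (K ⊓ Subgroup.centralizer ({u} : Set L) : Subgroup L)).Coprime
      (Nat.card (Subgroup.zpowers x)) :=
    Nat.Coprime.coprime_dvd_left (Subgroup.card_dvd_of_le inf_le_left)
      (Nat.Coprime.coprime_dvd_right hcardx hcop)
  obtain ⟨d, hd, hdconj⟩ := rel_conj _ (Subgroup.zpowers x) _ hHN hB hcard hcopD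
    (Or.inr inferInstance)
  have hnorm : MulAut.conj (k * d) • Subgroup.zpowers x = Subgroup.zpowers x := by
    rw [conj_mul_smul, hdconj, ← conj_mul_smul, mul_inv_cancel, map_one, one_smul]
  have hcx : (k * d) * x * (k * d)⁻¹ ∈ Subgroup.zpowers x :=
    conj_mem_of_smul_eq hnorm (Subgroup.mem_zpowers x)
  have hcK : k * d ∈ K := K.mul_mem hk (Subgroup.mem_inf.mp hd).1
  have ht : (k * d) * x * (k * d)⁻¹ * x⁻¹ ∈ K ⊓ W₁ := by
    refine Subgroup.mem_inf.mpr ⟨?_, ?_⟩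
    · have h1 : x * (k * d)⁻¹ * x⁻¹ ∈ K := hK.conj_mem _ (K.inv_mem hcK) x
      have e : (k * d) * x * (k * d)⁻¹ * x⁻¹ = (k * d) * (x * (k * d)⁻¹ * x⁻¹) := by group
      rw [e]; exact K.mul_mem hcK h1
    · exact W₁.mul_mem ((Subgroup.zpowers_le.mpr hx) hcx) (W₁.inv_mem hx)
  rw [hKW₁, Subgroup.mem_bot] at ht
  have hcW₂ : k * d ∈ W₂ := by
    rw [← hCx]
    refine Subgroup.mem_inf.mpr ⟨hcK, ?_⟩
    rw [Subgroup.mem_centralizer_singleton_iff]
    calc k * d * x = ((k * d) * x * (k * d)⁻¹ * x⁻¹) * (x * (k * d)) := by group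
      _ = x * (k * d) := by rw [ht, one_mul]
  have hdu : d * u = u * d :=
    Subgroup.mem_centralizer_singleton_iff.mp (Subgroup.mem_inf.mp hd).2
  have h1 : k * u * k⁻¹ = (k * d) * u * (k * d)⁻¹ := by
    have hc : Commute d u := hdu
    calc k * u * k⁻¹ = k * (u * d * d⁻¹) * k⁻¹ := by group
      _ = k * (d * u * d⁻¹) * k⁻¹ := by rw [hdu]
      _ = (k * d) * u * (k * d)⁻¹ := by group
  rw [← hconj, h1, hW₂ab _ hcW₂ u hu]
  group

/-- Every `x`-invariant class of `K` meets `C_K(x)`. -/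
theorem surj_aux (hcop : (Nat.card K).Coprime (Nat.card W₁)) (x : L) (hx : x ∈ W₁)
    (g k : L) (hk : k ∈ K) (hconj : k * (x * g * x⁻¹) * k⁻¹ = g) :
    ∃ d ∈ K, x * (d⁻¹ * g * d) = (d⁻¹ * g * d) * x := by
  have hcardx : Nat.card (Subgroup.zpowers x) ∣ Nat.card W₁ :=
    Subgroup.card_dvd_of_le (Subgroup.zpowers_le.mpr hx)
  have hAK : Subgroup.zpowers x ≤ Subgroup.normalizer (K : Set L) := by
    rw [Subgroup.normalizer_eq_top]; exact le_top
  have hc : k * x ∈ Subgroup.centralizer ({g} : Set L) := by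
    rw [Subgroup.mem_centralizer_singleton_iff]
    calc k * x * g = (k * (x * g * x⁻¹) * k⁻¹) * (k * x) := by group
      _ = g * (k * x) := by rw [hconj]
  have hL : ∀ a ∈ Subgroup.zpowers x, ∃ k' ∈ K, k' * a ∈ Subgroup.centralizer ({g} : Set L) := by
    intro a ha
    obtain ⟨i, rfl⟩ := Subgroup.mem_zpowers_iff.mp ha
    refine ⟨(k * x) ^ i * (x ^ i)⁻¹, ?_, ?_⟩
    · apply (QuotientGroup.eq_one_iff _).mp
      have h1 : QuotientGroup.mk' K k = 1 := (QuotientGroup.eq_one_iff k).mpr hk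
      show QuotientGroup.mk' K ((k * x) ^ i * (x ^ i)⁻¹) = 1
      rw [map_mul, map_zpow, map_mul, h1, one_mul, map_inv, map_zpow, mul_inv_cancel]
    · rw [inv_mul_cancel_right]
      exact Subgroup.zpow_mem _ hc i
  obtain ⟨d, hd, hle⟩ := rel_exists_conj_le K (Subgroup.zpowers x) hAK
    (Nat.Coprime.coprime_dvd_right hcardx hcop) (Or.inr inferInstance)
    (Subgroup.centralizer ({g} : Set L)) hL
  have h1 : d * x * d⁻¹ ∈ MulAut.conj d • Subgroup.zpowers x := by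
    rw [mem_conj_smul_iff]
    have e : d⁻¹ * (d * x * d⁻¹) * d = x := by group
    rw [e]; exact Subgroup.mem_zpowers x
  have h2 := hle h1
  rw [Subgroup.mem_centralizer_singleton_iff] at h2
  refine ⟨d, hd, ?_⟩
  calc x * (d⁻¹ * g * d) = d⁻¹ * ((d * x * d⁻¹) * g) * d := by group
    _ = d⁻¹ * (g * (d * x * d⁻¹)) * d := by rw [h2]
    _ = (d⁻¹ * g * d) * x := by group

/-- The number of `x`-invariant classes of `K` is `|C_K(x)|` when the latter is abelian. -/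
theorem card_fixed_classes (hKW₁ : K ⊓ W₁ = ⊥) (hcop : (Nat.card K).Coprime (Nat.card W₁))
    (hW₂ab : ∀ a ∈ W₂, ∀ b ∈ W₂, a * b = b * a) (hW₂K : W₂ ≤ K) (x : L) (hx : x ∈ W₁)
    (hCx : K ⊓ Subgroup.centralizer ({x} : Set L) = W₂) :
    Nat.card {C : ConjClasses K // ConjClasses.map (conjNormal K x).toMonoidHom C = C} =
      Nat.card W₂ := by
  have hxu : ∀ v ∈ W₂, v * x = x * v := by
    intro v hv
    rw [← hCx] at hv
    exact Subgroup.mem_centralizer_singleton_iff.mp (Subgroup.mem_inf.mp hv).2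
  symm
  apply Nat.card_congr
  refine Equiv.ofBijective (fun u : W₂ => ⟨ConjClasses.mk ⟨(u : L), hW₂K u.2⟩, ?_⟩) ⟨?_, ?_⟩
  · show ConjClasses.mk ((conjNormal K x) ⟨(u : L), hW₂K u.2⟩) = ConjClasses.mk ⟨(u : L), hW₂K u.2⟩
    congr 1
    apply Subtype.ext
    show x * (u : L) * x⁻¹ = u
    rw [← hxu u u.2]; group
  · intro u u' h
    have h' : ConjClasses.mk (⟨(u : L), hW₂K u.2⟩ : K) = ConjClasses.mk ⟨(u' : L), hW₂K u'.2⟩ :=
      congrArg Subtype.val h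
    rw [ConjClasses.mk_eq_mk_iff_isConj, isConj_iff] at h'
    obtain ⟨k, hk⟩ := h'
    have hk' : (k : L) * u * (k : L)⁻¹ = u' := congrArg Subtype.val hk
    exact Subtype.ext (inj_aux K W₁ W₂ hKW₁ hcop hW₂ab x hx hCx u u' k u.2 u'.2 k.2 hk')
  · rintro ⟨C, hC⟩
    obtain ⟨g, rfl⟩ := ConjClasses.mk_surjective C
    have hC' : ConjClasses.mk ((conjNormal K x) g) = ConjClasses.mk g := hC
    rw [ConjClasses.mk_eq_mk_iff_isConj, isConj_iff] at hC'
    obtain ⟨k, hk⟩ := hC'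
    have hk' : (k : L) * (x * (g : L) * x⁻¹) * (k : L)⁻¹ = g := congrArg Subtype.val hk
    obtain ⟨d, hd, hcomm⟩ := surj_aux K W₁ hcop x hx g k k.2 hk'
    have hdK : d⁻¹ * (g : L) * d ∈ K := by
      have := hK.conj_mem g g.2 d⁻¹
      simpa using this
    have huW₂ : d⁻¹ * (g : L) * d ∈ W₂ := by
      rw [← hCx]
      exact Subgroup.mem_inf.mpr ⟨hdK, Subgroup.mem_centralizer_singleton_iff.mpr hcomm.symm⟩
    refine ⟨⟨d⁻¹ * (g : L) * d, huW₂⟩, ?_⟩
    apply Subtype.ext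
    show ConjClasses.mk (⟨d⁻¹ * (g : L) * d, _⟩ : K) = ConjClasses.mk g
    rw [ConjClasses.mk_eq_mk_iff_isConj, isConj_iff]
    refine ⟨⟨d, hd⟩, Subtype.ext ?_⟩
    show d * (d⁻¹ * (g : L) * d) * d⁻¹ = g
    group

end classes

section chars

variable [Finite L] (K W₁ W₂ : Subgroup L) [hK : K.Normal]

/-- The number of `x`-invariant irreducible characters of `K` is `|C_K(x)|`. -/
theorem card_fixed_irr (hKW₁ : K ⊓ W₁ = ⊥) (hcop : (Nat.card K).Coprime (Nat.card W₁))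
    (hW₂ab : ∀ a ∈ W₂, ∀ b ∈ W₂, a * b = b * a) (hW₂K : W₂ ≤ K) (x : L) (hx : x ∈ W₁)
    (hCx : K ⊓ Subgroup.centralizer ({x} : Set L) = W₂) :
    Nat.card {χ : Cfsg.IrrCharacter K // (χ : K → ℂ) ∘ (conjNormal K x) = (χ : K → ℂ)} =
      Nat.card W₂ := by
  haveI : Fintype K := Fintype.ofFinite K
  rw [← card_fixed_classes_eq_card_fixed_irr (conjNormal K x)]
  exact card_fixed_classes K W₁ W₂ hKW₁ hcop hW₂ab hW₂K x hx hCx

omit [Finite L] in
/-- A function fixed by a generator of `W₁` is fixed by `W₁`. -/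
theorem fixed_gen (g₁ : W₁) (hg₁ : ∀ y : W₁, y ∈ Subgroup.zpowers g₁) (θ : K → ℂ)
    (hfix : ∀ h : K, θ ⟨(g₁ : L) * h * (g₁ : L)⁻¹, hK.conj_mem h h.2 g₁⟩ = θ h) :
    ∀ x ∈ W₁, ∀ h : K, θ ⟨x * h * x⁻¹, hK.conj_mem h h.2 x⟩ = θ h := by
  obtain ⟨T, hT⟩ := exists_inertia K θ
  have hgT : (g₁ : L) ∈ T := (hT _).mpr hfix
  intro x hx
  obtain ⟨i, hi⟩ := Subgroup.mem_zpowers_iff.mp (hg₁ ⟨x, hx⟩)
  have hxi : x = (g₁ : L) ^ i := by
    have h2 : ((g₁ ^ i : W₁) : L) = x := congrArg Subtype.val hi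
    rw [← h2, Subgroup.coe_zpow]
  have hxT : x ∈ T := by rw [hxi]; exact T.zpow_mem hgT i
  exact (hT x).mp hxT

/-- An irreducible character of `K` fixed by one non-identity element of `W₁` is fixed by all of
`W₁`. -/
theorem fixed_of_fixed (hKW₁ : K ⊓ W₁ = ⊥) (hcop : (Nat.card K).Coprime (Nat.card W₁))
    (hW₁ : W₁ ≠ ⊥) (hW₁c : IsCyclic W₁) (hW₂c : IsCyclic W₂) (hW₂K : W₂ ≤ K)
    (hC : ∀ x ∈ W₁, x ≠ 1 → K ⊓ Subgroup.centralizer ({x} : Set L) = W₂)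
    (θ : K → ℂ) (hθ : Cfsg.IsIrrCharacter K θ) (w : L) (hw : w ∈ W₁) (hw1 : w ≠ 1)
    (hfix : ∀ h : K, θ ⟨w * h * w⁻¹, hK.conj_mem h h.2 w⟩ = θ h) :
    ∀ x ∈ W₁, ∀ h : K, θ ⟨x * h * x⁻¹, hK.conj_mem h h.2 x⟩ = θ h := by
  classical
  haveI : Fintype K := Fintype.ofFinite K
  obtain ⟨g₁, hg₁⟩ := hW₁c.exists_generator
  have hx₁1 : (g₁ : L) ≠ 1 := by
    intro h1
    apply hW₁
    rw [Subgroup.eq_bot_iff_forall]
    intro y hy
    obtain ⟨i, hi⟩ := Subgroup.mem_zpowers_iff.mp (hg₁ ⟨y, hy⟩)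
    have h2 : ((g₁ ^ i : W₁) : L) = y := congrArg Subtype.val hi
    rw [← h2, Subgroup.coe_zpow, h1, one_zpow]
  have hW₂ab : ∀ a ∈ W₂, ∀ b ∈ W₂, a * b = b * a := fun a ha b hb => cyclic_comm W₂ hW₂c ha hb
  letI : Fintype (Cfsg.IrrCharacter K) := irrFintype
  have c1 := card_fixed_irr K W₁ W₂ hKW₁ hcop hW₂ab hW₂K (g₁ : L) g₁.2 (hC _ g₁.2 hx₁1)
  have c2 := card_fixed_irr K W₁ W₂ hKW₁ hcop hW₂ab hW₂K w hw (hC w hw hw1)
  have hsub : ∀ χ : K → ℂ, (χ ∘ conjNormal K (g₁ : L) = χ) → (χ ∘ conjNormal K w = χ) := by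
    intro χ hχ
    funext h
    exact fixed_gen K W₁ g₁ hg₁ χ (fun h => congrFun hχ h) w hw h
  have hF : (Finset.univ.filter (fun χ : Cfsg.IrrCharacter K =>
        (χ : K → ℂ) ∘ conjNormal K (g₁ : L) = (χ : K → ℂ))) =
      Finset.univ.filter (fun χ : Cfsg.IrrCharacter K =>
        (χ : K → ℂ) ∘ conjNormal K w = (χ : K → ℂ)) := by
    apply Finset.eq_of_subset_of_card_le
    · intro χ hχ
      rw [Finset.mem_filter] at hχ ⊢
      exact ⟨hχ.1, hsub _ hχ.2⟩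
    · rw [← Fintype.card_subtype, ← Fintype.card_subtype, ← Nat.card_eq_fintype_card,
        ← Nat.card_eq_fintype_card, c1, c2]
  have hmem : (⟨θ, hθ⟩ : Cfsg.IrrCharacter K) ∈ Finset.univ.filter
      (fun χ : Cfsg.IrrCharacter K => (χ : K → ℂ) ∘ conjNormal K w = (χ : K → ℂ)) := by
    rw [Finset.mem_filter]
    exact ⟨Finset.mem_univ _, funext hfix⟩
  rw [← hF, Finset.mem_filter] at hmem
  exact fixed_gen K W₁ g₁ hg₁ θ (fun h => congrFun hmem.2 h)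

/-- The number of `W₁`-invariant irreducible characters of `K` is `|W₂|`. -/
theorem card_fixed_all (hKW₁ : K ⊓ W₁ = ⊥) (hcop : (Nat.card K).Coprime (Nat.card W₁))
    (hW₁ : W₁ ≠ ⊥) (hW₁c : IsCyclic W₁) (hW₂c : IsCyclic W₂) (hW₂K : W₂ ≤ K)
    (hC : ∀ x ∈ W₁, x ≠ 1 → K ⊓ Subgroup.centralizer ({x} : Set L) = W₂) :
    Nat.card {θ : Cfsg.IrrCharacter K // ∀ x ∈ W₁,
      (fun k : K => (θ : K → ℂ) ⟨x * k * x⁻¹, hK.conj_mem (k : L) k.2 x⟩) = θ} =
      Nat.card W₂ := by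
  obtain ⟨g₁, hg₁⟩ := hW₁c.exists_generator
  have hx₁1 : (g₁ : L) ≠ 1 := by
    intro h1
    apply hW₁
    rw [Subgroup.eq_bot_iff_forall]
    intro y hy
    obtain ⟨i, hi⟩ := Subgroup.mem_zpowers_iff.mp (hg₁ ⟨y, hy⟩)
    have h2 : ((g₁ ^ i : W₁) : L) = y := congrArg Subtype.val hi
    rw [← h2, Subgroup.coe_zpow, h1, one_zpow]
  have hW₂ab : ∀ a ∈ W₂, ∀ b ∈ W₂, a * b = b * a := fun a ha b hb => cyclic_comm W₂ hW₂c ha hb
  rw [← card_fixed_irr K W₁ W₂ hKW₁ hcop hW₂ab hW₂K (g₁ : L) g₁.2 (hC _ g₁.2 hx₁1)]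
  apply Nat.card_congr
  apply Equiv.subtypeEquivRight
  intro θ
  constructor
  · intro h
    exact h g₁ g₁.2
  · intro h x hx
    funext k
    exact fixed_gen K W₁ g₁ hg₁ θ (fun h' => congrFun h h') x hx k

end chars

end Cfsg.Agent.Lib.Helper10.KW
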