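import Mathlib
import Cfsg.Prelude.Def_LieExceptional
import Cfsg.Prelude.Def_Solvable
import Cfsg.Agent.S0005
import Cfsg.Agent.S0040
import Cfsg.Agent.S1474

/-!
Solvable CN-groups: tools for the Frobenius / three-step dichotomy.
-/

set_option autoImplicit false

namespace Cfsg.Agent.Lib.Helper10.CNSolv

open Cfsg.Agent.Lib.Helper10.CN Cfsg.Agent.Lib.Helper10.CNQuot Cfsg.Agent.Lib.Helper10.EPPO

open scoped commutatorElement

universe u

/-- Sylow subgroups of a group acting without fixed points on a nontrivial normal subgroup are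
cyclic or generalized quaternion (no complement hypothesis). -/
theorem fpf_sylow {G : Type*} [Group G] [Finite G] (K H : Subgroup G) [K.Normal]
    (hK : K ≠ ⊥) (hfpf : ∀ h ∈ H, h ≠ 1 → K ⊓ Subgroup.centralizer {h} = ⊥)
    (p : ℕ) [Fact p.Prime] (P : Sylow p H) :
    IsCyclic P ∨ ∃ n : ℕ, Nonempty (P ≃* QuaternionGroup (2 ^ n)) := by
  have hpp : p.Prime := Fact.out
  have h16 : IsCyclic P ∨ (p = 2 ∧ ∃ n : ℕ, Nonempty (P ≃* QuaternionGroup (2 ^ n))) := by
    apply Cfsg.Agent.S0016.result p P.isPGroup'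
    intro X Y hX hY
    -- P is nontrivial
    have hPne : Nontrivial P := by
      have : Nontrivial X := by
        rw [← Finite.one_lt_card_iff_nontrivial, hX]; exact hpp.one_lt
      obtain ⟨x, y, hxy⟩ := this
      exact ⟨⟨(x : P), (y : P), fun h => hxy (Subtype.ext h)⟩⟩
    have hcn : Nontrivial (Subgroup.center P) := P.isPGroup'.center_nontrivial
    have hdvd : p ∣ Nat.card (Subgroup.center P) := by
      have hZp : IsPGroup p (Subgroup.center P) := P.isPGroup'.to_subgroup _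
      obtain ⟨n, hn⟩ := IsPGroup.iff_card.mp hZp
      have hn0 : n ≠ 0 := by
        rintro rfl
        rw [pow_zero] at hn
        have := (Finite.one_lt_card_iff_nontrivial).mpr hcn
        omega
      rw [hn]; exact dvd_pow_self p hn0
    obtain ⟨z₀, hz₀⟩ := exists_prime_orderOf_dvd_card' (G := Subgroup.center P) p hdvd
    have hz₀' : orderOf (z₀ : P) = p := by rw [Subgroup.orderOf_coe]; exact hz₀
    have key : ∀ u : P, orderOf u = p → u ∈ Subgroup.zpowers (z₀ : P) := by
      intro u hu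
      have hab : ((u : H) : G) * (((z₀ : P) : H) : G) = (((z₀ : P) : H) : G) * ((u : H) : G) := by
        have h1 := Subgroup.mem_center_iff.mp z₀.2 u
        have h2 := congrArg (fun t : P => ((t : H) : G)) h1
        simpa using h2
      set a : G := ((u : H) : G) with ha
      set b : G := (((z₀ : P) : H) : G) with hb
      have hAH : Subgroup.closure ({a, b} : Set G) ≤ H := by
        rw [Subgroup.closure_le]
        rintro x (rfl | rfl)
        · exact (u : H).2
        · exact ((z₀ : P) : H).2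
      have hAP : Subgroup.closure ({a, b} : Set G) ≤ (P : Subgroup H).map H.subtype := by
        rw [Subgroup.closure_le]
        rintro x (rfl | rfl)
        · exact ⟨(u : H), u.2, rfl⟩
        · exact ⟨((z₀ : P) : H), (z₀ : P).2, rfl⟩
      have hAp : IsPGroup p (Subgroup.closure ({a, b} : Set G)) :=
        (P.isPGroup'.map H.subtype).to_le hAP
      have hcomm := Cfsg.Agent.S0040.comm_closure_pair a b hab
      have hAc : IsMulCommutative (Subgroup.closure ({a, b} : Set G)) :=
        ⟨⟨fun x y => Subtype.ext (hcomm x x.2 y y.2)⟩⟩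
      have hcyc := Cfsg.Agent.S0040.abelian_cyclic K H hK hfpf p _ hAH hAp hAc
      obtain ⟨g, hg⟩ := hcyc.exists_generator
      have haA : a ∈ Subgroup.closure ({a, b} : Set G) := Subgroup.subset_closure (by simp)
      have hbA : b ∈ Subgroup.closure ({a, b} : Set G) := Subgroup.subset_closure (by simp)
      have hag : a ∈ Subgroup.zpowers (g : G) := by
        obtain ⟨i, hi⟩ := Subgroup.mem_zpowers_iff.mp (hg ⟨a, haA⟩)
        refine Subgroup.mem_zpowers_iff.mpr ⟨i, ?_⟩
        have := congrArg Subtype.val hi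
        simpa using this
      have hbg : b ∈ Subgroup.zpowers (g : G) := by
        obtain ⟨i, hi⟩ := Subgroup.mem_zpowers_iff.mp (hg ⟨b, hbA⟩)
        refine Subgroup.mem_zpowers_iff.mpr ⟨i, ?_⟩
        have := congrArg Subtype.val hi
        simpa using this
      have hordb : orderOf b = p := by
        have e1 : orderOf (((z₀ : P) : H) : G) = orderOf ((z₀ : P) : H) := Subgroup.orderOf_coe _
        have e2 : orderOf ((z₀ : P) : H) = orderOf (z₀ : P) :=
          orderOf_injective (P : Subgroup H).subtype Subtype.coe_injective (z₀ : P)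
        rw [hb, e1, e2, hz₀']
      have horda : orderOf a = p := by
        have e1 : orderOf ((u : H) : G) = orderOf (u : H) := Subgroup.orderOf_coe _
        have e2 : orderOf (u : H) = orderOf u :=
          orderOf_injective (P : Subgroup H).subtype Subtype.coe_injective u
        rw [ha, e1, e2, hu]
      have hap : a ^ orderOf b = 1 := by rw [hordb, ← horda]; exact pow_orderOf_eq_one a
      have hmem := Cfsg.Agent.Lib.Helper18.UniqueInvolution.mem_zpowers_of_pow_orderOf
        (g : G) a b hag hbg hap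
      obtain ⟨i, hi⟩ := Subgroup.mem_zpowers_iff.mp hmem
      refine Subgroup.mem_zpowers_iff.mpr ⟨i, ?_⟩
      apply Subtype.ext
      apply Subtype.ext
      have : (((z₀ : P) ^ i : P) : H) = (((z₀ : P) : H)) ^ i := by simp
      rw [this]
      have : ((((z₀ : P) : H) ^ i : H) : G) = b ^ i := by simp [hb]
      rw [this, hi]
    have hsub : ∀ W : Subgroup P, Nat.card W = p → W = Subgroup.zpowers (z₀ : P) := by
      intro W hW
      apply Subgroup.eq_of_le_of_card_ge
      · intro w hw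
        by_cases hw1 : w = 1
        · rw [hw1]; exact Subgroup.one_mem _
        · apply key
          have h1 : orderOf w ∣ p := by
            have h0 := Subgroup.orderOf_dvd_natCard W hw
            rw [hW] at h0
            exact h0
          rcases (Nat.dvd_prime hpp).mp h1 with h | h
          · exact absurd (orderOf_eq_one_iff.mp h) hw1
          · exact h
      · rw [Nat.card_zpowers, hz₀', hW]
    rw [hsub X hX, hsub Y hY]
  rcases h16 with h | ⟨-, h⟩
  · exact Or.inl h
  · exact Or.inr h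

variable {G : Type*} [Group G]

/-- Two commuting elements of the same prime order in a group acting without fixed points
generate the same subgroup. -/
theorem mem_zpowers_of_comm [Finite G] (K H : Subgroup G) [K.Normal]
    (hK : K ≠ ⊥) (hfpf : ∀ h ∈ H, h ≠ 1 → K ⊓ Subgroup.centralizer {h} = ⊥)
    (r : ℕ) [hr : Fact r.Prime] (u z : G) (hu : u ∈ H) (hz : z ∈ H) (hur : orderOf u = r)
    (hzr : orderOf z = r) (hcomm : u * z = z * u) : u ∈ Subgroup.zpowers z := by
  have hAH : Subgroup.closure ({u, z} : Set G) ≤ H := by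
    rw [Subgroup.closure_le]
    rintro x (rfl | rfl)
    · exact hu
    · exact hz
  have hcomm' := Cfsg.Agent.S0040.comm_closure_pair u z hcomm
  have hAc : IsMulCommutative (Subgroup.closure ({u, z} : Set G)) :=
    ⟨⟨fun x y => Subtype.ext (hcomm' x x.2 y y.2)⟩⟩
  have hpow : ∀ x ∈ Subgroup.closure ({u, z} : Set G), x ^ r = 1 := by
    intro x hx
    induction hx using Subgroup.closure_induction with
    | mem y hy =>
      rcases hy with rfl | rfl
      · rw [← hur]; exact pow_orderOf_eq_one _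
      · rw [← hzr]; exact pow_orderOf_eq_one _
    | one => exact one_pow _
    | mul a b ha hb iha ihb =>
      have hc : Commute a b := hcomm' a ha b hb
      rw [hc.mul_pow, iha, ihb, one_mul]
    | inv a ha iha => rw [inv_pow, iha, inv_one]
  have hAp : IsPGroup r (Subgroup.closure ({u, z} : Set G)) := by
    intro x
    refine ⟨1, ?_⟩
    apply Subtype.ext
    rw [pow_one]
    simpa using hpow x x.2
  have hcyc := Cfsg.Agent.S0040.abelian_cyclic K H hK hfpf r _ hAH hAp hAc
  obtain ⟨g, hg⟩ := hcyc.exists_generator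
  have huA : u ∈ Subgroup.closure ({u, z} : Set G) := Subgroup.subset_closure (by simp)
  have hzA : z ∈ Subgroup.closure ({u, z} : Set G) := Subgroup.subset_closure (by simp)
  have hug : u ∈ Subgroup.zpowers (g : G) := by
    obtain ⟨i, hi⟩ := Subgroup.mem_zpowers_iff.mp (hg ⟨u, huA⟩)
    refine Subgroup.mem_zpowers_iff.mpr ⟨i, ?_⟩
    have := congrArg Subtype.val hi
    simpa using this
  have hzg : z ∈ Subgroup.zpowers (g : G) := by
    obtain ⟨i, hi⟩ := Subgroup.mem_zpowers_iff.mp (hg ⟨z, hzA⟩)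
    refine Subgroup.mem_zpowers_iff.mpr ⟨i, ?_⟩
    have := congrArg Subtype.val hi
    simpa using this
  have hup : u ^ orderOf z = 1 := by rw [hzr, ← hur]; exact pow_orderOf_eq_one u
  exact Cfsg.Agent.Lib.Helper18.UniqueInvolution.mem_zpowers_of_pow_orderOf (g : G) u z hug hzg hup

/-- A group acting without fixed points on a non-trivial normal abelian subgroup has at most
one involution. -/
theorem invol_unique (Z E : Subgroup G) [hZn : Z.Normal] (hZ : Z ≠ ⊥)
    (hZab : ∀ a ∈ Z, ∀ b ∈ Z, a * b = b * a)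
    (hfpf : ∀ e ∈ E, e ≠ 1 → ∀ v ∈ Z, e * v = v * e → v = 1)
    (t t' : G) (ht : t ∈ E) (ht1 : t ≠ 1) (ht2 : t * t = 1) (ht' : t' ∈ E) (ht'1 : t' ≠ 1)
    (ht'2 : t' * t' = 1) : t' = t := by
  obtain ⟨v₀, hv₀1⟩ := (Subgroup.ne_bot_iff_exists_ne_one).mp hZ
  have hv₀1' : (v₀ : G) ≠ 1 := fun h => hv₀1 (Subtype.ext h)
  by_contra hne
  have hprod1 : t * t' ≠ 1 := by
    intro h
    apply hne
    have h3 : t' = t⁻¹ := eq_inv_of_mul_eq_one_right h
    rw [h3]; exact inv_eq_of_mul_eq_one_left ht2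
  have e2 := Cfsg.Agent.S1474.invol_inverts Z E hZab hfpf t' ht' ht'1 ht'2 (v₀ : G) v₀.2
  have e3 := Cfsg.Agent.S1474.invol_inverts Z E hZab hfpf t ht ht1 ht2 ((v₀ : G)⁻¹)
    (Z.inv_mem v₀.2)
  have e4 : (t * t') * (v₀ : G) * (t * t')⁻¹ = v₀ := by
    calc (t * t') * (v₀ : G) * (t * t')⁻¹ = t * (t' * (v₀ : G) * t'⁻¹) * t⁻¹ := by group
      _ = t * (v₀ : G)⁻¹ * t⁻¹ := by rw [e2]
      _ = v₀ := by rw [e3, inv_inv]
  have hcomm : (t * t') * (v₀ : G) = (v₀ : G) * (t * t') := by
    calc (t * t') * (v₀ : G) = (t * t') * (v₀ : G) * (t * t')⁻¹ * (t * t') := by group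
      _ = (v₀ : G) * (t * t') := by rw [e4]
  exact hv₀1' (hfpf _ (E.mul_mem ht ht') hprod1 v₀ v₀.2 hcomm)

/-- A subgroup of a CN-group acting without fixed points on a non-trivial normal abelian
subgroup of coprime order is nilpotent, provided its Sylow subgroups are cyclic when its order
is odd. -/
theorem nilp_of_fpf [Finite G] (hCN : Cfsg.IsCNGroup G) (Z E : Subgroup G)
    [hZn : Z.Normal] (hZ : Z ≠ ⊥) (hZab : ∀ a ∈ Z, ∀ b ∈ Z, a * b = b * a)
    (hcop : (Nat.card E).Coprime (Nat.card Z))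
    (hfpf' : ∀ e ∈ E, e ≠ 1 → ∀ v ∈ Z, e * v = v * e → v = 1)
    (hsyl : ¬ 2 ∣ Nat.card E → IsZGroup E) :
    Group.IsNilpotent E := by
  have hsuff : (∃ x ∈ E, x ≠ 1 ∧ ∀ y ∈ E, y * x = x * y) → Group.IsNilpotent E := by
    rintro ⟨x, hxE, hx1, hxc⟩
    refine isNilpotent_of_le' ?_ (hCN x hx1)
    intro y hy
    exact Subgroup.mem_centralizer_singleton_iff.mpr (hxc y hy)
  by_cases hE1 : E = ⊥
  · subst hE1
    infer_instance
  by_cases h2 : 2 ∣ Nat.card E
  · haveI : Fact (Nat.Prime 2) := ⟨Nat.prime_two⟩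
    obtain ⟨t, ht⟩ := exists_prime_orderOf_dvd_card' 2 h2
    have ht1 : (t : G) ≠ 1 := by
      intro h
      have h3 : t = 1 := Subtype.ext h
      rw [h3, orderOf_one] at ht
      omega
    have ht2 : (t : G) * (t : G) = 1 := by
      have h3 : t ^ 2 = 1 := by rw [← ht]; exact pow_orderOf_eq_one t
      have h4 := congrArg Subtype.val h3
      simpa [pow_two] using h4
    apply hsuff
    exact ⟨(t : G), t.2, ht1, fun y hy => Cfsg.Agent.S1474.invol_central Z E hZ hZab hfpf' t t.2 ht1 ht2 y hy⟩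
  · haveI hZG : IsZGroup E := hsyl h2
    have hcyc : IsCyclic (commutator E) := IsZGroup.isCyclic_commutator E
    by_cases hD : commutator E = ⊥
    · obtain ⟨x, hx1⟩ := (Subgroup.ne_bot_iff_exists_ne_one).mp hE1
      apply hsuff
      refine ⟨x, x.2, fun h => hx1 (Subtype.ext h), fun y hy => ?_⟩
      have h3 : ⁅(⟨y, hy⟩ : E), x⁆ ∈ commutator E := by
        rw [commutator_def]
        exact Subgroup.commutator_mem_commutator (Subgroup.mem_top _) (Subgroup.mem_top _)
      rw [hD, Subgroup.mem_bot] at h3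
      have h4 := commutatorElement_eq_one_iff_mul_comm.mp h3
      exact congrArg Subtype.val h4
    · haveI : Nontrivial (commutator E) := (Subgroup.nontrivial_iff_ne_bot _).mpr hD
      obtain ⟨q, hq, hqd⟩ := Nat.exists_prime_and_dvd (Finite.one_lt_card (α := commutator E)).ne'
      haveI : Fact q.Prime := ⟨hq⟩
      obtain ⟨x, hxq⟩ := exists_prime_orderOf_dvd_card' q hqd
      have hx₁q : orderOf (x : E) = q := by rw [Subgroup.orderOf_coe, hxq]
      have hx₀q : orderOf ((x : E) : G) = q := by rw [Subgroup.orderOf_coe, hx₁q]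
      have hx₀1 : ((x : E) : G) ≠ 1 := by
        intro h; rw [h, orderOf_one] at hx₀q; exact hq.one_lt.ne hx₀q
      have hconj : ∀ y : E, ∀ m ∈ Subgroup.zpowers ((x : E) : G),
          (y : G) * m * (y : G)⁻¹ ∈ Subgroup.zpowers ((x : E) : G) := by
        intro y m hm
        obtain ⟨k, rfl⟩ := Subgroup.mem_zpowers_iff.mp hm
        have hw : y * (x : E) * y⁻¹ ∈ commutator E :=
          (inferInstance : (commutator E).Normal).conj_mem (x : E) x.2 y
        have hw2 : (⟨y * (x : E) * y⁻¹, hw⟩ : commutator E) ^ q = 1 := by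
          apply Subtype.ext
          show (y * (x : E) * y⁻¹) ^ q = 1
          rw [conj_pow, ← hx₁q, pow_orderOf_eq_one]; group
        have hmem := Cfsg.Agent.S1474.mem_zpowers_of_cyclic q hq x ⟨y * (x : E) * y⁻¹, hw⟩ hxq hw2
        obtain ⟨j, hj⟩ := Subgroup.mem_zpowers_iff.mp hmem
        have hj' : ((x : E) : G) ^ j = (y : G) * (x : E) * (y : G)⁻¹ := by
          have := congrArg (fun d : commutator E => ((d : E) : G)) hj
          simpa using this
        refine Subgroup.mem_zpowers_iff.mpr ⟨j * k, ?_⟩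
        rw [zpow_mul, hj', conj_zpow]
      apply hsuff
      refine ⟨((x : E) : G), (x : E).2, hx₀1, ?_⟩
      have hle : E ≤ Subgroup.centralizer {((x : E) : G)} := by
        apply le_of_sylow_le
        intro r hr
        haveI : Fact r.Prime := ⟨hr⟩
        by_cases hrq : r = q
        · subst hrq
          have hpg : IsPGroup r (Subgroup.zpowers (x : E)) := by
            apply IsPGroup.of_card (n := 1)
            rw [Nat.card_zpowers, hx₁q, pow_one]
          obtain ⟨R, hR⟩ := hpg.exists_le_sylow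
          refine ⟨R, fun c hc => ?_⟩
          have hRc : IsCyclic R := hZG.isZGroup r hr R
          have h1 : c * (x : E) = (x : E) * c :=
            Cfsg.Agent.Lib.Helper10.KW.cyclic_comm (R : Subgroup E) hRc hc
              (hR (Subgroup.mem_zpowers (x : E)))
          exact Subgroup.mem_centralizer_singleton_iff.mpr (congrArg Subtype.val h1)
        · obtain ⟨R⟩ : Nonempty (Sylow r E) := inferInstance
          refine ⟨R, fun c hc => ?_⟩
          rw [Subgroup.mem_centralizer_singleton_iff]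
          by_cases hc1 : c = 1
          · rw [hc1]; simp
          obtain ⟨k, hk⟩ := (IsPGroup.iff_orderOf.mp R.isPGroup') ⟨c, hc⟩
          have hck : orderOf (c : G) = r ^ k := by
            rw [Subgroup.orderOf_coe, ← hk]
            exact (Subgroup.orderOf_mk c hc).symm
          have hk0 : k ≠ 0 := by
            rintro rfl
            rw [pow_zero] at hck
            exact hc1 (Subtype.ext (orderOf_eq_one_iff.mp hck))
          have hzr : orderOf ((c : G) ^ r ^ (k - 1)) = r := by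
            apply orderOf_eq_prime
            · rw [← pow_mul, ← pow_succ, Nat.sub_add_cancel (Nat.pos_of_ne_zero hk0), ← hck,
                pow_orderOf_eq_one]
            · apply pow_ne_one_of_lt_orderOf (pow_ne_zero _ hr.ne_zero)
              rw [hck]
              exact Nat.pow_lt_pow_right hr.one_lt (by omega)
          have hzE : (c : G) ^ r ^ (k - 1) ∈ E := E.pow_mem c.2 _
          have hzc : (c : G) ^ r ^ (k - 1) * (c : G) = c * (c : G) ^ r ^ (k - 1) :=
            (Commute.pow_self (c : G) _)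
          have hzx : (c : G) ^ r ^ (k - 1) * ((x : E) : G) = (x : E) * (c : G) ^ r ^ (k - 1) :=
            Cfsg.Agent.S1474.comm_of_normalizes Z E hZ hZab hcop hfpf' ((x : E) : G) _ (x : E).2 hzE q r hq hr
              hx₀q hzr (fun m hm => hconj ⟨_, hzE⟩ m hm)
          have hz1 : (c : G) ^ r ^ (k - 1) ≠ 1 := by
            intro h; rw [h, orderOf_one] at hzr; exact hr.one_lt.ne hzr
          have hcC : (c : G) ∈ Subgroup.centralizer {(c : G) ^ r ^ (k - 1)} :=
            Subgroup.mem_centralizer_singleton_iff.mpr hzc.symm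
          have hxC : ((x : E) : G) ∈ Subgroup.centralizer {(c : G) ^ r ^ (k - 1)} :=
            Subgroup.mem_centralizer_singleton_iff.mpr hzx.symm
          exact comm_of_nilpotent _ (hCN _ hz1) hcC hxC ⟨k, hck⟩
            (by rw [hx₀q]; exact (Nat.coprime_primes hq hr).mpr (Ne.symm hrq))
      exact fun y hy => Subgroup.mem_centralizer_singleton_iff.mp (hle hy)

/-- In a normal nilpotent subgroup, the `q`-elements lie in a normal `q`-subgroup of the whole
group. -/
theorem normal_qsub [Finite G] (F : Subgroup G) [hFn : F.Normal] (hF : Group.IsNilpotent F)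
    (q : ℕ) [hq : Fact q.Prime] :
    ∃ Q : Subgroup G, Q.Normal ∧ IsPGroup q Q ∧
      ∀ y ∈ F, (∃ k, orderOf y = q ^ k) → y ∈ Q := by
  haveI := hF
  obtain ⟨Qf⟩ : Nonempty (Sylow q F) := inferInstance
  have hall : ∀ y ∈ F, (∃ k, orderOf y = q ^ k) → y ∈ (Qf : Subgroup F).map F.subtype := by
    rintro y hy ⟨k, hk⟩
    have hpg : IsPGroup q (Subgroup.zpowers (⟨y, hy⟩ : F)) := by
      apply IsPGroup.of_card (n := k)
      rw [Nat.card_zpowers, Subgroup.orderOf_mk, hk]
    obtain ⟨S, hS⟩ := hpg.exists_le_sylow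
    have h1 : (Qf : Subgroup F) ≤ S := IsPGroup.le_sylow_of_normal Qf.isPGroup' S
    have h2 : (S : Subgroup F) = Qf := Qf.is_maximal' S.isPGroup' h1
    have h3 : (⟨y, hy⟩ : F) ∈ (Qf : Subgroup F) := by
      rw [← h2]; exact hS (Subgroup.mem_zpowers _)
    exact ⟨⟨y, hy⟩, h3, rfl⟩
  have hQp : IsPGroup q ((Qf : Subgroup F).map F.subtype) := Qf.isPGroup'.map _
  refine ⟨(Qf : Subgroup F).map F.subtype, ⟨?_⟩, hQp, hall⟩
  intro y hy g
  have hyF : y ∈ F := by
    obtain ⟨y', -, rfl⟩ := hy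
    exact y'.2
  obtain ⟨k, hk⟩ := (IsPGroup.iff_orderOf.mp hQp) ⟨y, hy⟩
  have hk' : orderOf y = q ^ k := by rw [← hk, Subgroup.orderOf_mk]
  apply hall _ (hFn.conj_mem y hyF g)
  refine ⟨k, ?_⟩
  rw [← hk']
  exact MulEquiv.orderOf_eq (MulAut.conj g) y

/-- If `a` has no non-trivial fixed point on the finite normal subgroup `H`, every element of
`H` is a commutator `[h, a]`. -/
theorem surj_comm [Finite G] (H : Subgroup G) [hHn : H.Normal] (a : G)
    (hfix : H ⊓ Subgroup.centralizer ({a} : Set G) = ⊥) (c : G) (hc : c ∈ H) :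
    ∃ h ∈ H, h * a * h⁻¹ * a⁻¹ = c := by
  have hmem : ∀ h : H, (h : G) * a * (h : G)⁻¹ * a⁻¹ ∈ H := by
    intro h
    have h1 := hHn.conj_mem (h : G)⁻¹ (H.inv_mem h.2) a
    have e : (h : G) * a * (h : G)⁻¹ * a⁻¹ = (h : G) * (a * (h : G)⁻¹ * a⁻¹) := by group
    rw [e]; exact H.mul_mem h.2 h1
  have hinj : Function.Injective
      (fun h : H => (⟨(h : G) * a * (h : G)⁻¹ * a⁻¹, hmem h⟩ : H)) := by
    intro h h' hh
    have h1 : (h : G) * a * (h : G)⁻¹ * a⁻¹ = (h' : G) * a * (h' : G)⁻¹ * a⁻¹ :=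
      congrArg Subtype.val hh
    have h3 : (h : G) * a * (h : G)⁻¹ = (h' : G) * a * (h' : G)⁻¹ := by
      calc (h : G) * a * (h : G)⁻¹ = ((h : G) * a * (h : G)⁻¹ * a⁻¹) * a := by group
        _ = ((h' : G) * a * (h' : G)⁻¹ * a⁻¹) * a := by rw [h1]
        _ = (h' : G) * a * (h' : G)⁻¹ := by group
    have h2 : (h' : G)⁻¹ * (h : G) ∈ H ⊓ Subgroup.centralizer ({a} : Set G) := by
      refine Subgroup.mem_inf.mpr ⟨H.mul_mem (H.inv_mem h'.2) h.2, ?_⟩
      rw [Subgroup.mem_centralizer_singleton_iff]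
      calc (h' : G)⁻¹ * (h : G) * a = (h' : G)⁻¹ * ((h : G) * a * (h : G)⁻¹) * h := by group
        _ = (h' : G)⁻¹ * ((h' : G) * a * (h' : G)⁻¹) * h := by rw [h3]
        _ = a * ((h' : G)⁻¹ * (h : G)) := by group
    rw [hfix, Subgroup.mem_bot] at h2
    apply Subtype.ext
    calc (h : G) = (h' : G) * ((h' : G)⁻¹ * (h : G)) := by group
      _ = h' := by rw [h2, mul_one]
  obtain ⟨h, hh⟩ := (Finite.injective_iff_surjective.mp hinj) ⟨c, hc⟩
  exact ⟨h, h.2, congrArg Subtype.val hh⟩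

/-- A non-trivial normal subgroup contained in a Sylow `p`-subgroup `P` contains a non-trivial
element central in `P`. -/
theorem exists_central [Finite G] (p : ℕ) [Fact p.Prime] (P : Sylow p G) (H : Subgroup G)
    [hHn : H.Normal] (hH : H ≠ ⊥) (hHP : H ≤ P) :
    ∃ z ∈ H, z ≠ 1 ∧ ∀ x ∈ (P : Subgroup G), x * z = z * x := by
  haveI : Group.IsNilpotent (P : Subgroup G) := P.isPGroup'.isNilpotent
  have hne : H.subgroupOf (P : Subgroup G) ≠ ⊥ := by
    obtain ⟨a, ha1⟩ := (Subgroup.ne_bot_iff_exists_ne_one).mp hH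
    intro h
    have hm : (⟨a, hHP a.2⟩ : (P : Subgroup G)) ∈ H.subgroupOf (P : Subgroup G) :=
      Subgroup.mem_subgroupOf.mpr a.2
    rw [h, Subgroup.mem_bot] at hm
    have h2 : (a : G) = 1 := congrArg Subtype.val hm
    exact ha1 (Subtype.ext h2)
  obtain ⟨z, hzH, hz1, hzc⟩ := inf_center_ne_bot _ hne
  exact ⟨(z : G), Subgroup.mem_subgroupOf.mp hzH, fun h => hz1 (Subtype.ext h),
    fun x hx => congrArg Subtype.val (hzc ⟨x, hx⟩)⟩

/-- The centre of a non-trivial normal `p`-subgroup, as a normal abelian subgroup. -/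
theorem center_sub [Finite G] (p : ℕ) [hp : Fact p.Prime] (H : Subgroup G) [hHn : H.Normal]
    (hHp : IsPGroup p H) (hH : H ≠ ⊥) :
    ∃ Z : Subgroup G, Z.Normal ∧ Z ≠ ⊥ ∧ Z ≤ H ∧ (∀ a ∈ Z, ∀ b ∈ Z, a * b = b * a) ∧
      ∀ v ∈ Z, ∀ x ∈ H, x * v = v * x := by
  haveI hHnil : Group.IsNilpotent H := hHp.isNilpotent
  haveI hHnt : Nontrivial H := (Subgroup.nontrivial_iff_ne_bot _).mpr hH
  obtain ⟨z₀, -, hz₀1, hz₀c⟩ := inf_center_ne_bot (⊤ : Subgroup H) top_ne_bot
  have hc : ∀ v ∈ H ⊓ Subgroup.centralizer (H : Set G), ∀ x ∈ H, x * v = v * x := by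
    intro v hv x hx
    exact Subgroup.mem_centralizer_iff.mp (Subgroup.mem_inf.mp hv).2 x hx
  refine ⟨H ⊓ Subgroup.centralizer (H : Set G), inferInstance, ?_, inf_le_left, ?_, hc⟩
  · intro h
    have hz₀Z : (z₀ : G) ∈ H ⊓ Subgroup.centralizer (H : Set G) := by
      refine Subgroup.mem_inf.mpr ⟨z₀.2, ?_⟩
      rw [Subgroup.mem_centralizer_iff]
      intro x hx
      exact congrArg Subtype.val (hz₀c ⟨x, hx⟩)
    rw [h, Subgroup.mem_bot] at hz₀Z
    exact hz₀1 (Subtype.ext hz₀Z)
  · intro a ha b hb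
    exact hc b hb a (Subgroup.mem_inf.mp ha).1

/-- In a CN-group whose Sylow `p`-subgroup is not normal but which has a non-trivial normal
`p`-subgroup, there is no non-trivial normal `q`-subgroup for `q ≠ p`. -/
theorem no_normal_q [Finite G] (hCN : Cfsg.IsCNGroup G) (p : ℕ) [hp : Fact p.Prime]
    (P : Sylow p G) (hPn : ¬ (P : Subgroup G).Normal) (H : Subgroup G) [hHn : H.Normal]
    (hHp : IsPGroup p H) (hH : H ≠ ⊥) (q : ℕ) (hq : q.Prime) (hqp : q ≠ p) (Q : Subgroup G)
    (hQn : Q.Normal) (hQq : IsPGroup q Q) : Q = ⊥ := by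
  by_contra hQ1
  haveI : Fact q.Prime := ⟨hq⟩
  have hHP : H ≤ P := hHp.le_sylow_of_normal P
  obtain ⟨z, hzH, hz1, hzc⟩ := exists_central p P H hH hHP
  have hdisj : ∀ x : G, x ∈ H → x ∈ Q → x = 1 := by
    intro x hxH hxQ
    have h := (IsPGroup.disjoint_of_ne p q (Ne.symm hqp) H Q hHp hQq).le_bot
      (Subgroup.mem_inf.mpr ⟨hxH, hxQ⟩)
    exact (Subgroup.mem_bot).mp h
  obtain ⟨w, hw1⟩ := (Subgroup.ne_bot_iff_exists_ne_one).mp hQ1
  have hw1' : (w : G) ≠ 1 := fun h => hw1 (Subtype.ext h)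
  haveI := hQn
  have hDnil : Group.IsNilpotent (Subgroup.centralizer (Q : Set G)) := by
    refine isNilpotent_of_le' ?_ (hCN (w : G) hw1')
    intro c hc
    rw [Subgroup.mem_centralizer_singleton_iff]
    exact (Subgroup.mem_centralizer_iff.mp hc (w : G) w.2).symm
  have hPD : (P : Subgroup G) ≤ Subgroup.centralizer (Q : Set G) := by
    intro x hx
    rw [Subgroup.mem_centralizer_iff]
    intro y hy
    have hnil := hCN z hz1
    have hxC : x ∈ Subgroup.centralizer ({z} : Set G) :=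
      Subgroup.mem_centralizer_singleton_iff.mpr (hzc x hx)
    have hyC : y ∈ Subgroup.centralizer ({z} : Set G) := by
      rw [Subgroup.mem_centralizer_singleton_iff]
      have h1 : y * z * y⁻¹ * z⁻¹ ∈ H := H.mul_mem (hHn.conj_mem z hzH y) (H.inv_mem hzH)
      have h2 : y * z * y⁻¹ * z⁻¹ ∈ Q := by
        have h := hQn.conj_mem y⁻¹ (Q.inv_mem hy) z
        have e : y * z * y⁻¹ * z⁻¹ = y * (z * y⁻¹ * z⁻¹) := by group
        rw [e]; exact Q.mul_mem hy h
      have h3 := hdisj _ h1 h2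
      calc y * z = (y * z * y⁻¹ * z⁻¹) * (z * y) := by group
        _ = z * y := by rw [h3, one_mul]
    obtain ⟨k, hk⟩ := (IsPGroup.iff_orderOf.mp P.isPGroup') ⟨x, hx⟩
    have hk' : orderOf x = p ^ k := by rw [← hk, Subgroup.orderOf_mk]
    obtain ⟨j, hj⟩ := (IsPGroup.iff_orderOf.mp hQq) ⟨y, hy⟩
    have hj' : orderOf y = q ^ j := by rw [← hj, Subgroup.orderOf_mk]
    have hcop : (orderOf y).Coprime p := by
      rw [hj']; exact Nat.Coprime.pow_left j ((Nat.coprime_primes hq hp.out).mpr hqp)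
    exact (comm_of_nilpotent _ hnil hxC hyC ⟨k, hk'⟩ hcop).symm
  obtain ⟨Q', hQ'n, hQ'p, hQ'all⟩ := normal_qsub (Subgroup.centralizer (Q : Set G)) hDnil p
  have hPQ' : (P : Subgroup G) ≤ Q' := by
    intro x hx
    obtain ⟨k, hk⟩ := (IsPGroup.iff_orderOf.mp P.isPGroup') ⟨x, hx⟩
    exact hQ'all x (hPD hx) ⟨k, by rw [← hk, Subgroup.orderOf_mk]⟩
  have hQ'P : Q' = P := P.is_maximal' hQ'p hPQ'
  exact hPn (hQ'P ▸ hQ'n)

/-- In a CN-group with a non-trivial normal `p`-subgroup `H` and no non-trivial normal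
`q`-subgroups for `q ≠ p`, elements of order prime to `p` act on `H` without fixed points. -/
theorem claim1 [Finite G] (hCN : Cfsg.IsCNGroup G) (p : ℕ) [hp : Fact p.Prime] (H : Subgroup G)
    [hHn : H.Normal] (hHp : IsPGroup p H) (hH : H ≠ ⊥)
    (hnoq : ∀ q : ℕ, q.Prime → q ≠ p → ∀ Q : Subgroup G, Q.Normal → IsPGroup q Q → Q = ⊥)
    (b : G) (hb : (orderOf b).Coprime p) (hb1 : b ≠ 1) :
    H ⊓ Subgroup.centralizer ({b} : Set G) = ⊥ := by
  rw [eq_bot_iff]
  intro h hh
  rw [Subgroup.mem_bot]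
  by_contra hh1
  obtain ⟨hhH, hhb⟩ := Subgroup.mem_inf.mp hh
  rw [Subgroup.mem_centralizer_singleton_iff] at hhb
  obtain ⟨Z, hZn, hZ1, hZH, -, hZc⟩ := center_sub p H hHp hH
  haveI := hZn
  obtain ⟨z₀, hz₀1⟩ := (Subgroup.ne_bot_iff_exists_ne_one).mp hZ1
  have hz₀1' : (z₀ : G) ≠ 1 := fun h => hz₀1 (Subtype.ext h)
  have hFnil : Group.IsNilpotent (Subgroup.centralizer (Z : Set G)) := by
    refine isNilpotent_of_le' ?_ (hCN (z₀ : G) hz₀1')
    intro c hc
    rw [Subgroup.mem_centralizer_singleton_iff]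
    exact (Subgroup.mem_centralizer_iff.mp hc (z₀ : G) z₀.2).symm
  have hbF : b ∈ Subgroup.centralizer (Z : Set G) := by
    rw [Subgroup.mem_centralizer_iff]
    intro v hv
    have hnil := hCN h hh1
    have hvC : v ∈ Subgroup.centralizer ({h} : Set G) :=
      Subgroup.mem_centralizer_singleton_iff.mpr (hZc v hv h hhH).symm
    have hbC : b ∈ Subgroup.centralizer ({h} : Set G) :=
      Subgroup.mem_centralizer_singleton_iff.mpr hhb.symm
    obtain ⟨k, hk⟩ := (IsPGroup.iff_orderOf.mp hHp) ⟨v, hZH hv⟩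
    have hk' : orderOf v = p ^ k := by rw [← hk, Subgroup.orderOf_mk]
    exact comm_of_nilpotent _ hnil hvC hbC ⟨k, hk'⟩ hb
  have hob : orderOf b ≠ 1 := fun h1 => hb1 (orderOf_eq_one_iff.mp h1)
  obtain ⟨q, hq, hqd⟩ := Nat.exists_prime_and_dvd hob
  have hqp : q ≠ p := by
    intro hqp
    rw [← hqp] at hb
    exact hq.one_lt.ne' (Nat.eq_one_of_dvd_coprimes hb hqd (dvd_refl q))
  haveI : Fact q.Prime := ⟨hq⟩
  have hb'o : orderOf (b ^ (orderOf b / q)) = q :=
    orderOf_pow_orderOf_div (orderOf_pos b).ne' hqd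
  obtain ⟨Q, hQn, hQq, hQall⟩ := normal_qsub (Subgroup.centralizer (Z : Set G)) hFnil q
  have hb'Q : b ^ (orderOf b / q) ∈ Q :=
    hQall _ (Subgroup.pow_mem _ hbF _) ⟨1, by rw [hb'o, pow_one]⟩
  rw [hnoq q hq hqp Q hQn hQq, Subgroup.mem_bot] at hb'Q
  rw [hb'Q, orderOf_one] at hb'o
  exact hq.one_lt.ne hb'o

/-- In the situation of `claim1`: an element of the Sylow `p`-subgroup commuting modulo `H`
with a non-trivial element of order prime to `p` lies in `H`. -/
theorem claim3 [Finite G] (hCN : Cfsg.IsCNGroup G) (p : ℕ) [hp : Fact p.Prime] (P : Sylow p G)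
    (H : Subgroup G) [hHn : H.Normal] (hH : H ≠ ⊥) (hHP : H ≤ P)
    (hfpf : ∀ b : G, (orderOf b).Coprime p → b ≠ 1 →
      H ⊓ Subgroup.centralizer ({b} : Set G) = ⊥)
    (x : G) (hx : x ∈ (P : Subgroup G)) (a : G) (ha : (orderOf a).Coprime p) (ha1 : a ≠ 1)
    (hc : x * a * x⁻¹ * a⁻¹ ∈ H) : x ∈ H := by
  by_contra hxH
  obtain ⟨h, hhH, hh⟩ := surj_comm H a (hfpf a ha ha1) _ hc
  have h1 : h * a * h⁻¹ = x * a * x⁻¹ := by
    calc h * a * h⁻¹ = (h * a * h⁻¹ * a⁻¹) * a := by group
      _ = (x * a * x⁻¹ * a⁻¹) * a := by rw [hh]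
      _ = x * a * x⁻¹ := by group
  have hcomm : (h⁻¹ * x) * a = a * (h⁻¹ * x) := by
    calc (h⁻¹ * x) * a = h⁻¹ * (x * a * x⁻¹) * x := by group
      _ = h⁻¹ * (h * a * h⁻¹) * x := by rw [h1]
      _ = a * (h⁻¹ * x) := by group
  have hx'P : h⁻¹ * x ∈ (P : Subgroup G) :=
    (P : Subgroup G).mul_mem ((P : Subgroup G).inv_mem (hHP hhH)) hx
  have hx'1 : h⁻¹ * x ≠ 1 := by
    intro h2
    apply hxH
    have e : x = h := by
      calc x = h * (h⁻¹ * x) := by group
        _ = h := by rw [h2, mul_one]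
    rw [e]; exact hhH
  obtain ⟨z, hzH, hz1, hzc⟩ := exists_central p P H hH hHP
  have hnil := hCN _ hx'1
  have hzC : z ∈ Subgroup.centralizer ({h⁻¹ * x} : Set G) :=
    Subgroup.mem_centralizer_singleton_iff.mpr (hzc _ hx'P).symm
  have haC : a ∈ Subgroup.centralizer ({h⁻¹ * x} : Set G) :=
    Subgroup.mem_centralizer_singleton_iff.mpr hcomm.symm
  obtain ⟨k, hk⟩ := (IsPGroup.iff_orderOf.mp P.isPGroup') ⟨z, hHP hzH⟩
  have hk' : orderOf z = p ^ k := by rw [← hk, Subgroup.orderOf_mk]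
  have hza : z * a = a * z := comm_of_nilpotent _ hnil hzC haC ⟨k, hk'⟩ ha
  have hzmem : z ∈ H ⊓ Subgroup.centralizer ({a} : Set G) :=
    Subgroup.mem_inf.mpr ⟨hzH, Subgroup.mem_centralizer_singleton_iff.mpr hza⟩
  rw [hfpf a ha ha1, Subgroup.mem_bot] at hzmem
  exact hz1 hzmem

end Cfsg.Agent.Lib.Helper10.CNSolv
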