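import Mathlib
import Cfsg.Prelude.Def_LieExceptional
import Cfsg.Prelude.Def_Solvable
import Cfsg.Agent.Lib.Helper10.CNSolv
import Cfsg.Agent.Lib.Helper10.KW

/-!
Solvable CN-groups: the structure of the complement in the Frobenius case, and the three-step
configuration.
-/

set_option autoImplicit false

namespace Cfsg.Agent.Lib.Helper10.CNSolv

open Cfsg.Agent.Lib.Helper10.CN Cfsg.Agent.Lib.Helper10.CNQuot Cfsg.Agent.Lib.Helper10.EPPO

universe u

/-- A nilpotent group acting without fixed points is cyclic, or the product of a cyclic group of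
odd order and a generalized quaternion group. -/
theorem frob_struct {G : Type*} [Group G] [Finite G] (K E : Subgroup G) [K.Normal] (hK : K ≠ ⊥)
    (hfpf : ∀ e ∈ E, e ≠ 1 → K ⊓ Subgroup.centralizer ({e} : Set G) = ⊥)
    (hEnil : Group.IsNilpotent E) :
    IsCyclic E ∨ ∃ C Q : Subgroup G, C ⊔ Q = E ∧ (∀ a ∈ C, ∀ b ∈ Q, a * b = b * a) ∧
      IsCyclic C ∧ Odd (Nat.card C) ∧ ∃ n : ℕ, Nonempty (↥Q ≃* QuaternionGroup (2 ^ n)) := by
  haveI := hEnil
  by_cases hz : ∀ (r : ℕ), r.Prime → ∀ R : Sylow r E, IsCyclic R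
  · left
    haveI : IsZGroup E := ⟨hz⟩
    infer_instance
  · right
    push Not at hz
    obtain ⟨r, hr, R, hRnc⟩ := hz
    haveI : Fact r.Prime := ⟨hr⟩
    rcases fpf_sylow K E hK hfpf r R with h | ⟨n, ⟨e⟩⟩
    · exact absurd h hRnc
    have hcardR : Nat.card R = 4 * 2 ^ n := by
      rw [Nat.card_congr e.toEquiv, Nat.card_eq_fintype_card, QuaternionGroup.card]
    have hr2 : r = 2 := by
      obtain ⟨k, hk⟩ := IsPGroup.iff_card.mp R.isPGroup'
      have h2 : 2 ∣ r ^ k := by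
        rw [← hk, hcardR]; exact Dvd.intro (2 * 2 ^ n) (by ring)
      exact ((Nat.prime_dvd_prime_iff_eq Nat.prime_two hr).mp
        (Nat.Prime.dvd_of_dvd_pow Nat.prime_two h2)).symm
    subst hr2
    have hcop : (Nat.card (R : Subgroup E)).Coprime (R : Subgroup E).index :=
      R.card_coprime_index
    obtain ⟨C₁, hC₁⟩ := Subgroup.exists_right_complement'_of_coprime hcop
    have hC₁card : Nat.card C₁ = (R : Subgroup E).index := (hC₁.symm.index_eq_card).symm
    have hC₁odd : ¬ 2 ∣ Nat.card C₁ := by rw [hC₁card]; exact R.not_dvd_index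
    have hinj : Function.Injective E.subtype := Subgroup.subtype_injective E
    refine ⟨C₁.map E.subtype, (R : Subgroup E).map E.subtype, ?_, ?_, ?_, ?_, ?_⟩
    · rw [← Subgroup.map_sup, sup_comm, hC₁.sup_eq_top, ← MonoidHom.range_eq_map,
        Subgroup.range_subtype]
    · rintro a ⟨a', ha', rfl⟩ b ⟨b', hb', rfl⟩
      have hbo : ∃ k, orderOf ((b' : E) : G) = 2 ^ k := by
        obtain ⟨k, hk⟩ := (IsPGroup.iff_orderOf.mp R.isPGroup') ⟨b', hb'⟩
        refine ⟨k, ?_⟩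
        rw [Subgroup.orderOf_coe, ← hk]
        exact (Subgroup.orderOf_mk b' hb').symm
      have hao : (orderOf ((a' : E) : G)).Coprime 2 := by
        have h1 : orderOf (⟨a', ha'⟩ : C₁) ∣ Nat.card C₁ := orderOf_dvd_natCard _
        have h2 : orderOf (⟨a', ha'⟩ : C₁) = orderOf a' := Subgroup.orderOf_mk a' ha'
        rw [h2] at h1
        rw [Subgroup.orderOf_coe]
        exact Nat.Coprime.coprime_dvd_left h1
          ((Nat.Prime.coprime_iff_not_dvd Nat.prime_two).mpr hC₁odd).symm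
      exact (comm_of_nilpotent E hEnil (p := 2) (b' : E).2 (a' : E).2 hbo hao).symm
    · have hCle : C₁.map E.subtype ≤ E := Subgroup.map_subtype_le _
      haveI hCnil : Group.IsNilpotent (C₁.map E.subtype) := isNilpotent_of_le' hCle hEnil
      have hCcard : Nat.card (C₁.map E.subtype) = Nat.card C₁ :=
        Subgroup.card_map_of_injective hinj
      haveI : IsZGroup (C₁.map E.subtype) := by
        constructor
        intro s hs S
        haveI : Fact s.Prime := ⟨hs⟩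
        rcases fpf_sylow K (C₁.map E.subtype) hK
          (fun e he he1 => hfpf e (hCle he) he1) s S with h | ⟨m, ⟨e'⟩⟩
        · exact h
        · exfalso
          apply hC₁odd
          have h4 : Nat.card S = 4 * 2 ^ m := by
            rw [Nat.card_congr e'.toEquiv, Nat.card_eq_fintype_card, QuaternionGroup.card]
          have h5 : Nat.card S ∣ Nat.card (C₁.map E.subtype) :=
            Subgroup.card_subgroup_dvd_card _
          rw [h4, hCcard] at h5
          exact (Dvd.intro (2 * 2 ^ m) (by ring)).trans h5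
      infer_instance
    · rw [Subgroup.card_map_of_injective hinj]
      exact Nat.odd_iff.mpr (Nat.two_dvd_ne_zero.mp hC₁odd)
    · exact ⟨n, ⟨((R : Subgroup E).equivMapOfInjective E.subtype hinj).symm.trans e⟩⟩

/-- The three-step configuration: a solvable CN-group whose Sylow `p`-subgroup is not normal
although `O_p(G) ≠ 1`. -/
theorem three_step_aux {G : Type*} [Group G] [Finite G] [Group.IsSolvable G]
    (hCN : Cfsg.IsCNGroup G)
    (p : ℕ) [hp : Fact p.Prime] (P : Sylow p G) (hPn : ¬ (P : Subgroup G).Normal)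
    (H : Subgroup G) [hHn : H.Normal] (hHp : IsPGroup p H) (hH : H ≠ ⊥)
    (hHmax : ∀ N : Subgroup G, N.Normal → IsPGroup p N → N ≤ H) :
    ∃ A : Subgroup G, A ≠ ⊥ ∧ IsCyclic A ∧ Odd (Nat.card A) ∧ (Nat.card A).Coprime p ∧
      (H ⊔ A).Normal ∧ H ⊔ A ≠ ⊤ ∧ (∃ n : ℕ, (H ⊔ A).index = p ^ n) ∧
      (∀ a ∈ A, a ≠ 1 → H ⊓ Subgroup.centralizer ({a} : Set G) = ⊥) ∧
      ∀ x : G, x ∉ H ⊔ A → ∀ a ∈ A, a ≠ 1 → x * a * x⁻¹ * a⁻¹ ∉ H := by
  have hpp : p.Prime := hp.out
  have hHP : H ≤ P := hHp.le_sylow_of_normal P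
  have hnoq : ∀ q : ℕ, q.Prime → q ≠ p → ∀ Q : Subgroup G, Q.Normal → IsPGroup q Q → Q = ⊥ :=
    fun q hq hqp Q hQn hQq => no_normal_q hCN p P hPn H hHp hH q hq hqp Q hQn hQq
  have hfpf1 : ∀ b : G, (orderOf b).Coprime p → b ≠ 1 →
      H ⊓ Subgroup.centralizer ({b} : Set G) = ⊥ :=
    fun b hb hb1 => claim1 hCN p H hHp hH hnoq b hb hb1
  have hcl3 := claim3 hCN p P H hH hHP hfpf1
  have hPH : ¬ (P : Subgroup G) ≤ H := by
    intro h
    have e : (P : Subgroup G) = H := le_antisymm h hHP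
    exact hPn (e ▸ hHn)
  -- the quotient
  obtain ⟨x₀, hx₀P, hx₀H⟩ := SetLike.not_le_iff_exists.mp hPH
  obtain ⟨π, hπdef⟩ : ∃ π : G →* G ⧸ H, π = QuotientGroup.mk' H := ⟨_, rfl⟩
  have hπ1 : ∀ x : G, π x = 1 ↔ x ∈ H := by
    intro x; rw [hπdef]; exact QuotientGroup.eq_one_iff x
  have hπsurj : Function.Surjective π := by
    rw [hπdef]; exact QuotientGroup.mk'_surjective H
  have hqtop : (⊤ : Subgroup (G ⧸ H)) ≠ ⊥ := by
    intro h
    have h1 : π x₀ ∈ (⊤ : Subgroup (G ⧸ H)) := Subgroup.mem_top _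
    rw [h, Subgroup.mem_bot] at h1
    exact hx₀H ((hπ1 x₀).mp h1)
  obtain ⟨V, r, hVn, hV1, hr, hVr, -, hVab⟩ :=
    exists_normal_abelian_pgroup (Nat.card (⊤ : Subgroup (G ⧸ H))) ⊤ inferInstance hqtop
      inferInstance le_rfl
  haveI : Fact r.Prime := ⟨hr⟩
  have hrp : r ≠ p := by
    intro hrp
    have hN1p : IsPGroup p (V.comap π) := by
      intro g
      obtain ⟨k, hk⟩ := hVr ⟨π g, g.2⟩
      have hk' : π ((g : G) ^ r ^ k) = 1 := by
        have h := congrArg Subtype.val hk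
        rw [map_pow]
        simpa using h
      obtain ⟨j, hj⟩ := hHp ⟨(g : G) ^ r ^ k, (hπ1 _).mp hk'⟩
      have hj' : ((g : G) ^ r ^ k) ^ p ^ j = 1 := by
        have h := congrArg Subtype.val hj
        simpa using h
      refine ⟨k + j, ?_⟩
      apply Subtype.ext
      rw [Subgroup.coe_pow, pow_add, pow_mul, ← hrp]
      rw [← hrp] at hj'
      exact hj'
    have hle := hHmax _ (hVn.comap π) hN1p
    apply hV1
    rw [eq_bot_iff]
    intro v hv
    obtain ⟨x, rfl⟩ := hπsurj v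
    rw [Subgroup.mem_bot, hπ1]
    exact hle (Subgroup.mem_comap.mpr hv)
  -- an element of order prime to `p` lying over `V`
  obtain ⟨v, hv1⟩ := (Subgroup.ne_bot_iff_exists_ne_one).mp hV1
  obtain ⟨y₀, hy₀⟩ := hπsurj (v : G ⧸ H)
  obtain ⟨a₀, b₀, hab₀, hpa₀, hpb₀⟩ := exists_decomp_pow p hpp y₀
  have hx₁1 : y₀ ^ b₀ ≠ 1 := by
    intro h1
    rw [h1, mul_one] at hab₀
    obtain ⟨k, hk⟩ := hpa₀
    rw [← hab₀] at hk
    have h2 : (v : G ⧸ H) ^ p ^ k = 1 := by
      rw [← hy₀, ← map_pow, ← hk, pow_orderOf_eq_one, map_one]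
    obtain ⟨j, hj⟩ := hVr v
    have h3 : (v : G ⧸ H) ^ r ^ j = 1 := by
      have h := congrArg Subtype.val hj
      simpa using h
    have h4 : orderOf (v : G ⧸ H) ∣ p ^ k := orderOf_dvd_of_pow_eq_one h2
    have h5 : orderOf (v : G ⧸ H) ∣ r ^ j := orderOf_dvd_of_pow_eq_one h3
    have h6 : orderOf (v : G ⧸ H) = 1 :=
      Nat.eq_one_of_dvd_coprimes
        (Nat.Coprime.pow k j ((Nat.coprime_primes hpp hr).mpr (Ne.symm hrp))) h4 h5
    exact hv1 (Subtype.ext (orderOf_eq_one_iff.mp h6))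
  have hx₁N : π (y₀ ^ b₀) ∈ V := by
    rw [map_pow, hy₀]; exact V.pow_mem v.2 _
  -- a Hall `p'`-subgroup containing it
  have hcardG : Nat.card G = (P : Subgroup G).index * Nat.card (P : Subgroup G) := by
    rw [mul_comm]; exact ((P : Subgroup G).card_mul_index).symm
  have hcopP : ((P : Subgroup G).index).Coprime (Nat.card (P : Subgroup G)) :=
    P.card_coprime_index.symm
  have hnd : ¬ p ∣ (P : Subgroup G).index := P.not_dvd_index
  have hKcop : (Nat.card (Subgroup.zpowers (y₀ ^ b₀))).Coprime (Nat.card (P : Subgroup G)) := by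
    rw [Nat.card_zpowers]
    obtain ⟨k, hk⟩ := IsPGroup.iff_card.mp P.isPGroup'
    rw [hk]; exact Nat.Coprime.pow_right k hpb₀
  obtain ⟨B, hBcard, hx₁B⟩ :=
    Cfsg.Agent.S0005.result _ _ hcardG hcopP (Subgroup.zpowers (y₀ ^ b₀)) hKcop
  have hPB : Subgroup.IsComplement' (P : Subgroup G) B := by
    apply Subgroup.isComplement'_of_coprime
    · rw [hBcard]; exact (P : Subgroup G).card_mul_index
    · rw [hBcard]; exact P.card_coprime_index
  have hBcop : (Nat.card B).Coprime p := by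
    rw [hBcard]; exact ((Nat.Prime.coprime_iff_not_dvd hpp).mpr hnd).symm
  have hBp : ∀ b ∈ B, (orderOf b).Coprime p := by
    intro b hb
    have h1 : orderOf b ∣ Nat.card B := by
      have h := orderOf_dvd_natCard (⟨b, hb⟩ : B)
      rwa [Subgroup.orderOf_mk] at h
    exact Nat.Coprime.coprime_dvd_left h1 hBcop
  have hHB : ∀ x : G, x ∈ H → x ∈ B → x = 1 := by
    intro x hxH hxB
    have h := hPB.disjoint.le_bot (Subgroup.mem_inf.mpr ⟨hHP hxH, hxB⟩)
    exact Subgroup.mem_bot.mp h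
  have hfpfB : ∀ b ∈ B, b ≠ 1 → H ⊓ Subgroup.centralizer ({b} : Set G) = ⊥ :=
    fun b hb hb1 => hfpf1 b (hBp b hb) hb1
  have hx₁B' : y₀ ^ b₀ ∈ B := hx₁B (Subgroup.mem_zpowers _)
  have hB1 : B ≠ ⊥ := by
    intro h
    have h1 := hx₁B'
    rw [h, Subgroup.mem_bot] at h1
    exact hx₁1 h1
  -- `B` is nilpotent
  obtain ⟨Z, hZn, hZ1, hZH, hZab, -⟩ := center_sub p H hHp hH
  haveI := hZn
  have hfpfZ : ∀ e ∈ B, e ≠ 1 → ∀ v ∈ Z, e * v = v * e → v = 1 := by
    intro e he he1 v hv hcomm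
    have h1 : v ∈ H ⊓ Subgroup.centralizer ({e} : Set G) :=
      Subgroup.mem_inf.mpr ⟨hZH hv, Subgroup.mem_centralizer_singleton_iff.mpr hcomm.symm⟩
    rw [hfpfB e he he1, Subgroup.mem_bot] at h1
    exact h1
  have hcopBZ : (Nat.card B).Coprime (Nat.card Z) := by
    obtain ⟨k, hk⟩ := IsPGroup.iff_card.mp (hHp.to_le hZH)
    rw [hk]; exact Nat.Coprime.pow_right k hBcop
  have hZG : ¬ 2 ∣ Nat.card B → IsZGroup B := by
    intro h2
    constructor
    intro s hs S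
    haveI : Fact s.Prime := ⟨hs⟩
    rcases fpf_sylow H B hH hfpfB s S with h | ⟨m, ⟨e'⟩⟩
    · exact h
    · exfalso
      apply h2
      have h4 : Nat.card S = 4 * 2 ^ m := by
        rw [Nat.card_congr e'.toEquiv, Nat.card_eq_fintype_card, QuaternionGroup.card]
      have h5 : Nat.card S ∣ Nat.card B := Subgroup.card_subgroup_dvd_card _
      rw [h4] at h5
      exact (Dvd.intro (2 * 2 ^ m) (by ring)).trans h5
  have hBnil : Group.IsNilpotent B := nilp_of_fpf hCN Z B hZ1 hZab hcopBZ hfpfZ hZG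
  -- a central element of `B` of prime order lying over `V`
  haveI := hBnil
  have hNB : (V.comap π).subgroupOf B ≠ ⊥ := by
    intro h
    have hm : (⟨y₀ ^ b₀, hx₁B'⟩ : B) ∈ (V.comap π).subgroupOf B :=
      Subgroup.mem_subgroupOf.mpr (Subgroup.mem_comap.mpr hx₁N)
    rw [h, Subgroup.mem_bot] at hm
    have h2 : y₀ ^ b₀ = 1 := congrArg Subtype.val hm
    exact hx₁1 h2
  haveI : (V.comap π).Normal := hVn.comap π
  obtain ⟨w₁, hw₁N, hw₁1, hw₁c⟩ := inf_center_ne_bot ((V.comap π).subgroupOf B) hNB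
  have how₁ : orderOf (w₁ : G) ≠ 1 := fun h1 => hw₁1 (Subtype.ext (orderOf_eq_one_iff.mp h1))
  obtain ⟨s, hs, hsd⟩ := Nat.exists_prime_and_dvd how₁
  haveI : Fact s.Prime := ⟨hs⟩
  obtain ⟨w, hwdef⟩ : ∃ w : G, w = (w₁ : G) ^ (orderOf (w₁ : G) / s) := ⟨_, rfl⟩
  have hwo : orderOf w = s := by
    rw [hwdef]; exact orderOf_pow_orderOf_div (orderOf_pos _).ne' hsd
  have hwB : w ∈ B := by rw [hwdef]; exact B.pow_mem w₁.2 _
  have hw1 : w ≠ 1 := by
    intro h; rw [h, orderOf_one] at hwo; exact hs.one_lt.ne hwo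
  have hwc : ∀ b ∈ B, b * w = w * b := by
    intro b hb
    have h1 : b * (w₁ : G) = (w₁ : G) * b := congrArg Subtype.val (hw₁c ⟨b, hb⟩)
    rw [hwdef]
    exact (Commute.pow_right (show Commute b (w₁ : G) from h1) _).eq
  have hwV : π w ∈ V := by
    rw [hwdef, map_pow]
    exact V.pow_mem (Subgroup.mem_comap.mp (Subgroup.mem_subgroupOf.mp hw₁N)) _
  have hwcop : (orderOf w).Coprime p := hBp w hwB
  -- decompositions
  have hdec : ∀ g : G, ∃ x ∈ (P : Subgroup G), ∃ b ∈ B, g = x * b := by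
    intro g
    obtain ⟨⟨x, b⟩, hxb⟩ := hPB.2 g
    have hxb' : (x : G) * (b : G) = g := hxb
    exact ⟨x, x.2, b, b.2, hxb'.symm⟩
  have hcm_H : ∀ x ∈ (P : Subgroup G), π x * π w = π w * π x → x ∈ H := by
    intro x hx hc
    apply hcl3 x hx w hwcop hw1
    rw [← hπ1, map_mul, map_mul, map_mul, map_inv, map_inv, hc]
    group
  have hN₁dec : ∀ y : G, π y ∈ V → ∃ h ∈ H, ∃ b ∈ B, y = h * b := by
    intro y hy
    obtain ⟨x, hx, b, hb, rfl⟩ := hdec y
    refine ⟨x, hcm_H x hx ?_, b, hb, rfl⟩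
    have h1 : Commute (π (x * b)) (π w) := hVab _ hy _ hwV
    have h2 : Commute (π b) (π w) := by
      show π b * π w = π w * π b
      rw [← map_mul, ← map_mul, hwc b hb]
    have h3 : π x = π (x * b) * (π b)⁻¹ := by rw [map_mul]; group
    rw [h3]; exact (h1.mul_left h2.inv_left).eq
  -- `⟨π w⟩` is normal in the quotient
  have hnormw : ∀ g : G, ∃ i : ℤ, π g * π w * (π g)⁻¹ = (π w) ^ i := by
    intro g
    have hgV : π (g * w * g⁻¹) ∈ V := by
      rw [map_mul, map_mul, map_inv]; exact hVn.conj_mem _ hwV _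
    obtain ⟨h, hh, ρ, hρ, hgw⟩ := hN₁dec _ hgV
    have hπρ : π ρ = π (g * w * g⁻¹) := by
      rw [hgw, map_mul, (hπ1 h).mpr hh, one_mul]
    have hρs : ρ ^ s = 1 := by
      apply hHB
      · rw [← hπ1, map_pow, hπρ, ← map_pow, conj_pow, ← hwo, pow_orderOf_eq_one]
        simp
      · exact B.pow_mem hρ s
    have hρ1 : ρ ≠ 1 := by
      intro h1
      rw [h1, mul_one] at hgw
      apply hw1
      apply hHB w _ hwB
      have h2 : g * w * g⁻¹ ∈ H := by rw [hgw]; exact hh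
      have h3 := hHn.conj_mem _ h2 g⁻¹
      have e : g⁻¹ * (g * w * g⁻¹) * g⁻¹⁻¹ = w := by group
      rwa [e] at h3
    have hρo : orderOf ρ = s := orderOf_eq_prime hρs hρ1
    have hmem := mem_zpowers_of_comm H B hH hfpfB s ρ w hρ hwB hρo hwo (hwc ρ hρ)
    obtain ⟨i, hi⟩ := Subgroup.mem_zpowers_iff.mp hmem
    refine ⟨i, ?_⟩
    rw [← map_zpow, hi, hπρ, map_mul, map_mul, map_inv]
  -- the centraliser of `π w`
  obtain ⟨D, hDdef⟩ : ∃ D : Subgroup G,
      D = (Subgroup.centralizer ({π w} : Set (G ⧸ H))).comap π := ⟨_, rfl⟩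
  have hDmem : ∀ y : G, y ∈ D ↔ π y * π w = π w * π y := by
    intro y; rw [hDdef, Subgroup.mem_comap, Subgroup.mem_centralizer_singleton_iff]
  have hHD : H ≤ D := by
    intro x hx; rw [hDmem, (hπ1 x).mpr hx, one_mul, mul_one]
  have hBD : B ≤ D := by
    intro b hb; rw [hDmem, ← map_mul, ← map_mul, hwc b hb]
  have hDn : D.Normal := by
    constructor
    intro y hy g
    rw [hDmem] at hy ⊢
    obtain ⟨j, hj⟩ := hnormw g⁻¹
    have h1 : π g * (π w) ^ j * (π g)⁻¹ = π w := by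
      rw [← hj, map_inv]; group
    have h2 : Commute (π y) ((π w) ^ j) := (show Commute (π y) (π w) from hy).zpow_right j
    have h3 : π (g * y * g⁻¹) = π g * π y * (π g)⁻¹ := by rw [map_mul, map_mul, map_inv]
    rw [h3]
    calc π g * π y * (π g)⁻¹ * π w
        = π g * π y * (π g)⁻¹ * (π g * (π w) ^ j * (π g)⁻¹) := by rw [h1]
      _ = π g * (π y * (π w) ^ j) * (π g)⁻¹ := by group
      _ = π g * ((π w) ^ j * π y) * (π g)⁻¹ := by rw [h2.eq]
      _ = (π g * (π w) ^ j * (π g)⁻¹) * (π g * π y * (π g)⁻¹) := by group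
      _ = π w * (π g * π y * (π g)⁻¹) := by rw [h1]
  have hDeq : H ⊔ B = D := by
    apply le_antisymm (sup_le hHD hBD)
    intro d hd
    obtain ⟨x, hx, b, hb, rfl⟩ := hdec d
    have hxD : x ∈ D := by
      have h := D.mul_mem hd (D.inv_mem (hBD hb))
      have e : x * b * b⁻¹ = x := by group
      rwa [e] at h
    have hxH : x ∈ H := hcm_H x hx ((hDmem x).mp hxD)
    exact Subgroup.mul_mem _ (Subgroup.mem_sup_left hxH) (Subgroup.mem_sup_right hb)
  have hHBn : (H ⊔ B).Normal := by rw [hDeq]; exact hDn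
  have hsupdec : ∀ y ∈ H ⊔ B, ∃ h ∈ H, ∃ b ∈ B, y = h * b := by
    intro y hy
    have h1 : y ∈ ((H ⊔ B : Subgroup G) : Set G) := hy
    rw [Subgroup.normal_mul] at h1
    obtain ⟨h, hh, b, hb, rfl⟩ := Set.mem_mul.mp h1
    exact ⟨h, hh, b, hb, rfl⟩
  -- `B` has odd order
  have hodd : ¬ 2 ∣ Nat.card B := by
    intro h2
    haveI : Fact (Nat.Prime 2) := ⟨Nat.prime_two⟩
    obtain ⟨t, ht⟩ := exists_prime_orderOf_dvd_card' 2 h2
    have ht1 : (t : G) ≠ 1 := by
      intro h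
      have h3 : t = 1 := Subtype.ext h
      rw [h3, orderOf_one] at ht
      omega
    have ht2 : (t : G) * (t : G) = 1 := by
      have h3 : t ^ 2 = 1 := by rw [← ht]; exact pow_orderOf_eq_one t
      have h4 := congrArg Subtype.val h3
      simpa [pow_two] using h4
    have htcop : (orderOf (t : G)).Coprime p := hBp _ t.2
    apply hPH
    intro x hx
    apply hcl3 x hx (t : G) htcop ht1
    have h5 : x * (t : G) * x⁻¹ ∈ H ⊔ B := hHBn.conj_mem _ (Subgroup.mem_sup_right t.2) x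
    obtain ⟨h, hh, b', hb', hxt⟩ := hsupdec _ h5
    have hu2 : (x * (t : G) * x⁻¹) * (x * (t : G) * x⁻¹) = 1 := by
      calc (x * (t : G) * x⁻¹) * (x * (t : G) * x⁻¹) = x * ((t : G) * (t : G)) * x⁻¹ := by group
        _ = 1 := by rw [ht2]; group
    have hb'eq : b' = h⁻¹ * (x * (t : G) * x⁻¹) := by rw [hxt]; group
    have hb'2 : b' * b' = 1 := by
      apply hHB _ _ (B.mul_mem hb' hb')
      have e : b' * b' = h⁻¹ * ((x * (t : G) * x⁻¹) * h⁻¹ * (x * (t : G) * x⁻¹)⁻¹) := by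
        rw [hb'eq]
        calc h⁻¹ * (x * (t : G) * x⁻¹) * (h⁻¹ * (x * (t : G) * x⁻¹))
            = h⁻¹ * ((x * (t : G) * x⁻¹) * h⁻¹ * (x * (t : G) * x⁻¹)⁻¹) *
                ((x * (t : G) * x⁻¹) * (x * (t : G) * x⁻¹)) := by group
          _ = h⁻¹ * ((x * (t : G) * x⁻¹) * h⁻¹ * (x * (t : G) * x⁻¹)⁻¹) := by
              rw [hu2, mul_one]
      rw [e]
      exact H.mul_mem (H.inv_mem hh) (hHn.conj_mem _ (H.inv_mem hh) _)
    have hb'1 : b' ≠ 1 := by
      intro h1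
      rw [h1, mul_one] at hxt
      apply ht1
      apply hHB _ _ t.2
      have h6 : x * (t : G) * x⁻¹ ∈ H := by rw [hxt]; exact hh
      have h7 := hHn.conj_mem _ h6 x⁻¹
      have e : x⁻¹ * (x * (t : G) * x⁻¹) * x⁻¹⁻¹ = (t : G) := by group
      rwa [e] at h7
    have hb't : b' = (t : G) :=
      invol_unique Z B hZ1 hZab hfpfZ (t : G) b' t.2 ht1 ht2 hb' hb'1 hb'2
    have e : x * (t : G) * x⁻¹ * (t : G)⁻¹ = h := by rw [hxt, hb't]; group
    rw [e]; exact hh
  haveI : IsZGroup B := hZG hodd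
  have hBcyc : IsCyclic B := inferInstance
  have hBcomm : ∀ a ∈ B, ∀ b ∈ B, a * b = b * a :=
    fun a ha b hb => Cfsg.Agent.Lib.Helper10.KW.cyclic_comm B hBcyc ha hb
  refine ⟨B, hB1, hBcyc, Nat.odd_iff.mpr (Nat.two_dvd_ne_zero.mp hodd), hBcop, hHBn, ?_, ?_,
    hfpfB, ?_⟩
  · intro htop
    apply hPH
    intro x hx
    obtain ⟨h, hh, b, hb, rfl⟩ := hsupdec x (by rw [htop]; exact Subgroup.mem_top x)
    have hbP : b ∈ (P : Subgroup G) := by
      have h1 := (P : Subgroup G).mul_mem ((P : Subgroup G).inv_mem (hHP hh)) hx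
      have e : h⁻¹ * (h * b) = b := by group
      rwa [e] at h1
    have hb1 : b = 1 :=
      Subgroup.mem_bot.mp (hPB.disjoint.le_bot (Subgroup.mem_inf.mpr ⟨hbP, hb⟩))
    rw [hb1, mul_one]; exact hh
  · have h1 : (H ⊔ B).index ∣ B.index := Subgroup.index_dvd_of_le le_sup_right
    have h2 : B.index = Nat.card (P : Subgroup G) := hPB.index_eq_card
    obtain ⟨k, hk⟩ := IsPGroup.iff_card.mp P.isPGroup'
    rw [h2, hk] at h1
    obtain ⟨n, -, hn⟩ := (Nat.dvd_prime_pow hpp).mp h1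
    exact ⟨n, hn⟩
  · intro x hx a ha ha1 hc
    apply hx
    obtain ⟨y, hy, b, hb, rfl⟩ := hdec x
    have hyH : y ∈ H := by
      apply hcl3 y hy a (hBp a ha) ha1
      have h1 : b * a * b⁻¹ = a := by rw [hBcomm b hb a ha]; group
      have e : y * a * y⁻¹ * a⁻¹ = y * b * a * (y * b)⁻¹ * a⁻¹ := by
        calc y * a * y⁻¹ * a⁻¹ = y * (b * a * b⁻¹) * y⁻¹ * a⁻¹ := by rw [h1]
          _ = y * b * a * (y * b)⁻¹ * a⁻¹ := by group
      rw [e]; exact hc
    exact Subgroup.mul_mem _ (Subgroup.mem_sup_left hyH) (Subgroup.mem_sup_right hb)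

end Cfsg.Agent.Lib.Helper10.CNSolv
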