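import Mathlib
import Cfsg.Prelude.Def_Characters
import Cfsg.Prelude.Def_OddOrderChar
import Cfsg.Agent.Lib.Helper10.Coh2

/-!
Tools for coherence arguments with non-irreducible characters: Bessel's inequality with integer
coefficients, a weighted Bessel identity, the linear extension of a map given on a finite
orthogonal set, and basic facts on coherence systems.
-/

set_option autoImplicit false

namespace Cfsg.Agent.Lib.Helper10.Coh3

open Cfsg.Agent.Lib.Helper1 Cfsg.Agent.Lib.Helper10.Virt Cfsg.Agent.Lib.Helper10.Coh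
open Cfsg.Agent.Lib.Helper10.Coh2
open scoped ComplexConjugate

section basic

variable {G : Type*} [Group G] [Fintype G]

theorem classInner_self_nonneg (f : G → ℂ) : 0 ≤ (Cfsg.classInner f f).re := by
  rw [classInner_self_re, Complex.ofReal_re]
  positivity

theorem int_le_sq (z : ℤ) : z ≤ z ^ 2 := by
  rcases le_or_gt z 0 with h | h
  · nlinarith [sq_nonneg z]
  · nlinarith

theorem sum_le_sum_sq {ι : Type*} (s : Finset ι) (z : ι → ℤ) :
    ∑ i ∈ s, z i ≤ ∑ i ∈ s, z i ^ 2 :=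
  Finset.sum_le_sum (fun i _ => int_le_sq (z i))

theorem zero_or_one_of_sum_sq_le {ι : Type*} (s : Finset ι) (z : ι → ℤ)
    (h : ∑ i ∈ s, z i ^ 2 ≤ ∑ i ∈ s, z i) : ∀ i ∈ s, z i = 0 ∨ z i = 1 := by
  have hle : ∀ i ∈ s, z i ≤ z i ^ 2 := fun i _ => int_le_sq (z i)
  have heq : ∑ i ∈ s, z i = ∑ i ∈ s, z i ^ 2 := le_antisymm (Finset.sum_le_sum hle) h
  have h2 := (Finset.sum_eq_sum_iff_of_le hle).mp heq
  intro i hi
  have e := h2 i hi
  have h3 : z i * (z i - 1) = 0 := by nlinarith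
  rcases mul_eq_zero.mp h3 with h | h
  · left; exact h
  · right; omega

/-- Bessel's inequality with integer coefficients. -/
theorem bessel_le {ι : Type*} (s : Finset ι) (Δ : G → ℂ) (f : ι → G → ℂ) (z : ι → ℤ)
    (hz : ∀ i ∈ s, Cfsg.classInner Δ (f i) = (z i : ℂ))
    (hnorm : ∀ i ∈ s, Cfsg.classInner (f i) (f i) = 1)
    (horth : ∀ i ∈ s, ∀ j ∈ s, i ≠ j → Cfsg.classInner (f i) (f j) = 0) :
    ((∑ i ∈ s, z i ^ 2 : ℤ) : ℝ) ≤ (Cfsg.classInner Δ Δ).re := by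
  have h := bessel s Δ f z hz hnorm horth
  have h2 := classInner_self_nonneg (Δ - ∑ i ∈ s, z i • f i)
  rw [h, Complex.sub_re, Complex.intCast_re] at h2
  linarith

/-- The case of equality in Bessel's inequality. -/
theorem bessel_eq {ι : Type*} (s : Finset ι) (Δ : G → ℂ) (f : ι → G → ℂ) (z : ι → ℤ)
    (hz : ∀ i ∈ s, Cfsg.classInner Δ (f i) = (z i : ℂ))
    (hnorm : ∀ i ∈ s, Cfsg.classInner (f i) (f i) = 1)
    (horth : ∀ i ∈ s, ∀ j ∈ s, i ≠ j → Cfsg.classInner (f i) (f j) = 0)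
    (heq : Cfsg.classInner Δ Δ = ((∑ i ∈ s, z i ^ 2 : ℤ) : ℂ)) :
    Δ = ∑ i ∈ s, z i • f i := by
  have h := bessel s Δ f z hz hnorm horth
  rw [heq, sub_self] at h
  exact sub_eq_zero.mp (classInner_self_eq_zero _ h)

/-- A weighted Bessel identity for an orthogonal family with natural-number norms. -/
theorem bessel_weighted {ι : Type*} (s : Finset ι) (Δ : G → ℂ) (f : ι → G → ℂ) (x : ι → ℤ)
    (n : ι → ℕ) (hx : ∀ i ∈ s, Cfsg.classInner Δ (f i) = (x i : ℂ))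
    (hnorm : ∀ i ∈ s, Cfsg.classInner (f i) (f i) = (n i : ℂ)) (hn : ∀ i ∈ s, n i ≠ 0)
    (horth : ∀ i ∈ s, ∀ j ∈ s, i ≠ j → Cfsg.classInner (f i) (f j) = 0) :
    Cfsg.classInner (Δ - ∑ i ∈ s, ((x i : ℂ) / (n i : ℂ)) • f i)
        (Δ - ∑ i ∈ s, ((x i : ℂ) / (n i : ℂ)) • f i) =
      Cfsg.classInner Δ Δ - ∑ i ∈ s, ((x i : ℂ) ^ 2 / (n i : ℂ)) := by
  classical
  have hc : ∀ i, conj ((x i : ℂ) / (n i : ℂ)) = (x i : ℂ) / (n i : ℂ) := by
    intro i
    rw [map_div₀, map_intCast, map_natCast]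
  have h1 : Cfsg.classInner Δ (∑ i ∈ s, ((x i : ℂ) / (n i : ℂ)) • f i) =
      ∑ i ∈ s, ((x i : ℂ) ^ 2 / (n i : ℂ)) := by
    rw [classInner_sum_right]
    refine Finset.sum_congr rfl (fun i hi => ?_)
    rw [classInner_smul_right, hc, hx i hi]
    ring
  have h2 : ∀ j ∈ s, Cfsg.classInner (f j) Δ = (x j : ℂ) := by
    intro j hj
    rw [← classInner_conj_symm, hx j hj, map_intCast]
  have h3 : ∀ w : G → ℂ, (∀ j ∈ s, Cfsg.classInner (f j) w = (x j : ℂ)) →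
      Cfsg.classInner (∑ i ∈ s, ((x i : ℂ) / (n i : ℂ)) • f i) w =
        ∑ i ∈ s, ((x i : ℂ) ^ 2 / (n i : ℂ)) := by
    intro w hw
    rw [classInner_sum_left]
    refine Finset.sum_congr rfl (fun i hi => ?_)
    rw [classInner_smul_left, hw i hi]
    ring
  have h4 : ∀ j ∈ s, Cfsg.classInner (f j) (∑ i ∈ s, ((x i : ℂ) / (n i : ℂ)) • f i) =
      (x j : ℂ) := by
    intro j hj
    rw [classInner_sum_right, Finset.sum_eq_single j]
    · rw [classInner_smul_right, hc, hnorm j hj]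
      have : (n j : ℂ) ≠ 0 := by exact_mod_cast hn j hj
      field_simp
    · intro i hi hne
      rw [classInner_smul_right, horth j hj i hi (Ne.symm hne), mul_zero]
    · intro h
      exact absurd hj h
  rw [classInner_sub_left, classInner_sub_right, classInner_sub_right, h1, h3 Δ h2, h3 _ h4]
  ring

/-- A nonzero character has nonzero degree. -/
theorem char_degree_ne_zero {χ : G → ℂ} (h : Cfsg.IsCharacter G χ) (hne : χ ≠ 0) : χ 1 ≠ 0 := by
  classical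
  have : Fintype (Cfsg.IrrCharacter G) := irrFintype
  obtain ⟨m, -, hm2⟩ := IsCharacter.eq_sum_irr h
  have hd : ∀ ψ : Cfsg.IrrCharacter G, ∃ d : ℕ, 0 < d ∧ (ψ : G → ℂ) 1 = (d : ℂ) :=
    fun ψ => IsIrrCharacter.degree_pos ψ.2
  choose d hdpos hd using hd
  intro h1
  apply hne
  have h2 : χ 1 = ((∑ ψ : Cfsg.IrrCharacter G, m ψ * d ψ : ℕ) : ℂ) := by
    rw [hm2]
    simp only [Finset.sum_apply, Pi.smul_apply, smul_eq_mul, hd]
    push_cast
    rfl
  rw [h2] at h1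
  have h3 : ∑ ψ : Cfsg.IrrCharacter G, m ψ * d ψ = 0 := by exact_mod_cast h1
  have h4 : ∀ ψ, m ψ = 0 := by
    intro ψ
    have := (Finset.sum_eq_zero_iff.mp h3) ψ (Finset.mem_univ ψ)
    rcases Nat.mul_eq_zero.mp this with h | h
    · exact h
    · exact absurd h (hdpos ψ).ne'
  rw [hm2]
  simp [h4]

end basic

section oext

variable {N : Type*} [Group N] [Fintype N] {G : Type*} [Group G] [Fintype G]

/-- The ℂ-linear extension of `ρ` from a finite orthogonal set `T`. -/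
noncomputable def oext (T : Finset (N → ℂ)) (ρ : (N → ℂ) → (G → ℂ)) (θ : N → ℂ) : G → ℂ :=
  ∑ ξ ∈ T, (Cfsg.classInner θ ξ / Cfsg.classInner ξ ξ) • ρ ξ

theorem oext_add (T : Finset (N → ℂ)) (ρ : (N → ℂ) → (G → ℂ)) (a b : N → ℂ) :
    oext T ρ (a + b) = oext T ρ a + oext T ρ b := by
  simp only [oext, classInner_add_left, add_div, add_smul, Finset.sum_add_distrib]

theorem oext_smul (T : Finset (N → ℂ)) (ρ : (N → ℂ) → (G → ℂ)) (z : ℂ) (a : N → ℂ) :
    oext T ρ (z • a) = z • oext T ρ a := by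
  simp only [oext, classInner_smul_left, Finset.smul_sum, smul_smul, mul_div_assoc]

theorem oext_zsmul (T : Finset (N → ℂ)) (ρ : (N → ℂ) → (G → ℂ)) (n : ℤ) (a : N → ℂ) :
    oext T ρ (n • a) = n • oext T ρ a := by
  rw [zsmul_eq_smul, oext_smul, ← zsmul_eq_smul]

theorem oext_zero (T : Finset (N → ℂ)) (ρ : (N → ℂ) → (G → ℂ)) : oext T ρ 0 = 0 := by
  have := oext_smul T ρ 0 0
  simpa using this

variable {T : Finset (N → ℂ)}
  (horth : ∀ ξ ∈ T, ∀ η ∈ T, ξ ≠ η → Cfsg.classInner ξ η = 0)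
  (hne : ∀ ξ ∈ T, Cfsg.classInner ξ ξ ≠ 0)
include horth hne

theorem oext_of_mem (ρ : (N → ℂ) → (G → ℂ)) {ξ : N → ℂ} (hξ : ξ ∈ T) : oext T ρ ξ = ρ ξ := by
  unfold oext
  rw [Finset.sum_eq_single ξ]
  · rw [div_self (hne ξ hξ), one_smul]
  · intro η hη hne'
    rw [horth ξ hξ η hη (Ne.symm hne'), zero_div, zero_smul]
  · intro h; exact absurd hξ h

theorem oext_inner (ρ : (N → ℂ) → (G → ℂ))
    (hρ : ∀ ξ ∈ T, ∀ η ∈ T, Cfsg.classInner (ρ ξ) (ρ η) = Cfsg.classInner ξ η)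
    {θ θ' : N → ℂ} (hθ : θ ∈ Cfsg.zspan (↑T : Set (N → ℂ)))
    (hθ' : θ' ∈ Cfsg.zspan (↑T : Set (N → ℂ))) :
    Cfsg.classInner (oext T ρ θ) (oext T ρ θ') = Cfsg.classInner θ θ' := by
  have h1 : ∀ η ∈ T, Cfsg.classInner (oext T ρ θ) (ρ η) = Cfsg.classInner θ η := by
    intro η hη
    induction hθ using Submodule.span_induction with
    | mem x hx =>
      rw [oext_of_mem horth hne ρ (Finset.mem_coe.mp hx)]
      exact hρ x (Finset.mem_coe.mp hx) η hη
    | zero => rw [oext_zero, classInner_zero_left, classInner_zero_left]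
    | add x y _ _ hx hy => rw [oext_add, classInner_add_left, hx, hy, classInner_add_left]
    | smul a x _ hx => rw [oext_zsmul, classInner_zsmul_left, hx, classInner_zsmul_left]
  induction hθ' using Submodule.span_induction with
  | mem x hx =>
    rw [oext_of_mem horth hne ρ (Finset.mem_coe.mp hx)]
    exact h1 x (Finset.mem_coe.mp hx)
  | zero => rw [oext_zero, classInner_zero_right, classInner_zero_right]
  | add x y _ _ hx hy => rw [oext_add, classInner_add_right, hx, hy, classInner_add_right]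
  | smul a x _ hx => rw [oext_zsmul, classInner_zsmul_right, hx, classInner_zsmul_right]

theorem oext_isGen (ρ : (N → ℂ) → (G → ℂ))
    (hρ : ∀ ξ ∈ T, Cfsg.IsGeneralizedCharacter G (ρ ξ))
    {θ : N → ℂ} (hθ : θ ∈ Cfsg.zspan (↑T : Set (N → ℂ))) :
    Cfsg.IsGeneralizedCharacter G (oext T ρ θ) := by
  induction hθ using Submodule.span_induction with
  | mem x hx =>
    rw [oext_of_mem horth hne ρ (Finset.mem_coe.mp hx)]
    exact hρ x (Finset.mem_coe.mp hx)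
  | zero => rw [oext_zero]; exact isGen_zero
  | add x y _ _ hx hy => rw [oext_add]; exact isGen_add hx hy
  | smul a x _ hx => rw [oext_zsmul]; exact isGen_zsmul hx a

theorem oext_isometry (ρ : (N → ℂ) → (G → ℂ))
    (hρ : ∀ ξ ∈ T, ∀ η ∈ T, Cfsg.classInner (ρ ξ) (ρ η) = Cfsg.classInner ξ η)
    (hρgen : ∀ ξ ∈ T, Cfsg.IsGeneralizedCharacter G (ρ ξ)) :
    Cfsg.IsLinearIsometryOn (Cfsg.zspan (↑T : Set (N → ℂ))) (oext T ρ) :=
  ⟨fun a _ b _ => oext_add T ρ a b, fun a _ n => oext_zsmul T ρ n a,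
    fun a ha b hb => oext_inner horth hne ρ hρ ha hb,
    fun a ha => oext_isGen horth hne ρ hρgen ha⟩

end oext

section sys

variable {L : Type*} [Group L] [Fintype L] {G : Type*} [Group G] [Fintype G]
  {S : Set (L → ℂ)} {τ : (L → ℂ) → (G → ℂ)} {R : (L → ℂ) → Finset (G → ℂ)}

theorem sys_ne_zero (hS : Cfsg.IsCoherenceSystem S τ R) {χ : L → ℂ} (hχ : χ ∈ S) : χ ≠ 0 := by
  intro h
  apply hS.conj_ne χ hχ
  rw [h]
  funext x
  simp [Cfsg.conjFun]

theorem sys_norm (hS : Cfsg.IsCoherenceSystem S τ R) {χ : L → ℂ} (hχ : χ ∈ S) :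
    ∃ n : ℕ, n ≠ 0 ∧ Cfsg.classInner χ χ = (n : ℂ) := by
  obtain ⟨n, hn⟩ := IsCharacter.classInner_nat (hS.isCharacter χ hχ) (hS.isCharacter χ hχ)
  refine ⟨n, ?_, hn⟩
  rintro rfl
  exact sys_ne_zero hS hχ (classInner_self_eq_zero χ (by rw [hn]; simp))

theorem sys_norm_ne (hS : Cfsg.IsCoherenceSystem S τ R) {χ : L → ℂ} (hχ : χ ∈ S) :
    Cfsg.classInner χ χ ≠ 0 := by
  obtain ⟨n, hn0, hn⟩ := sys_norm hS hχ
  rw [hn]
  exact_mod_cast hn0

theorem sys_degree (hS : Cfsg.IsCoherenceSystem S τ R) {χ : L → ℂ} (hχ : χ ∈ S) :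
    ∃ d : ℕ, d ≠ 0 ∧ χ 1 = (d : ℂ) := by
  obtain ⟨d, hd⟩ := IsCharacter.degree_nat (hS.isCharacter χ hχ)
  refine ⟨d, ?_, hd⟩
  rintro rfl
  exact char_degree_ne_zero (hS.isCharacter χ hχ) (sys_ne_zero hS hχ) (by rw [hd]; simp)

theorem sys_orth_conj (hS : Cfsg.IsCoherenceSystem S τ R) {χ : L → ℂ} (hχ : χ ∈ S) :
    Cfsg.classInner χ (Cfsg.conjFun χ) = 0 :=
  hS.orthogonal χ hχ _ (hS.conj_mem χ hχ) (hS.conj_ne χ hχ).symm

theorem sys_orth_conj' (hS : Cfsg.IsCoherenceSystem S τ R) {χ : L → ℂ} (hχ : χ ∈ S) :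
    Cfsg.classInner (Cfsg.conjFun χ) χ = 0 :=
  hS.orthogonal _ (hS.conj_mem χ hχ) χ hχ (hS.conj_ne χ hχ)

theorem sys_norm_conj (hS : Cfsg.IsCoherenceSystem S τ R) {χ : L → ℂ} (hχ : χ ∈ S) :
    Cfsg.classInner (Cfsg.conjFun χ) (Cfsg.conjFun χ) = Cfsg.classInner χ χ := by
  obtain ⟨n, -, hn⟩ := sys_norm hS hχ
  rw [classInner_conjFun, hn, map_natCast]

theorem conjFun_one_nat {χ : L → ℂ} {d : ℕ} (hd : χ 1 = (d : ℂ)) : Cfsg.conjFun χ 1 = (d : ℂ) := by
  rw [Cfsg.conjFun, hd, map_natCast]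

theorem sys_sub_conj_mem (hS : Cfsg.IsCoherenceSystem S τ R) {χ : L → ℂ} (hχ : χ ∈ S) :
    χ - Cfsg.conjFun χ ∈ Cfsg.zspanOn S {1}ᶜ := by
  refine ⟨zspan_sub (zspan_of_mem hχ) (zspan_of_mem (hS.conj_mem χ hχ)), ?_⟩
  intro x hx
  have hx1 : x = 1 := by simpa using hx
  obtain ⟨d, hd⟩ := IsCharacter.degree_nat (hS.isCharacter χ hχ)
  rw [hx1, Pi.sub_apply, conjFun_one_nat hd, hd, sub_self]

theorem sys_sum_coeff (hS : Cfsg.IsCoherenceSystem S τ R) {χ : L → ℂ} (hχ : χ ∈ S)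
    (β : G → ℂ) : ∑ α ∈ R χ, Cfsg.classInner β α =
      Cfsg.classInner β (τ (χ - Cfsg.conjFun χ)) := by
  rw [hS.sum_eq χ hχ, classInner_sum_right]

/-- The inner product of the sums over two subsets of `R χ` counts their intersection. -/
theorem sys_sum_inner (hS : Cfsg.IsCoherenceSystem S τ R) {χ : L → ℂ} (hχ : χ ∈ S)
    {A B : Finset (G → ℂ)} (hA : A ⊆ R χ) (hB : B ⊆ R χ) :
    Cfsg.classInner (∑ α ∈ A, α) (∑ α ∈ B, α) = ((A ∩ B).card : ℂ) := by
  classical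
  rw [classInner_sum_left]
  have h1 : ∀ α ∈ A, Cfsg.classInner α (∑ β ∈ B, β) = if α ∈ B then 1 else 0 := by
    intro α hα
    rw [classInner_sum_right]
    by_cases hαB : α ∈ B
    · rw [if_pos hαB, Finset.sum_eq_single α]
      · rw [hS.orthonormal χ hχ α (hA hα) α (hA hα), if_pos rfl]
      · intro β hβ hne
        rw [hS.orthonormal χ hχ α (hA hα) β (hB hβ), if_neg (Ne.symm hne)]
      · intro h; exact absurd hαB h
    · rw [if_neg hαB]
      apply Finset.sum_eq_zero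
      intro β hβ
      rw [hS.orthonormal χ hχ α (hA hα) β (hB hβ), if_neg]
      rintro rfl
      exact hαB hβ
  rw [Finset.sum_congr rfl h1, ← Finset.sum_filter, Finset.sum_const, Finset.filter_mem_eq_inter]
  simp

theorem sys_card_R (hS : Cfsg.IsCoherenceSystem S τ R) {χ : L → ℂ} (hχ : χ ∈ S) {n : ℕ}
    (hn : Cfsg.classInner χ χ = (n : ℂ)) : (R χ).card = 2 * n := by
  classical
  have h1 : Cfsg.classInner (τ (χ - Cfsg.conjFun χ)) (τ (χ - Cfsg.conjFun χ)) = 2 * (n : ℂ) := by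
    rw [hS.isometry.2.2.1 _ (sys_sub_conj_mem hS hχ) _ (sys_sub_conj_mem hS hχ),
      classInner_sub_left, classInner_sub_right, classInner_sub_right, hn, sys_orth_conj hS hχ,
      sys_orth_conj' hS hχ, sys_norm_conj hS hχ, hn]
    ring
  have h2 : Cfsg.classInner (τ (χ - Cfsg.conjFun χ)) (τ (χ - Cfsg.conjFun χ)) =
      ((R χ).card : ℂ) := by
    rw [hS.sum_eq χ hχ, sys_sum_inner hS hχ (subset_refl _) (subset_refl _), Finset.inter_self]
  have h3 : ((R χ).card : ℂ) = ((2 * n : ℕ) : ℂ) := by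
    rw [← h2, h1]; push_cast; ring
  exact_mod_cast h3

theorem sys_finite (hS : Cfsg.IsCoherenceSystem S τ R) : S.Finite := by
  have hli : LinearIndependent ℂ (fun x : S => (x : L → ℂ)) := by
    rw [linearIndependent_iff']
    intro s g hg i hi
    have h1 : Cfsg.classInner (∑ j ∈ s, g j • (j : L → ℂ)) (i : L → ℂ) =
        g i * Cfsg.classInner (i : L → ℂ) i := by
      rw [classInner_sum_left, Finset.sum_eq_single i]
      · rw [classInner_smul_left]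
      · intro j _ hji
        rw [classInner_smul_left, hS.orthogonal j j.2 i i.2 (fun e => hji (Subtype.ext e)),
          mul_zero]
      · intro h; exact absurd hi h
    rw [hg, classInner_zero_left] at h1
    rcases mul_eq_zero.mp h1.symm with h | h
    · exact h
    · exact absurd h (sys_norm_ne hS i.2)
  exact hli.setFinite

/-- `R φ` and `R χ` are orthogonal for `φ ∉ {χ, conj χ}`. -/
theorem sys_R_orth (hS : Cfsg.IsCoherenceSystem S τ R) {χ φ : L → ℂ} (hχ : χ ∈ S) (hφ : φ ∈ S)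
    (h1 : φ ≠ χ) (h2 : φ ≠ Cfsg.conjFun χ) {α β : G → ℂ} (hα : α ∈ R φ) (hβ : β ∈ R χ) :
    Cfsg.classInner α β = 0 :=
  hS.disjoint χ hχ φ hφ (hS.orthogonal φ hφ χ hχ h1)
    (hS.orthogonal φ hφ _ (hS.conj_mem χ hχ) h2) α hα β hβ

theorem sys_R_orth' (hS : Cfsg.IsCoherenceSystem S τ R) {χ φ : L → ℂ} (hχ : χ ∈ S) (hφ : φ ∈ S)
    (h1 : φ ≠ χ) (h2 : φ ≠ Cfsg.conjFun χ) {α β : G → ℂ} (hα : α ∈ R φ) (hβ : β ∈ R χ) :
    Cfsg.classInner β α = 0 := by
  rw [← classInner_conj_symm, sys_R_orth hS hχ hφ h1 h2 hα hβ, map_zero]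

theorem sys_tau_zero (hS : Cfsg.IsCoherenceSystem S τ R) : τ 0 = 0 := by
  have h0 : (0 : L → ℂ) ∈ Cfsg.zspanOn S {1}ᶜ := ⟨zspan_zero, fun _ _ => rfl⟩
  have h := hS.isometry.2.1 0 h0 0
  simpa using h

end sys

end Cfsg.Agent.Lib.Helper10.Coh3
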