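import Mathlib
import Cfsg.Prelude.Def_Characters
import Cfsg.Prelude.Def_OddOrderChar
import Cfsg.Prelude.Def_OddOrderLocal
import Cfsg.Agent.Lib.Helper10.CycGal

/-!
Counting tools for cyclic TI families: a combinatorial lemma on matrices satisfying the rectangle
rule, and the number of linear characters of `W₁ × W₂` trivial on one factor.
-/

set_option autoImplicit false

namespace Cfsg.Agent.Lib.Helper10.CycCount

open Cfsg.Agent.Lib.Helper1 Cfsg.Agent.Lib.Helper10.CycTI Cfsg.Agent.Lib.Helper10.CycGal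
open scoped ComplexConjugate

section grid

variable {α β : Type*} [DecidableEq α] [DecidableEq β]

theorem card_filter_rows (I : Finset α) (J : Finset β) (p : α → β → Prop)
    [∀ a b, Decidable (p a b)] :
    ((I ×ˢ J).filter (fun q => p q.1 q.2)).card = ∑ a ∈ I, (J.filter (fun b => p a b)).card := by
  rw [Finset.card_filter, Finset.sum_product]
  refine Finset.sum_congr rfl (fun a _ => ?_)
  rw [Finset.card_filter]

theorem card_filter_cols (I : Finset α) (J : Finset β) (p : α → β → Prop)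
    [∀ a b, Decidable (p a b)] :
    ((I ×ˢ J).filter (fun q => p q.1 q.2)).card = ∑ b ∈ J, (I.filter (fun a => p a b)).card := by
  rw [Finset.card_filter, Finset.sum_product_right]
  refine Finset.sum_congr rfl (fun b _ => ?_)
  rw [Finset.card_filter]

/-- A matrix satisfying the rectangle rule with few nonzero entries is zero, or supported on
one column where it is constant, or supported on one row where it is constant. -/
theorem grid (I : Finset α) (J : Finset β) (M : α → β → ℂ)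
    (hrect : ∀ φ ∈ I, ∀ φ' ∈ I, ∀ ψ ∈ J, ∀ ψ' ∈ J, M φ ψ + M φ' ψ' = M φ ψ' + M φ' ψ)
    (w₁ w₂ : ℕ) (h3 : 3 ≤ w₁) (h12 : w₁ + 2 ≤ w₂) (hI : w₁ ≤ I.card) (hJ : w₂ ≤ J.card)
    (hN : ((I ×ˢ J).filter (fun p => M p.1 p.2 ≠ 0)).card < 2 * w₁) :
    (∀ φ ∈ I, ∀ ψ ∈ J, M φ ψ = 0) ∨
    (∃ ψ₀ ∈ J, ∃ a : ℂ, ∀ φ ∈ I, ∀ ψ ∈ J, M φ ψ = if ψ = ψ₀ then a else 0) ∨
    (∃ φ₀ ∈ I, ∃ a : ℂ, ∀ φ ∈ I, ∀ ψ ∈ J, M φ ψ = if φ = φ₀ then a else 0) := by
  classical
  -- a row with at most one nonzero entry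
  have hrow : ∃ φ₁ ∈ I, (J.filter (fun ψ => M φ₁ ψ ≠ 0)).card ≤ 1 := by
    by_contra hcon
    push Not at hcon
    have h1 := card_filter_rows I J (fun φ ψ => M φ ψ ≠ 0)
    have h2 : ∑ a ∈ I, 2 ≤ ∑ a ∈ I, (J.filter (fun b => M a b ≠ 0)).card :=
      Finset.sum_le_sum (fun a ha => hcon a ha)
    rw [Finset.sum_const, smul_eq_mul] at h2
    rw [h1] at hN
    omega
  have hcol : ∃ ψ₁ ∈ J, (I.filter (fun φ => M φ ψ₁ ≠ 0)).card ≤ 1 := by
    by_contra hcon
    push Not at hcon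
    have h1 := card_filter_cols I J (fun φ ψ => M φ ψ ≠ 0)
    have h2 : ∑ b ∈ J, 2 ≤ ∑ b ∈ J, (I.filter (fun a => M a b ≠ 0)).card :=
      Finset.sum_le_sum (fun b hb => hcon b hb)
    rw [Finset.sum_const, smul_eq_mul] at h2
    rw [h1] at hN
    omega
  obtain ⟨φ₁, hφ₁, hr⟩ := hrow
  obtain ⟨ψ₁, hψ₁, hc⟩ := hcol
  rw [Finset.card_le_one] at hr hc
  have hr' : ∀ ψ ∈ J, ∀ ψ' ∈ J, M φ₁ ψ ≠ 0 → M φ₁ ψ' ≠ 0 → ψ = ψ' := fun ψ hψ ψ' hψ' h h' =>
    hr ψ (Finset.mem_filter.mpr ⟨hψ, h⟩) ψ' (Finset.mem_filter.mpr ⟨hψ', h'⟩)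
  have hc' : ∀ φ ∈ I, ∀ φ' ∈ I, M φ ψ₁ ≠ 0 → M φ' ψ₁ ≠ 0 → φ = φ' := fun φ hφ φ' hφ' h h' =>
    hc φ (Finset.mem_filter.mpr ⟨hφ, h⟩) φ' (Finset.mem_filter.mpr ⟨hφ', h'⟩)
  have hM : ∀ φ ∈ I, ∀ ψ ∈ J, M φ ψ = M φ ψ₁ + M φ₁ ψ - M φ₁ ψ₁ := by
    intro φ hφ ψ hψ
    have := hrect φ hφ φ₁ hφ₁ ψ hψ ψ₁ hψ₁
    linear_combination this
  by_cases hu : M φ₁ ψ₁ = 0
  · have hM' : ∀ φ ∈ I, ∀ ψ ∈ J, M φ ψ = M φ ψ₁ + M φ₁ ψ := by
      intro φ hφ ψ hψ
      rw [hM φ hφ ψ hψ, hu, sub_zero]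
    by_cases hrow0 : ∀ ψ ∈ J, M φ₁ ψ = 0
    · by_cases hcol0 : ∀ φ ∈ I, M φ ψ₁ = 0
      · left
        intro φ hφ ψ hψ
        rw [hM' φ hφ ψ hψ, hrow0 ψ hψ, hcol0 φ hφ, add_zero]
      · right; right
        push Not at hcol0
        obtain ⟨φs, hφs, ha⟩ := hcol0
        refine ⟨φs, hφs, M φs ψ₁, ?_⟩
        intro φ hφ ψ hψ
        rw [hM' φ hφ ψ hψ, hrow0 ψ hψ, add_zero]
        by_cases h : φ = φs
        · rw [if_pos h, h]
        · rw [if_neg h]
          by_contra h0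
          exact h (hc' φ hφ φs hφs h0 ha)
    · push Not at hrow0
      obtain ⟨ψs, hψs, hb⟩ := hrow0
      by_cases hcol0 : ∀ φ ∈ I, M φ ψ₁ = 0
      · right; left
        refine ⟨ψs, hψs, M φ₁ ψs, ?_⟩
        intro φ hφ ψ hψ
        rw [hM' φ hφ ψ hψ, hcol0 φ hφ, zero_add]
        by_cases h : ψ = ψs
        · rw [if_pos h, h]
        · rw [if_neg h]
          by_contra h0
          exact h (hr' ψ hψ ψs hψs h0 hb)
      · exfalso
        push Not at hcol0
        obtain ⟨φs, hφs, ha⟩ := hcol0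
        have hsub : (J.erase ψs).image (fun ψ => (φs, ψ)) ∪ (I.erase φs).image (fun φ => (φ, ψs)) ⊆
            (I ×ˢ J).filter (fun p => M p.1 p.2 ≠ 0) := by
          intro p hp
          rcases Finset.mem_union.mp hp with h | h
          · obtain ⟨ψ, hψ, rfl⟩ := Finset.mem_image.mp h
            have hψJ := Finset.mem_of_mem_erase hψ
            have hne := Finset.ne_of_mem_erase hψ
            refine Finset.mem_filter.mpr ⟨Finset.mem_product.mpr ⟨hφs, hψJ⟩, ?_⟩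
            simp only
            have h0 : M φ₁ ψ = 0 := by
              by_contra h0
              exact hne (hr' ψ hψJ ψs hψs h0 hb)
            rw [hM' φs hφs ψ hψJ, h0, add_zero]
            exact ha
          · obtain ⟨φ, hφ, rfl⟩ := Finset.mem_image.mp h
            have hφI := Finset.mem_of_mem_erase hφ
            have hne := Finset.ne_of_mem_erase hφ
            refine Finset.mem_filter.mpr ⟨Finset.mem_product.mpr ⟨hφI, hψs⟩, ?_⟩
            simp only
            have h0 : M φ ψ₁ = 0 := by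
              by_contra h0
              exact hne (hc' φ hφI φs hφs h0 ha)
            rw [hM' φ hφI ψs hψs, h0, zero_add]
            exact hb
        have hdisj : Disjoint ((J.erase ψs).image (fun ψ => (φs, ψ)))
            ((I.erase φs).image (fun φ => (φ, ψs))) := by
          rw [Finset.disjoint_left]
          intro p h1 h2
          obtain ⟨ψ, hψ, rfl⟩ := Finset.mem_image.mp h1
          obtain ⟨φ, hφ, he⟩ := Finset.mem_image.mp h2
          have : φ = φs := congrArg Prod.fst he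
          exact Finset.ne_of_mem_erase hφ this
        have hcard := Finset.card_le_card hsub
        rw [Finset.card_union_of_disjoint hdisj,
          Finset.card_image_of_injective _ (fun a b h => congrArg Prod.snd h),
          Finset.card_image_of_injective _ (fun a b h => congrArg Prod.fst h),
          Finset.card_erase_of_mem hψs, Finset.card_erase_of_mem hφs] at hcard
        omega
  · exfalso
    have hrow0 : ∀ ψ ∈ J, ψ ≠ ψ₁ → M φ₁ ψ = 0 := by
      intro ψ hψ hne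
      by_contra h0
      exact hne (hr' ψ hψ ψ₁ hψ₁ h0 hu)
    have hcol0 : ∀ φ ∈ I, φ ≠ φ₁ → M φ ψ₁ = 0 := by
      intro φ hφ hne
      by_contra h0
      exact hne (hc' φ hφ φ₁ hφ₁ h0 hu)
    have hsub : (I.erase φ₁) ×ˢ (J.erase ψ₁) ⊆ (I ×ˢ J).filter (fun p => M p.1 p.2 ≠ 0) := by
      intro p hp
      obtain ⟨h1, h2⟩ := Finset.mem_product.mp hp
      have hφI := Finset.mem_of_mem_erase h1
      have hψJ := Finset.mem_of_mem_erase h2
      refine Finset.mem_filter.mpr ⟨Finset.mem_product.mpr ⟨hφI, hψJ⟩, ?_⟩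
      rw [hM p.1 hφI p.2 hψJ, hcol0 p.1 hφI (Finset.ne_of_mem_erase h1),
        hrow0 p.2 hψJ (Finset.ne_of_mem_erase h2)]
      simpa using hu
    have hcard := Finset.card_le_card hsub
    rw [Finset.card_product, Finset.card_erase_of_mem hφ₁, Finset.card_erase_of_mem hψ₁] at hcard
    have e1 : 2 ≤ I.card - 1 := by omega
    have e2 : w₁ + 1 ≤ J.card - 1 := by omega
    have e3 : 2 * (w₁ + 1) ≤ (I.card - 1) * (J.card - 1) := Nat.mul_le_mul e1 e2
    omega

end grid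

section count

/-- The order of an internal direct product. -/
theorem card_sup {G : Type*} [Group G] (W₁ W₂ : Subgroup G) (hdisj : W₁ ⊓ W₂ = ⊥)
    (hcomm : ∀ a ∈ W₁, ∀ b ∈ W₂, a * b = b * a) :
    Nat.card ↥(W₁ ⊔ W₂) = Nat.card W₁ * Nat.card W₂ := by
  obtain ⟨f, hf⟩ : ∃ f : W₁ →* ↥(W₁ ⊔ W₂), ∀ a : W₁, ((f a : ↥(W₁ ⊔ W₂)) : G) = a :=
    ⟨Subgroup.inclusion le_sup_left, fun a => rfl⟩
  obtain ⟨g, hg⟩ : ∃ g : W₂ →* ↥(W₁ ⊔ W₂), ∀ b : W₂, ((g b : ↥(W₁ ⊔ W₂)) : G) = b :=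
    ⟨Subgroup.inclusion le_sup_right, fun b => rfl⟩
  have comm : ∀ (a : W₁) (b : W₂), Commute (f a) (g b) := fun a b =>
    Subtype.ext (by
      rw [Subgroup.coe_mul, Subgroup.coe_mul, hf, hg]
      exact hcomm a a.2 b b.2)
  obtain ⟨μ, hμ⟩ : ∃ μ : W₁ × W₂ →* ↥(W₁ ⊔ W₂), ∀ p : W₁ × W₂, μ p = f p.1 * g p.2 :=
    ⟨f.noncommCoprod g comm, fun p => rfl⟩
  have hμval : ∀ p : W₁ × W₂, ((μ p : ↥(W₁ ⊔ W₂)) : G) = (p.1 : G) * (p.2 : G) := by
    intro p
    rw [hμ, Subgroup.coe_mul, hf, hg]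
  have hinj : Function.Injective μ := by
    rw [injective_iff_map_eq_one]
    rintro ⟨a, b⟩ h
    have h' : (a : G) * (b : G) = 1 := by
      have := congrArg Subtype.val h
      rw [hμval] at this
      exact this
    have ha : (a : G) ∈ W₁ ⊓ W₂ :=
      ⟨a.2, by rw [eq_inv_of_mul_eq_one_left h']; exact W₂.inv_mem b.2⟩
    rw [hdisj, Subgroup.mem_bot] at ha
    have hb : (b : G) = 1 := by rw [ha, one_mul] at h'; exact h'
    exact Prod.ext (Subtype.ext ha) (Subtype.ext hb)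
  have hsurj : Function.Surjective μ := by
    intro w
    have hle : W₁ ⊔ W₂ ≤ (μ.range).map (W₁ ⊔ W₂).subtype := by
      apply sup_le
      · intro a ha
        refine ⟨μ (⟨a, ha⟩, 1), ⟨_, rfl⟩, ?_⟩
        simp [hμval]
      · intro b hb
        refine ⟨μ (1, ⟨b, hb⟩), ⟨_, rfl⟩, ?_⟩
        simp [hμval]
    obtain ⟨w', ⟨p, rfl⟩, hw'⟩ := hle w.2
    exact ⟨p, Subtype.ext hw'⟩
  rw [← Nat.card_prod]
  exact (Nat.card_congr (Equiv.ofBijective μ ⟨hinj, hsurj⟩)).symm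

/-- The number of linear characters of a finite abelian group trivial on a subgroup `K` is the
index of `K`. -/
theorem card_triv {X : Type*} [Group X] [Fintype X] (hcomm : ∀ a b : X, a * b = b * a)
    (K : Subgroup X) [Fintype (X →* ℂˣ)]
    [DecidablePred (fun φ : X →* ℂˣ => ∀ k ∈ K, φ k = 1)] :
    (Finset.univ.filter (fun φ : X →* ℂˣ => ∀ k ∈ K, φ k = 1)).card * Nat.card K =
      Nat.card X := by
  classical
  have hXne : (Nat.card X : ℂ) ≠ 0 := by
    have := Nat.card_pos (α := X)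
    exact_mod_cast this.ne'
  have h1 : ∑ w : X, ∑ φ ∈ Finset.univ.filter (fun φ : X →* ℂˣ => ∀ k ∈ K, φ k = 1),
      ((φ w : ℂˣ) : ℂ) = ((Finset.univ.filter (fun φ : X →* ℂˣ => ∀ k ∈ K, φ k = 1)).card : ℂ) *
        (Nat.card K : ℂ) := by
    have e : ∀ w : X, ∑ φ ∈ Finset.univ.filter (fun φ : X →* ℂˣ => ∀ k ∈ K, φ k = 1),
        ((φ w : ℂˣ) : ℂ) = if w ∈ K then
          ((Finset.univ.filter (fun φ : X →* ℂˣ => ∀ k ∈ K, φ k = 1)).card : ℂ) else 0 := by
      intro w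
      by_cases hw : w ∈ K
      · rw [if_pos hw]
        rw [Finset.sum_congr rfl (fun φ hφ => by
          rw [(Finset.mem_filter.mp hφ).2 w hw, Units.val_one])]
        simp
      · rw [if_neg hw]
        exact sum_hom_eq_zero hcomm K w hw
    rw [Finset.sum_congr rfl (fun w _ => e w), ← Finset.sum_filter, Finset.sum_const]
    have hK : (Finset.univ.filter (fun w : X => w ∈ K)).card = Nat.card K := by
      rw [Nat.card_eq_fintype_card, Fintype.card_subtype]
    rw [hK]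
    simp only [nsmul_eq_mul]
    ring
  have h2 : ∑ w : X, ∑ φ ∈ Finset.univ.filter (fun φ : X →* ℂˣ => ∀ k ∈ K, φ k = 1),
      ((φ w : ℂˣ) : ℂ) = (Nat.card X : ℂ) := by
    rw [Finset.sum_comm]
    have e : ∀ φ : X →* ℂˣ, ∑ w : X, ((φ w : ℂˣ) : ℂ) =
        if φ = 1 then (Nat.card X : ℂ) else 0 := by
      intro φ
      have h := lin_inner φ (1 : X →* ℂˣ)
      unfold Cfsg.classInner at h
      have h' : ∑ g : X, lin φ g * conj (lin (1 : X →* ℂˣ) g) = ∑ w : X, ((φ w : ℂˣ) : ℂ) := by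
        refine Finset.sum_congr rfl (fun w _ => ?_)
        simp [lin]
      rw [h'] at h
      by_cases hφ : φ = 1
      · rw [if_pos hφ] at h ⊢
        field_simp at h
        exact h
      · rw [if_neg hφ] at h ⊢
        rcases mul_eq_zero.mp h with h0 | h0
        · exact absurd (inv_eq_zero.mp h0) hXne
        · exact h0
    rw [Finset.sum_congr rfl (fun φ _ => e φ), Finset.sum_ite_eq']
    rw [if_pos (Finset.mem_filter.mpr ⟨Finset.mem_univ _, fun k _ => rfl⟩)]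
  rw [h1] at h2
  exact_mod_cast h2

end count

end Cfsg.Agent.Lib.Helper10.CycCount
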