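import Mathlib
import Cfsg.Prelude.Def_Characters
import Cfsg.Prelude.Def_OddOrderChar
import Cfsg.Agent.S1498
import Cfsg.Agent.S1499

/-!
The Dade isometry: well-definedness, class-function property, and the adjointness formula
obtained by counting the fibres of `(a, x) ↦ x⁻¹ (a H(a)) x`.
-/

set_option autoImplicit false

namespace Cfsg.Agent.Lib.Helper10.Dade

open scoped ComplexConjugate

variable {G : Type*} [Group G]

/-- The power trick: a conjugation taking `a u` to `b v` takes `a` to `b`. -/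
theorem conj_eq [Finite G] (A : Set G) (L : Subgroup G) (H : G → Subgroup G)
    (hD : Cfsg.DadeHypothesis A L H) {a b : G} (ha : a ∈ A) (hb : b ∈ A) {u v g : G}
    (hu : u ∈ H a) (hv : v ∈ H b) (hg : g * (a * u) * g⁻¹ = b * v) : g * a * g⁻¹ = b := by
  have c1 : (orderOf a * orderOf b).Coprime (orderOf u * orderOf v) := by
    apply Nat.Coprime.mul_left
    · exact Nat.Coprime.mul_right (Cfsg.Agent.S1499.orders A L H hD a a ha ha u hu)
        (Cfsg.Agent.S1499.orders A L H hD b a hb ha v hv)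
    · exact Nat.Coprime.mul_right (Cfsg.Agent.S1499.orders A L H hD a b ha hb u hu)
        (Cfsg.Agent.S1499.orders A L H hD b b hb hb v hv)
  obtain ⟨k, hk1, hk0⟩ := Nat.chineseRemainder c1 1 0
  have e1 : (a * u) ^ k = a :=
    Cfsg.Agent.S1499.pow_split a u (Cfsg.Agent.S1499.comm_of_mem A L H hD a ha u hu) k
      (hk1.of_mul_right _) (hk0.of_mul_right _)
  have e2 : (b * v) ^ k = b :=
    Cfsg.Agent.S1499.pow_split b v (Cfsg.Agent.S1499.comm_of_mem A L H hD b hb v hv) k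
      (hk1.of_mul_left _) (hk0.of_mul_left _)
  calc g * a * g⁻¹ = g * (a * u) ^ k * g⁻¹ := by rw [e1]
    _ = (g * (a * u) * g⁻¹) ^ k := by rw [conj_pow]
    _ = (b * v) ^ k := by rw [hg]
    _ = b := e2

/-- The value of the Dade map at a conjugate of an element of `a H(a)`. -/
theorem dade_apply [Finite G] (A : Set G) (L : Subgroup G) (H : G → Subgroup G)
    (hD : Cfsg.DadeHypothesis A L H) (α : L → ℂ) (hα : Cfsg.IsClassFunction L α)
    (a : L) (ha : (a : G) ∈ A) (x u g : G) (hu : u ∈ H a) (hx : x * g * x⁻¹ = a * u) :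
    Cfsg.dadeIsometry A L H α g = α a := by
  have h : ∃ a : ↥L, (a : G) ∈ A ∧ ∃ x : G, ∃ u ∈ H (a : G), x * g * x⁻¹ = (a : G) * u :=
    ⟨a, ha, x, u, hu, hx⟩
  have e0 : Cfsg.dadeIsometry A L H α g = α (Classical.choose h) := dif_pos h
  rw [e0]
  obtain ⟨ha', x', u', hu', hx'⟩ := Classical.choose_spec h
  have hc : (x' * x⁻¹) * ((a : G) * u) * (x' * x⁻¹)⁻¹ = ((Classical.choose h : ↥L) : G) * u' := by
    rw [← hx, ← hx']; group
  have h1 := conj_eq A L H hD ha ha' hu hu' hc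
  obtain ⟨l, hl, hla⟩ := hD.fusion a ha (x' * x⁻¹) (by rw [h1]; exact ha')
  have e : Classical.choose h = ⟨l, hl⟩ * a * ⟨l, hl⟩⁻¹ := Subtype.ext (by rw [← h1, ← hla]; rfl)
  rw [e]
  exact hα a ⟨l, hl⟩

theorem dade_apply_zero (A : Set G) (L : Subgroup G) (H : G → Subgroup G) (α : L → ℂ) (g : G)
    (h : ¬ ∃ a : ↥L, (a : G) ∈ A ∧ ∃ x : G, ∃ u ∈ H (a : G), x * g * x⁻¹ = (a : G) * u) :
    Cfsg.dadeIsometry A L H α g = 0 := dif_neg h

/-- The Dade image of a class function is a class function. -/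
theorem dade_isClassFunction [Finite G] (A : Set G) (L : Subgroup G) (H : G → Subgroup G)
    (hD : Cfsg.DadeHypothesis A L H) (α : L → ℂ) (hα : Cfsg.IsClassFunction L α) :
    Cfsg.IsClassFunction G (Cfsg.dadeIsometry A L H α) := by
  intro g y
  by_cases h : ∃ a : ↥L, (a : G) ∈ A ∧ ∃ x : G, ∃ u ∈ H (a : G), x * g * x⁻¹ = (a : G) * u
  · obtain ⟨a, ha, x, u, hu, hx⟩ := h
    rw [dade_apply A L H hD α hα a ha x u g hu hx,
      dade_apply A L H hD α hα a ha (x * y⁻¹) u (y * g * y⁻¹) hu (by rw [← hx]; group)]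
  · have h' : ¬ ∃ a : ↥L, (a : G) ∈ A ∧ ∃ x : G, ∃ u ∈ H (a : G),
        x * (y * g * y⁻¹) * x⁻¹ = (a : G) * u := by
      rintro ⟨a, ha, x, u, hu, hx⟩
      exact h ⟨a, ha, x * y, u, hu, by rw [← hx]; group⟩
    rw [dade_apply_zero A L H α g h, dade_apply_zero A L H α _ h']

/-- Every element of `C_G(a)` is a product of an element of `C_L(a)` and one of `H(a)`. -/
theorem exists_decomp (A : Set G) (L : Subgroup G) (H : G → Subgroup G)
    (hD : Cfsg.DadeHypothesis A L H) (a : G) (ha : a ∈ A) (c : G)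
    (hc : c ∈ Subgroup.centralizer ({a} : Set G)) :
    ∃ k ∈ L ⊓ Subgroup.centralizer ({a} : Set G), ∃ h ∈ H a, c = k * h := by
  let C := Subgroup.centralizer ({a} : Set G)
  let H' : Subgroup C := (H a).subgroupOf C
  let L' : Subgroup C := (L ⊓ C).subgroupOf C
  haveI : H'.Normal := by
    constructor
    intro n hn g
    rw [Subgroup.mem_subgroupOf] at hn ⊢
    exact hD.conj_mem_H a ha g g.2 n hn
  have hsup : L' ⊔ H' = ⊤ := by
    have hle1 : H a ≤ C := hD.le_centralizer a ha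
    have hle2 : L ⊓ C ≤ C := inf_le_right
    rw [sup_comm, ← Subgroup.subgroupOf_sup hle1 hle2, hD.sup_eq a ha]
    exact Subgroup.subgroupOf_self _
  have hmem : (⟨c, hc⟩ : C) ∈ ((L' ⊔ H' : Subgroup C) : Set C) := by
    rw [hsup]; exact Subgroup.mem_top _
  rw [Subgroup.mul_normal] at hmem
  obtain ⟨k, hk, h, hh, hkh⟩ := Set.mem_mul.mp hmem
  refine ⟨k, Subgroup.mem_subgroupOf.mp hk, h, Subgroup.mem_subgroupOf.mp hh, ?_⟩
  have := congrArg Subtype.val hkh
  exact this.symm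

/-- The fibre of `(a, x) ↦ x⁻¹ (a H(a)) x` over a point `g` is in bijection with `L × H(a₀)`. -/
theorem card_fiber [Fintype G] (A : Set G) (L : Subgroup G) [Fintype L] (H : G → Subgroup G)
    (hD : Cfsg.DadeHypothesis A L H) (g : G) (a₀ : L) (ha₀ : (a₀ : G) ∈ A) (x₀ u₀ : G)
    (hu₀ : u₀ ∈ H a₀) (hx₀ : x₀ * g * x₀⁻¹ = a₀ * u₀)
    [DecidablePred (fun p : L × G => (p.1 : G) ∈ A ∧ (p.1 : G)⁻¹ * (p.2 * g * p.2⁻¹) ∈ H p.1)] :
    (Finset.univ.filter (fun p : L × G =>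
      (p.1 : G) ∈ A ∧ (p.1 : G)⁻¹ * (p.2 * g * p.2⁻¹) ∈ H p.1)).card =
      Nat.card L * Nat.card (H a₀) := by
  classical
  haveI : Fintype (H (a₀ : G)) := Fintype.ofFinite _
  rw [Nat.card_eq_fintype_card, Nat.card_eq_fintype_card, ← Fintype.card_prod, ← Finset.card_univ]
  symm
  apply Finset.card_bij (fun (q : L × H (a₀ : G)) _ =>
    ((q.1 * a₀ * q.1⁻¹, (q.1 : G) * (q.2 : G) * x₀) : L × G))
  · rintro ⟨l, h⟩ _
    rw [Finset.mem_filter]
    refine ⟨Finset.mem_univ _, ?_, ?_⟩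
    · exact hD.conj_mem l l.2 a₀ ha₀
    · have e := Cfsg.Agent.S1498.result A L H hD a₀ ha₀ l l.2
      have hcomm : (a₀ : G) * h = h * a₀ :=
        Cfsg.Agent.S1499.comm_of_mem A L H hD a₀ ha₀ h h.2
      show ((l * a₀ * l⁻¹ : L) : G)⁻¹ * ((l : G) * (h : G) * x₀ * g * ((l : G) * (h : G) * x₀)⁻¹) ∈
        H ((l * a₀ * l⁻¹ : L) : G)
      have e1 : ((l * a₀ * l⁻¹ : L) : G) = (l : G) * a₀ * (l : G)⁻¹ := rfl
      rw [e1, e]
      refine ⟨h * u₀ * (h : G)⁻¹, (H (a₀ : G)).mul_mem ((H (a₀ : G)).mul_mem h.2 hu₀)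
        ((H (a₀ : G)).inv_mem h.2), ?_⟩
      have e2 : (l : G) * h * x₀ * g * ((l : G) * h * x₀)⁻¹ =
          l * (h * (x₀ * g * x₀⁻¹) * (h : G)⁻¹) * (l : G)⁻¹ := by group
      have e3 : (h : G) * ((a₀ : G) * u₀) * (h : G)⁻¹ = a₀ * (h * u₀ * (h : G)⁻¹) := by
        rw [← mul_assoc, ← hcomm]; group
      rw [e2, hx₀, e3]
      show (l : G) * (h * u₀ * (h : G)⁻¹) * (l : G)⁻¹ = _
      group
  · rintro ⟨l, h⟩ _ ⟨l', h'⟩ _ heq
    have e1 : (l : G) * h * x₀ = l' * h' * x₀ := congrArg Prod.snd heq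
    have e2 : (l : G) * h = l' * h' := mul_right_cancel e1
    have e3 : (l' : G)⁻¹ * l = h' * (h : G)⁻¹ := by
      rw [eq_mul_inv_iff_mul_eq, mul_assoc, e2]; group
    have hz : (l' : G)⁻¹ * l ∈ H (a₀ : G) ⊓ (L ⊓ Subgroup.centralizer ({(a₀ : G)} : Set G)) := by
      have hH : (l' : G)⁻¹ * l ∈ H (a₀ : G) := by
        rw [e3]; exact (H (a₀ : G)).mul_mem h'.2 ((H (a₀ : G)).inv_mem h.2)
      exact ⟨hH, L.mul_mem (L.inv_mem l'.2) l.2, hD.le_centralizer a₀ ha₀ hH⟩
    rw [hD.inf_eq_bot a₀ ha₀, Subgroup.mem_bot] at hz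
    have hl : (l : G) = l' := by
      rw [inv_mul_eq_one] at hz; exact hz.symm
    have hh : (h : G) = h' := by
      rw [hl] at e2; exact mul_left_cancel e2
    exact Prod.ext (Subtype.ext hl) (Subtype.ext hh)
  · rintro ⟨a, x⟩ hp
    rw [Finset.mem_filter] at hp
    obtain ⟨-, haA, hmem⟩ := hp
    have haA' : (a : G) ∈ A := haA
    have hmem' : (a : G)⁻¹ * (x * g * x⁻¹) ∈ H (a : G) := hmem
    have hc : (x * x₀⁻¹) * ((a₀ : G) * u₀) * (x * x₀⁻¹)⁻¹ =
        (a : G) * ((a : G)⁻¹ * (x * g * x⁻¹)) := by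
      rw [← hx₀]; group
    have h1 := conj_eq A L H hD ha₀ haA' hu₀ hmem' hc
    obtain ⟨l, hl, hla⟩ := hD.fusion a₀ ha₀ (x * x₀⁻¹) (by rw [h1]; exact haA')
    have hcent : l⁻¹ * (x * x₀⁻¹) ∈ Subgroup.centralizer ({(a₀ : G)} : Set G) := by
      rw [Subgroup.mem_centralizer_singleton_iff]
      have : (a₀ : G) = l⁻¹ * ((x * x₀⁻¹) * a₀ * (x * x₀⁻¹)⁻¹) * l := by rw [← hla]; group
      calc l⁻¹ * (x * x₀⁻¹) * (a₀ : G) = l⁻¹ * ((x * x₀⁻¹) * a₀ * (x * x₀⁻¹)⁻¹) * l *
            (l⁻¹ * (x * x₀⁻¹)) := by group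
        _ = a₀ * (l⁻¹ * (x * x₀⁻¹)) := by rw [← this]
    obtain ⟨k, hk, h, hh, hkh⟩ := exists_decomp A L H hD a₀ ha₀ _ hcent
    have hkc : k * (a₀ : G) = a₀ * k := Subgroup.mem_centralizer_singleton_iff.mp hk.2
    refine ⟨(⟨l * k, L.mul_mem hl hk.1⟩, ⟨h, hh⟩), Finset.mem_univ _, ?_⟩
    apply Prod.ext
    · apply Subtype.ext
      show l * k * (a₀ : G) * (l * k)⁻¹ = a
      rw [← h1, ← hla]
      calc l * k * (a₀ : G) * (l * k)⁻¹ = l * (k * a₀) * k⁻¹ * l⁻¹ := by group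
        _ = l * a₀ * l⁻¹ := by rw [hkc]; group
    · show l * k * h * x₀ = x
      calc l * k * h * x₀ = l * (k * h) * x₀ := by group
        _ = l * (l⁻¹ * (x * x₀⁻¹)) * x₀ := by rw [← hkh]
        _ = x := by group

/-- The weighted number of pairs `(a, x)` with `x g x⁻¹ ∈ a H(a)`. -/
theorem sum_fiber [Fintype G] (A : Set G) (L : Subgroup G) [Fintype L] (H : G → Subgroup G)
    (hD : Cfsg.DadeHypothesis A L H) (α : L → ℂ) (hα : Cfsg.IsClassFunction L α) (g : G)
    [DecidablePred (fun p : L × G => (p.1 : G) ∈ A ∧ (p.1 : G)⁻¹ * (p.2 * g * p.2⁻¹) ∈ H p.1)] :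
    ∑ p : L × G, (if (p.1 : G) ∈ A ∧ (p.1 : G)⁻¹ * (p.2 * g * p.2⁻¹) ∈ H p.1 then
      α p.1 * (Nat.card (H p.1) : ℂ)⁻¹ else 0) =
      (Nat.card L : ℂ) * Cfsg.dadeIsometry A L H α g := by
  by_cases h : ∃ a : ↥L, (a : G) ∈ A ∧ ∃ x : G, ∃ u ∈ H (a : G), x * g * x⁻¹ = (a : G) * u
  · obtain ⟨a₀, ha₀, x₀, u₀, hu₀, hx₀⟩ := h
    rw [dade_apply A L H hD α hα a₀ ha₀ x₀ u₀ g hu₀ hx₀]
    have hterm : ∀ p : L × G,
        (if (p.1 : G) ∈ A ∧ (p.1 : G)⁻¹ * (p.2 * g * p.2⁻¹) ∈ H p.1 then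
          α p.1 * (Nat.card (H p.1) : ℂ)⁻¹ else 0) =
        (if (p.1 : G) ∈ A ∧ (p.1 : G)⁻¹ * (p.2 * g * p.2⁻¹) ∈ H p.1 then
          α a₀ * (Nat.card (H a₀) : ℂ)⁻¹ else 0) := by
      rintro ⟨a, x⟩
      by_cases hc : (a : G) ∈ A ∧ (a : G)⁻¹ * (x * g * x⁻¹) ∈ H (a : G)
      · rw [if_pos hc, if_pos hc]
        obtain ⟨haA, hmem⟩ := hc
        have hc' : (x * x₀⁻¹) * ((a₀ : G) * u₀) * (x * x₀⁻¹)⁻¹ =
            (a : G) * ((a : G)⁻¹ * (x * g * x⁻¹)) := by
          rw [← hx₀]; group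
        have h1 := conj_eq A L H hD ha₀ haA hu₀ hmem hc'
        obtain ⟨l, hl, hla⟩ := hD.fusion a₀ ha₀ (x * x₀⁻¹) (by rw [h1]; exact haA)
        have ea : a = ⟨l, hl⟩ * a₀ * ⟨l, hl⟩⁻¹ := Subtype.ext (by rw [← h1, ← hla]; rfl)
        have e1 : α a = α a₀ := by rw [ea]; exact hα a₀ ⟨l, hl⟩
        have e2 : Nat.card (H (a : G)) = Nat.card (H (a₀ : G)) := by
          have : (a : G) = l * a₀ * l⁻¹ := by rw [← h1, ← hla]
          rw [this, Cfsg.Agent.S1498.result A L H hD a₀ ha₀ l hl]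
          exact Subgroup.card_map_of_injective (MulAut.conj l).injective
        rw [e1, e2]
      · rw [if_neg hc, if_neg hc]
    rw [Finset.sum_congr rfl (fun p _ => hterm p), ← Finset.sum_filter, Finset.sum_const,
      card_fiber A L H hD g a₀ ha₀ x₀ u₀ hu₀ hx₀]
    have hne : (Nat.card (H (a₀ : G)) : ℂ) ≠ 0 := by
      have := Nat.card_pos (α := H (a₀ : G))
      exact_mod_cast this.ne'
    rw [nsmul_eq_mul]
    push_cast
    field_simp
  · rw [dade_apply_zero A L H α g h, mul_zero]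
    apply Finset.sum_eq_zero
    rintro ⟨a, x⟩ _
    rw [if_neg]
    rintro ⟨haA, hmem⟩
    exact h ⟨a, haA, x, _, hmem, by group⟩

/-- The adjointness formula for the Dade map. -/
theorem adjoint [Fintype G] (A : Set G) (L : Subgroup G) [Fintype L] (H : G → Subgroup G)
    (hD : Cfsg.DadeHypothesis A L H) (α : L → ℂ) (hα : Cfsg.IsClassFunction L α)
    (F : G → ℂ) (hF : Cfsg.IsClassFunction G F)
    [DecidablePred (fun a : L => (a : G) ∈ A)] [∀ a : G, DecidablePred (fun u : G => u ∈ H a)] :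
    (Nat.card L : ℂ) * ∑ g : G, Cfsg.dadeIsometry A L H α g * F g =
      (Nat.card G : ℂ) * ∑ a : L, (if (a : G) ∈ A then
        α a * ((Nat.card (H a) : ℂ)⁻¹ * ∑ u : G, if u ∈ H a then F ((a : G) * u) else 0) else 0) := by
  classical
  rw [Finset.mul_sum]
  have h1 : ∀ g : G, (Nat.card L : ℂ) * (Cfsg.dadeIsometry A L H α g * F g) =
      ∑ p : L × G, (if (p.1 : G) ∈ A ∧ (p.1 : G)⁻¹ * (p.2 * g * p.2⁻¹) ∈ H p.1 then
        α p.1 * (Nat.card (H p.1) : ℂ)⁻¹ * F g else 0) := by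
    intro g
    rw [← mul_assoc, ← sum_fiber A L H hD α hα g, Finset.sum_mul]
    refine Finset.sum_congr rfl (fun p _ => ?_)
    rw [ite_mul, zero_mul]
  rw [Finset.sum_congr rfl (fun g _ => h1 g), Finset.sum_comm, Fintype.sum_prod_type,
    Finset.mul_sum]
  refine Finset.sum_congr rfl (fun a _ => ?_)
  by_cases haA : (a : G) ∈ A
  · rw [if_pos haA]
    have h2 : ∀ x : G, ∑ g : G, (if (a : G) ∈ A ∧ (a : G)⁻¹ * (x * g * x⁻¹) ∈ H a then
        α a * (Nat.card (H a) : ℂ)⁻¹ * F g else 0) =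
        α a * (Nat.card (H a) : ℂ)⁻¹ * ∑ u : G, if u ∈ H a then F ((a : G) * u) else 0 := by
      intro x
      rw [Finset.mul_sum]
      let e : G ≃ G := ⟨fun u => x⁻¹ * ((a : G) * u) * x, fun g => (a : G)⁻¹ * (x * g * x⁻¹),
        fun u => by group, fun g => by group⟩
      symm
      apply Fintype.sum_equiv e
      intro u
      show _ = (if (a : G) ∈ A ∧ (a : G)⁻¹ * (x * (x⁻¹ * ((a : G) * u) * x) * x⁻¹) ∈ H a then
        α a * (Nat.card (H a) : ℂ)⁻¹ * F (x⁻¹ * ((a : G) * u) * x) else 0)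
      have e1 : (a : G)⁻¹ * (x * (x⁻¹ * ((a : G) * u) * x) * x⁻¹) = u := by group
      have e2 : F (x⁻¹ * ((a : G) * u) * x) = F ((a : G) * u) := by
        have := hF ((a : G) * u) x⁻¹
        rw [inv_inv] at this
        exact this
      rw [e1, e2]
      by_cases hu : u ∈ H a
      · rw [if_pos hu, if_pos ⟨haA, hu⟩]
      · rw [if_neg hu, if_neg (fun hh => hu hh.2), mul_zero]
    rw [Finset.sum_congr rfl (fun x _ => h2 x), Finset.sum_const, Finset.card_univ,
      nsmul_eq_mul, ← Nat.card_eq_fintype_card (α := G)]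
    ring
  · rw [if_neg haA, mul_zero]
    apply Finset.sum_eq_zero
    intro x _
    apply Finset.sum_eq_zero
    intro g _
    rw [if_neg (fun hh => haA hh.1)]

/-- A `finsum` over a set of a fintype as an indicator sum. -/
theorem finsum_mem_eq {X M : Type*} [Fintype X] [AddCommMonoid M] (S : Set X) (f : X → M)
    [DecidablePred (fun u : X => u ∈ S)] :
    ∑ᶠ u ∈ S, f u = ∑ u : X, if u ∈ S then f u else 0 := by
  rw [finsum_mem_def, finsum_eq_sum_of_fintype]
  refine Finset.sum_congr rfl (fun u _ => ?_)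
  rw [Set.indicator_apply]

/-- The inner product of a Dade image with a class function of `G`. -/
theorem inner_dade [Fintype G] (A : Set G) (L : Subgroup G) [Fintype L] (H : G → Subgroup G)
    (hD : Cfsg.DadeHypothesis A L H) (α : L → ℂ) (hα : Cfsg.IsClassFunction L α)
    (χ : G → ℂ) (hχ : Cfsg.IsClassFunction G χ)
    [DecidablePred (fun a : L => (a : G) ∈ A)] [∀ a : G, DecidablePred (fun u : G => u ∈ H a)] :
    Cfsg.classInner (Cfsg.dadeIsometry A L H α) χ =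
      (Nat.card L : ℂ)⁻¹ * ∑ a : L, (if (a : G) ∈ A then
        α a * conj ((Nat.card (H a) : ℂ)⁻¹ * ∑ u : G, if u ∈ H a then χ ((a : G) * u) else 0)
        else 0) := by
  have hF : Cfsg.IsClassFunction G (fun g => conj (χ g)) := fun g h => by
    show conj (χ (h * g * h⁻¹)) = conj (χ g)
    rw [hχ g h]
  have h := adjoint A L H hD α hα (fun g => conj (χ g)) hF
  have hG : (Nat.card G : ℂ) ≠ 0 := by
    have := Nat.card_pos (α := G)
    exact_mod_cast this.ne'
  have hL : (Nat.card L : ℂ) ≠ 0 := by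
    have := Nat.card_pos (α := L)
    exact_mod_cast this.ne'
  have e : ∑ a : L, (if (a : G) ∈ A then
        α a * conj ((Nat.card (H a) : ℂ)⁻¹ * ∑ u : G, if u ∈ H a then χ ((a : G) * u) else 0)
        else 0) = ∑ a : L, (if (a : G) ∈ A then
        α a * ((Nat.card (H a) : ℂ)⁻¹ * ∑ u : G, if u ∈ H a then (fun g => conj (χ g)) ((a : G) * u)
          else 0) else 0) := by
    refine Finset.sum_congr rfl (fun a _ => ?_)
    by_cases haA : (a : G) ∈ A
    · rw [if_pos haA, if_pos haA, map_mul, map_inv₀, Complex.conj_natCast, map_sum]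
      congr 2
      refine Finset.sum_congr rfl (fun u _ => ?_)
      by_cases hu : u ∈ H a
      · rw [if_pos hu, if_pos hu]
      · rw [if_neg hu, if_neg hu, map_zero]
    · rw [if_neg haA, if_neg haA]
  rw [e]
  unfold Cfsg.classInner
  rw [inv_mul_eq_iff_eq_mul₀ hG, ← mul_assoc, mul_comm (Nat.card G : ℂ), mul_assoc, ← h,
    ← mul_assoc, inv_mul_cancel₀ hL, one_mul]

/-- The Dade map is an isometry on class functions supported on `A`. -/
theorem dade_isometry [Fintype G] (A : Set G) (L : Subgroup G) [Fintype L] (H : G → Subgroup G)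
    (hD : Cfsg.DadeHypothesis A L H) (α : L → ℂ) (hα : Cfsg.IsClassFunction L α)
    (hαA : ∀ x : L, (x : G) ∉ A → α x = 0) (β : L → ℂ) (hβ : Cfsg.IsClassFunction L β) :
    Cfsg.classInner (Cfsg.dadeIsometry A L H α) (Cfsg.dadeIsometry A L H β) =
      Cfsg.classInner α β := by
  classical
  rw [inner_dade A L H hD α hα _ (dade_isClassFunction A L H hD β hβ)]
  unfold Cfsg.classInner
  congr 1
  refine Finset.sum_congr rfl (fun a _ => ?_)
  by_cases haA : (a : G) ∈ A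
  · rw [if_pos haA]
    have e : ∑ u : G, (if u ∈ H a then Cfsg.dadeIsometry A L H β ((a : G) * u) else 0) =
        (Nat.card (H a) : ℂ) * β a := by
      have : ∀ u : G, (if u ∈ H a then Cfsg.dadeIsometry A L H β ((a : G) * u) else 0) =
          if u ∈ H a then β a else 0 := by
        intro u
        by_cases hu : u ∈ H a
        · rw [if_pos hu, if_pos hu]
          exact dade_apply A L H hD β hβ a haA 1 u _ hu (by group)
        · rw [if_neg hu, if_neg hu]
      rw [Finset.sum_congr rfl (fun u _ => this u), ← Finset.sum_filter, Finset.sum_const,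
        nsmul_eq_mul]
      congr 2
      rw [Nat.card_eq_fintype_card, Fintype.card_subtype]
    have hne : (Nat.card (H (a : G)) : ℂ) ≠ 0 := by
      have := Nat.card_pos (α := H (a : G))
      exact_mod_cast this.ne'
    rw [e, ← mul_assoc, inv_mul_cancel₀ hne, one_mul]
  · rw [if_neg haA, hαA a haA, zero_mul]

/-- Adjointness: the inner product of a Dade image with a class function `χ` of `G` is the inner
product over `L` with the coset averages of `χ`. -/
theorem dade_adjoint [Fintype G] (A : Set G) (L : Subgroup G) [Fintype L] (H : G → Subgroup G)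
    (hD : Cfsg.DadeHypothesis A L H) (α : L → ℂ) (hα : Cfsg.IsClassFunction L α)
    (hαA : ∀ x : L, (x : G) ∉ A → α x = 0) (χ : G → ℂ) (ψ : L → ℂ)
    (hχ : Cfsg.IsClassFunction G χ)
    (hψ : ∀ a : L, (a : G) ∈ A →
      ψ a = (Nat.card (H a) : ℂ)⁻¹ * ∑ᶠ u ∈ (H a : Set G), χ (a * u)) :
    Cfsg.classInner (Cfsg.dadeIsometry A L H α) χ = Cfsg.classInner α ψ := by
  classical
  rw [inner_dade A L H hD α hα χ hχ]
  unfold Cfsg.classInner
  congr 1
  refine Finset.sum_congr rfl (fun a _ => ?_)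
  by_cases haA : (a : G) ∈ A
  · rw [if_pos haA, hψ a haA, finsum_mem_eq]
    simp only [SetLike.mem_coe]
  · rw [if_neg haA, hαA a haA, zero_mul]

/-- The coset averages of a class function of `G`, cut off outside `A`, form a class function of
`L`. -/
theorem avg_isClassFunction [Fintype G] (A : Set G) (L : Subgroup G) (H : G → Subgroup G)
    (hD : Cfsg.DadeHypothesis A L H) (χ : G → ℂ) (hχ : Cfsg.IsClassFunction G χ) (ψ : L → ℂ)
    (hψ : ∀ a : L, (a : G) ∈ A →
      ψ a = (Nat.card (H a) : ℂ)⁻¹ * ∑ᶠ u ∈ (H a : Set G), χ (a * u))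
    [DecidablePred (fun a : L => (a : G) ∈ A)] :
    Cfsg.IsClassFunction L (fun a : L => if (a : G) ∈ A then ψ a else 0) := by
  classical
  intro a l
  show (if ((l * a * l⁻¹ : L) : G) ∈ A then ψ (l * a * l⁻¹) else 0) =
    if (a : G) ∈ A then ψ a else 0
  by_cases haA : (a : G) ∈ A
  · have haA' : ((l * a * l⁻¹ : L) : G) ∈ A := hD.conj_mem l l.2 a haA
    rw [if_pos haA, if_pos haA', hψ a haA, hψ _ haA', finsum_mem_eq, finsum_mem_eq]
    have e1 : ((l * a * l⁻¹ : L) : G) = (l : G) * a * (l : G)⁻¹ := rfl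
    have eH := Cfsg.Agent.S1498.result A L H hD a haA l l.2
    have ecard : Nat.card (H ((l * a * l⁻¹ : L) : G)) = Nat.card (H (a : G)) := by
      rw [e1, eH]
      exact Subgroup.card_map_of_injective (MulAut.conj (l : G)).injective
    rw [ecard]
    congr 1
    symm
    apply Fintype.sum_equiv (MulAut.conj (l : G)).toEquiv
    intro v
    show (if v ∈ ((H (a : G) : Subgroup G) : Set G) then χ ((a : G) * v) else 0) =
      if (l : G) * v * (l : G)⁻¹ ∈ ((H ((l * a * l⁻¹ : L) : G) : Subgroup G) : Set G) then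
        χ (((l * a * l⁻¹ : L) : G) * ((l : G) * v * (l : G)⁻¹)) else 0
    have hiff : (l : G) * v * (l : G)⁻¹ ∈ ((H ((l * a * l⁻¹ : L) : G) : Subgroup G) : Set G) ↔
        v ∈ ((H (a : G) : Subgroup G) : Set G) := by
      rw [SetLike.mem_coe, SetLike.mem_coe, e1, eH]
      exact Subgroup.mem_map_iff_mem (f := (MulAut.conj (l : G)).toMonoidHom)
        (MulAut.conj (l : G)).injective
    have e2 : χ (((l * a * l⁻¹ : L) : G) * ((l : G) * v * (l : G)⁻¹)) = χ ((a : G) * v) := by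
      rw [e1]
      have : (l : G) * a * (l : G)⁻¹ * ((l : G) * v * (l : G)⁻¹) =
          l * ((a : G) * v) * (l : G)⁻¹ := by group
      rw [this]
      exact hχ _ _
    by_cases hv : v ∈ ((H (a : G) : Subgroup G) : Set G)
    · rw [if_pos hv, if_pos (hiff.mpr hv), e2]
    · rw [if_neg hv, if_neg (fun h => hv (hiff.mp h))]
  · have haA' : ((l * a * l⁻¹ : L) : G) ∉ A := by
      intro h
      apply haA
      have := hD.conj_mem (l⁻¹ : L) (l⁻¹ : L).2 _ h
      have e : ((l⁻¹ : L) : G) * ((l * a * l⁻¹ : L) : G) * ((l⁻¹ : L) : G)⁻¹ = a := by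
        show (l : G)⁻¹ * ((l : G) * a * (l : G)⁻¹) * (l : G)⁻¹⁻¹ = a
        group
      rw [e] at this
      exact this
    rw [if_neg haA, if_neg haA']

end Cfsg.Agent.Lib.Helper10.Dade
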