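import Mathlib
import Cfsg.Agent.Lib.Helper10.Virt

/-!
Coherence of a set of irreducible characters all of whose differences are sent, isometrically,
to virtual characters vanishing at the identity (the equal-degree case of coherence).
-/

set_option autoImplicit false
set_option linter.unusedSectionVars false
set_option linter.unusedVariables false

namespace Cfsg.Agent.Lib.Helper10.EqDeg

open Cfsg.Agent.Lib.Helper1 Cfsg.Agent.Lib.Helper10.Virt
open scoped ComplexConjugate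

section

variable {G : Type*} [Group G] [Fintype G]

open scoped Classical in
theorem inner_sub_sub_irr {a b c d : G → ℂ} (ha : Cfsg.IsIrrCharacter G a)
    (hb : Cfsg.IsIrrCharacter G b) (hc : Cfsg.IsIrrCharacter G c) (hd : Cfsg.IsIrrCharacter G d) :
    Cfsg.classInner (a - b) (c - d) =
      (if a = c then 1 else 0) - (if a = d then 1 else 0) - (if b = c then 1 else 0) +
        (if b = d then 1 else 0) := by
  rw [classInner_sub_left, classInner_sub_right, classInner_sub_right, classInner_irr ha hc,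
    classInner_irr ha hd, classInner_irr hb hc, classInner_irr hb hd]
  ring

theorem xor_of_inner {a b a' b' : G → ℂ} (ha : Cfsg.IsIrrCharacter G a)
    (hb : Cfsg.IsIrrCharacter G b) (ha' : Cfsg.IsIrrCharacter G a')
    (hb' : Cfsg.IsIrrCharacter G b') (hab : a ≠ b) (hab' : a' ≠ b')
    (h : Cfsg.classInner (a - b) (a' - b') = 1) : (a = a' ∨ b = b') ∧ ¬ (a = a' ∧ b = b') := by
  classical
  rw [inner_sub_sub_irr ha hb ha' hb'] at h
  by_cases h1 : a = a'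
  · by_cases h4 : b = b'
    · exfalso
      have h2 : ¬ a = b' := fun e => hab (e.trans h4.symm)
      have h3 : ¬ b = a' := fun e => hab (h1.trans e.symm)
      rw [if_pos h1, if_pos h4, if_neg h2, if_neg h3] at h
      norm_num at h
    · exact ⟨Or.inl h1, fun hh => h4 hh.2⟩
  · by_cases h4 : b = b'
    · exact ⟨Or.inr h4, fun hh => h1 hh.1⟩
    · exfalso
      rw [if_neg h1, if_neg h4] at h
      by_cases h2 : a = b' <;> by_cases h3 : b = a' <;> simp [h2, h3] at h <;> norm_num at h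

end

variable {N G : Type*} [Group N] [Fintype N] [Group G] [Fintype G]

/-- Equal-degree coherence: if `τ` sends differences of members of a set `S` of irreducible
characters to virtual characters vanishing at `1`, additively and isometrically, then there
are a sign and an injection `f` of `S` into the irreducible characters with
`τ (χ - ξ) = ε (f χ - f ξ)`. -/
theorem coherent_of_diff (S : Set (N → ℂ)) (τ : (N → ℂ) → (G → ℂ))
    (hirr : ∀ χ ∈ S, Cfsg.IsIrrCharacter N χ)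
    (hgen : ∀ χ ∈ S, ∀ ξ ∈ S, Cfsg.IsGeneralizedCharacter G (τ (χ - ξ)))
    (hone : ∀ χ ∈ S, ∀ ξ ∈ S, τ (χ - ξ) 1 = 0)
    (hinner : ∀ χ ∈ S, ∀ ξ ∈ S, ∀ χ' ∈ S, ∀ ξ' ∈ S,
      Cfsg.classInner (τ (χ - ξ)) (τ (χ' - ξ')) = Cfsg.classInner (χ - ξ) (χ' - ξ'))
    (hadd : ∀ χ ∈ S, ∀ ξ ∈ S, ∀ ζ ∈ S, τ (χ - ζ) = τ (χ - ξ) + τ (ξ - ζ)) :
    ∃ (ε : ℂ) (f : (N → ℂ) → (G → ℂ)), (ε = 1 ∨ ε = -1) ∧
      (∀ χ ∈ S, Cfsg.IsIrrCharacter G (f χ)) ∧ (∀ χ ∈ S, ∀ ξ ∈ S, f χ = f ξ → χ = ξ) ∧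
      ∀ χ ∈ S, ∀ ξ ∈ S, τ (χ - ξ) = ε • (f χ - f ξ) := by
  classical
  have hzero : ∀ χ ∈ S, τ (χ - χ) = 0 := by
    intro χ hχ
    have := hadd χ hχ χ hχ χ hχ
    exact left_eq_add.mp this
  have hneg : ∀ χ ∈ S, ∀ ξ ∈ S, τ (χ - ξ) = -τ (ξ - χ) := by
    intro χ hχ ξ hξ
    have := hadd χ hχ ξ hξ χ hχ
    rw [hzero χ hχ] at this
    exact eq_neg_of_add_eq_zero_left this.symm
  by_cases hsub : ∀ χ ∈ S, ∀ ξ ∈ S, χ = ξ
  · -- at most one member
    refine ⟨1, fun _ => (fun _ => (1 : ℂ)), Or.inl rfl, fun _ _ => isIrrCharacter_one,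
      fun χ hχ ξ hξ _ => hsub χ hχ ξ hξ, fun χ hχ ξ hξ => ?_⟩
    rw [hsub ξ hξ χ hχ, hzero χ hχ]
    simp
  push_neg at hsub
  obtain ⟨χ₁, hχ₁, χ₂, hχ₂, h12⟩ := hsub
  -- the decomposition of τ (χ₁ - χ)
  have hdec : ∀ χ : N → ℂ, ∃ a b : G → ℂ, χ ∈ S → χ ≠ χ₁ →
      (Cfsg.IsIrrCharacter G a ∧ Cfsg.IsIrrCharacter G b ∧ a ≠ b ∧ τ (χ₁ - χ) = a - b) := by
    intro χ
    by_cases h : χ ∈ S ∧ χ ≠ χ₁
    · have hnorm : Cfsg.classInner (τ (χ₁ - χ)) (τ (χ₁ - χ)) = 2 := by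
        rw [hinner χ₁ hχ₁ χ h.1 χ₁ hχ₁ χ h.1,
          inner_sub_sub_irr (hirr χ₁ hχ₁) (hirr χ h.1) (hirr χ₁ hχ₁) (hirr χ h.1),
          if_pos rfl, if_pos rfl, if_neg (Ne.symm h.2), if_neg h.2]
        norm_num
      obtain ⟨a, b, ha, hb, hab, he⟩ :=
        norm_two_vanish (hgen χ₁ hχ₁ χ h.1) hnorm (hone χ₁ hχ₁ χ h.1)
      exact ⟨a, b, fun _ _ => ⟨ha, hb, hab, he⟩⟩
    · exact ⟨0, 0, fun h1 h2 => absurd ⟨h1, h2⟩ h⟩
  choose a b hab using hdec
  have hX : ∀ χ ∈ S, χ ≠ χ₁ → ∀ χ' ∈ S, χ' ≠ χ₁ → χ ≠ χ' →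
      (a χ = a χ' ∨ b χ = b χ') ∧ ¬ (a χ = a χ' ∧ b χ = b χ') := by
    intro χ hχ hχ1 χ' hχ' hχ'1 hne
    obtain ⟨ha, hb, hne1, he⟩ := hab χ hχ hχ1
    obtain ⟨ha', hb', hne1', he'⟩ := hab χ' hχ' hχ'1
    apply xor_of_inner ha hb ha' hb' hne1 hne1'
    rw [← he, ← he', hinner χ₁ hχ₁ χ hχ χ₁ hχ₁ χ' hχ',
      inner_sub_sub_irr (hirr χ₁ hχ₁) (hirr χ hχ) (hirr χ₁ hχ₁) (hirr χ' hχ'),
      if_pos rfl, if_neg (Ne.symm hχ'1), if_neg hχ1, if_neg hne]
    norm_num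
  have h21 : χ₂ ≠ χ₁ := Ne.symm h12
  by_cases hP : ∀ χ ∈ S, χ ≠ χ₁ → ∀ χ' ∈ S, χ' ≠ χ₁ → a χ = a χ'
  · -- all `a` agree
    refine ⟨1, fun χ => if χ = χ₁ then a χ₂ else b χ, Or.inl rfl, ?_, ?_, ?_⟩
    · intro χ hχ
      by_cases h : χ = χ₁
      · simp only [if_pos h]
        exact (hab χ₂ hχ₂ h21).1
      · simp only [if_neg h]
        exact (hab χ hχ h).2.1
    · intro χ hχ ξ hξ hf
      by_cases h : χ = χ₁
      · by_cases h' : ξ = χ₁
        · rw [h, h']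
        · exfalso
          simp only [if_pos h, if_neg h'] at hf
          rw [hP χ₂ hχ₂ h21 ξ hξ h'] at hf
          exact (hab ξ hξ h').2.2.1 hf
      · by_cases h' : ξ = χ₁
        · exfalso
          simp only [if_neg h, if_pos h'] at hf
          rw [hP χ₂ hχ₂ h21 χ hχ h] at hf
          exact (hab χ hχ h).2.2.1 hf.symm
        · simp only [if_neg h, if_neg h'] at hf
          by_contra hne
          exact (hX χ hχ h ξ hξ h' hne).2 ⟨hP χ hχ h ξ hξ h', hf⟩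
    · intro χ hχ ξ hξ
      rw [one_smul]
      by_cases h : χ = χ₁
      · by_cases h' : ξ = χ₁
        · rw [h, h', hzero χ₁ hχ₁]; simp
        · simp only [if_pos h, if_neg h']
          rw [h, (hab ξ hξ h').2.2.2, hP χ₂ hχ₂ h21 ξ hξ h']
      · by_cases h' : ξ = χ₁
        · simp only [if_neg h, if_pos h']
          rw [h', hneg χ hχ χ₁ hχ₁, (hab χ hχ h).2.2.2, hP χ₂ hχ₂ h21 χ hχ h]
          abel
        · simp only [if_neg h, if_neg h']
          rw [hadd χ hχ χ₁ hχ₁ ξ hξ, hneg χ hχ χ₁ hχ₁, (hab χ hχ h).2.2.2,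
            (hab ξ hξ h').2.2.2, hP χ hχ h ξ hξ h']
          abel
  · -- all `b` agree
    push_neg at hP
    obtain ⟨χ₃, hχ₃, h31, χ₄, hχ₄, h41, hne34⟩ := hP
    have h34 : χ₃ ≠ χ₄ := fun h => hne34 (by rw [h])
    have hb34 : b χ₃ = b χ₄ := by
      rcases (hX χ₃ hχ₃ h31 χ₄ hχ₄ h41 h34).1 with h | h
      · exact absurd h hne34
      · exact h
    have hQ : ∀ χ ∈ S, χ ≠ χ₁ → b χ = b χ₃ := by
      intro χ hχ hχ1
      by_cases e3 : χ = χ₃
      · rw [e3]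
      · rcases (hX χ hχ hχ1 χ₃ hχ₃ h31 e3).1 with h | h
        · by_cases e4 : χ = χ₄
          · rw [e4]; exact hb34.symm
          · rcases (hX χ hχ hχ1 χ₄ hχ₄ h41 e4).1 with h' | h'
            · exact absurd (h.symm.trans h') hne34
            · exact h'.trans hb34.symm
        · exact h
    refine ⟨-1, fun χ => if χ = χ₁ then b χ₃ else a χ, Or.inr rfl, ?_, ?_, ?_⟩
    · intro χ hχ
      by_cases h : χ = χ₁
      · simp only [if_pos h]
        exact (hab χ₃ hχ₃ h31).2.1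
      · simp only [if_neg h]
        exact (hab χ hχ h).1
    · intro χ hχ ξ hξ hf
      by_cases h : χ = χ₁
      · by_cases h' : ξ = χ₁
        · rw [h, h']
        · exfalso
          simp only [if_pos h, if_neg h'] at hf
          rw [← hQ ξ hξ h'] at hf
          exact (hab ξ hξ h').2.2.1 hf.symm
      · by_cases h' : ξ = χ₁
        · exfalso
          simp only [if_neg h, if_pos h'] at hf
          rw [← hQ χ hχ h] at hf
          exact (hab χ hχ h).2.2.1 hf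
        · simp only [if_neg h, if_neg h'] at hf
          by_contra hne
          exact (hX χ hχ h ξ hξ h' hne).2 ⟨hf, (hQ χ hχ h).trans (hQ ξ hξ h').symm⟩
    · intro χ hχ ξ hξ
      rw [neg_one_smul]
      by_cases h : χ = χ₁
      · by_cases h' : ξ = χ₁
        · rw [h, h', hzero χ₁ hχ₁]; simp
        · simp only [if_pos h, if_neg h']
          rw [h, (hab ξ hξ h').2.2.2, hQ ξ hξ h']
          abel
      · by_cases h' : ξ = χ₁
        · simp only [if_neg h, if_pos h']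
          rw [h', hneg χ hχ χ₁ hχ₁, (hab χ hχ h).2.2.2, hQ χ hχ h]
        · simp only [if_neg h, if_neg h']
          rw [hadd χ hχ χ₁ hχ₁ ξ hξ, hneg χ hχ χ₁ hχ₁, (hab χ hχ h).2.2.2,
            (hab ξ hξ h').2.2.2, hQ χ hχ h, hQ ξ hξ h']
          abel

end Cfsg.Agent.Lib.Helper10.EqDeg
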