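import Mathlib

set_option autoImplicit false

namespace Cfsg.Agent.Lib.Helper10.FrobFree

open Module

/-- If `W` is the internal direct sum of the translates of `A1` under a finite group `E`,
then `dim W = |E| * dim A1` and the fixed space of `E` has dimension `dim A1`. -/
theorem free_count {K W E : Type*} [Field K] [AddCommGroup W] [Module K W] [FiniteDimensional K W]
    [Group E] [Fintype E] [DecidableEq E]
    (g : E →* Module.End K W) (A1 : Submodule K W)
    (hint : DirectSum.IsInternal (fun e : E => A1.map (g e))) :
    Module.finrank K W = Fintype.card E * Module.finrank K A1 ∧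
    Module.finrank K ↥(⨅ e : E, LinearMap.ker (g e - 1)) = Module.finrank K A1 := by
  classical
  have hgmul : ∀ e e' : E, ∀ x : W, g e (g e' x) = g (e * e') x := fun e e' x => by
    rw [map_mul]; rfl
  have hg1 : ∀ x : W, g 1 x = x := fun x => by rw [map_one]; rfl
  have hginj : ∀ e, Function.Injective (g e) := fun e => by
    intro x y hxy
    have := congrArg (g e⁻¹) hxy
    rwa [hgmul, hgmul, inv_mul_cancel, hg1, hg1] at this
  have hfr : ∀ e, Module.finrank K ↥(A1.map (g e)) = Module.finrank K A1 := fun e =>
    (Submodule.equivMapOfInjective (g e) (hginj e) A1).finrank_eq.symm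
  set A : E → Submodule K W := fun e => A1.map (g e) with hA
  set D := LinearEquiv.ofBijective (DirectSum.coeLinearMap A) hint with hD
  refine ⟨?_, ?_⟩
  · have e1 := D.finrank_eq
    rw [Module.finrank_directSum] at e1
    have hfr' : ∀ e, Module.finrank K ↥(A e) = Module.finrank K A1 := hfr
    rw [← e1, Finset.sum_congr rfl (fun e _ => hfr' e), Finset.sum_const, Finset.card_univ,
      smul_eq_mul]
  · -- component maps
    let cp : E → W → W := fun e x => ((D.symm x) e : W)
    have cp_add : ∀ e x y, cp e (x + y) = cp e x + cp e y := fun e x y => by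
      simp only [cp, map_add, DirectSum.add_apply, Submodule.coe_add]
    have cp_zero : ∀ e, cp e 0 = 0 := fun e => by
      simp only [cp, map_zero, DirectSum.zero_apply, Submodule.coe_zero]
    have cp_sum : ∀ e (s : Finset E) (h : E → W), cp e (∑ i ∈ s, h i) = ∑ i ∈ s, cp e (h i) := by
      intro e s h
      induction s using Finset.induction_on with
      | empty => simp [cp_zero]
      | insert a s ha ih => rw [Finset.sum_insert ha, Finset.sum_insert ha, cp_add, ih]
    have cp_same : ∀ e x, x ∈ A e → cp e x = x := fun e x hx => by
      simp only [cp]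
      rw [hint.ofBijective_coeLinearMap_of_mem hx]
    have cp_ne : ∀ e e' x, x ∈ A e' → e' ≠ e → cp e x = 0 := fun e e' x hx hne => by
      simp only [cp]
      rw [hint.ofBijective_coeLinearMap_of_mem_ne hne hx]; rfl
    have cp_total : ∀ v : W, v = ∑ e, cp e v := by
      intro v
      have h1 : D (D.symm v) = v := D.apply_symm_apply v
      have h2 : D (D.symm v) = ∑ e, ((D.symm v) e : W) := by
        conv_lhs => rw [← DirectSum.sum_univ_of (D.symm v)]
        rw [map_sum]
        refine Finset.sum_congr rfl fun e _ => ?_
        show DirectSum.coeLinearMap A (DirectSum.of _ e _) = _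
        exact DirectSum.coeLinearMap_of A e _
      exact h1.symm.trans h2
    have hmemA : ∀ e e' x, x ∈ A e' → g e x ∈ A (e * e') := by
      intro e e' x hx
      obtain ⟨a, ha, rfl⟩ := hx
      exact ⟨a, ha, (hgmul e e' a).symm⟩
    have htop : ⨆ e, A e = ⊤ := hint.submodule_iSup_eq_top
    have cp_equiv : ∀ e x, cp e (g e x) = g e (cp 1 x) := by
      intro e x
      have hx : x ∈ ⨆ e, A e := by rw [htop]; trivial
      refine Submodule.iSup_induction A (motive := fun x => cp e (g e x) = g e (cp 1 x)) hx ?_ ?_ ?_
      · intro e' y hy
        by_cases he' : e' = 1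
        · subst he'
          rw [cp_same 1 y hy]
          have := hmemA e 1 y hy
          rw [mul_one] at this
          exact cp_same e _ this
        · rw [cp_ne 1 e' y hy he', map_zero]
          refine cp_ne e (e * e') _ (hmemA e e' y hy) ?_
          intro h
          exact he' (by simpa using h)
      · simp [cp_zero]
      · intro x y hx hy
        rw [map_add, cp_add, hx, hy, cp_add, map_add]
    have hA1 : ∀ a : W, a ∈ A1 ↔ a ∈ A 1 := by
      intro a
      constructor
      · intro ha
        exact ⟨a, ha, hg1 a⟩
      · rintro ⟨b, hb, rfl⟩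
        rw [hg1]; exact hb
    let T' : ↥A1 →ₗ[K] W := ∑ e : E, (g e) ∘ₗ A1.subtype
    have hT' : ∀ a : ↥A1, T' a = ∑ e : E, g e (a : W) := by
      intro a
      simp only [T', LinearMap.sum_apply, LinearMap.comp_apply, Submodule.subtype_apply]
    have hinj : Function.Injective T' := by
      rw [← LinearMap.ker_eq_bot, LinearMap.ker_eq_bot']
      intro a ha
      have h1 : cp 1 (T' a) = (a : W) := by
        rw [hT', cp_sum, Finset.sum_eq_single (1 : E)]
        · rw [hg1]
          exact cp_same 1 _ ((hA1 _).mp a.2)
        · intro e _ he
          refine cp_ne 1 e _ ?_ he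
          have := hmemA e 1 _ ((hA1 _).mp a.2)
          rwa [mul_one] at this
        · intro h; exact absurd (Finset.mem_univ _) h
      rw [ha, cp_zero] at h1
      exact Subtype.ext h1.symm
    have hrange : LinearMap.range T' = ⨅ e : E, LinearMap.ker (g e - 1) := by
      ext v
      simp only [LinearMap.mem_range, Submodule.mem_iInf, LinearMap.mem_ker, LinearMap.sub_apply,
        Module.End.one_apply, sub_eq_zero]
      constructor
      · rintro ⟨a, rfl⟩ e'
        rw [hT', map_sum]
        simp only [hgmul]
        exact Fintype.sum_equiv (Equiv.mulLeft e') _ _ (fun e => rfl)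
      · intro hv
        have hc1 : cp 1 v ∈ A1 := by
          rw [hA1]
          simp only [cp]
          exact ((D.symm v) 1).2
        refine ⟨⟨cp 1 v, hc1⟩, ?_⟩
        rw [hT']
        conv_rhs => rw [cp_total v]
        refine Finset.sum_congr rfl fun e _ => ?_
        show g e (cp 1 v) = cp e v
        rw [← cp_equiv e v, hv e]
    rw [← hrange]
    exact (LinearEquiv.ofInjective T' hinj).finrank_eq.symm

end Cfsg.Agent.Lib.Helper10.FrobFree
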