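import Mathlib

set_option autoImplicit false

namespace Cfsg.Agent.Lib.Helper10.FrobFree

open Module

/-- An equivariant colouring for an action which is free on an invariant set. -/
theorem exists_color {E X : Type*} [Group E] (act : E → X → X)
    (h1 : ∀ x, act 1 x = x) (hm : ∀ e e' x, act (e * e') x = act e (act e' x))
    (S : Set X) (hS : ∀ e x, x ∈ S → act e x ∈ S)
    (hfree : ∀ e x, x ∈ S → act e x = x → e = 1) :
    ∃ c : X → E, ∀ x ∈ S, ∀ e, c (act e x) = e * c x := by
  classical
  let rel : Setoid X :=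
    { r := fun x y => ∃ e, act e x = y
      iseqv := ⟨fun x => ⟨1, h1 x⟩,
        fun {x y} ⟨e, he⟩ => ⟨e⁻¹, by rw [← he, ← hm, inv_mul_cancel, h1]⟩,
        fun {x y z} ⟨e, he⟩ ⟨e', he'⟩ => ⟨e' * e, by rw [hm, he, he']⟩⟩ }
  let rep : X → X := fun x => (Quotient.mk rel x).out
  have hrep : ∀ x, ∃ e, act e (rep x) = x := fun x => Quotient.mk_out (s := rel) x
  have hrep_eq : ∀ e x, rep (act e x) = rep x := by
    intro e x
    have : Quotient.mk rel (act e x) = Quotient.mk rel x :=
      Quotient.sound (show rel.r (act e x) x from ⟨e⁻¹, by rw [← hm, inv_mul_cancel, h1]⟩)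
    simp only [rep, this]
  choose c hc using hrep
  refine ⟨c, fun x hx e => ?_⟩
  have hrx : act (c x)⁻¹ x = rep x := by
    calc act (c x)⁻¹ x = act (c x)⁻¹ (act (c x) (rep x)) := by rw [hc x]
      _ = rep x := by rw [← hm, inv_mul_cancel, h1]
  have hrS : rep x ∈ S := by
    rw [← hrx]; exact hS _ x hx
  have h2 : act (c (act e x)) (rep x) = act (e * c x) (rep x) := by
    have := hc (act e x)
    rw [hrep_eq] at this
    rw [this, hm, hc x]
  have h3 : act ((e * c x)⁻¹ * c (act e x)) (rep x) = rep x := by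
    rw [hm, h2, ← hm, inv_mul_cancel, h1]
  have h4 := hfree _ _ hrS h3
  exact (inv_mul_eq_one.mp h4).symm

/-- Grouping an independent family along the fibres of a map gives an independent family. -/
theorem indep_fibers {K W ι κ : Type*} [Field K] [AddCommGroup W] [Module K W]
    (t : ι → Submodule K W) (ht : iSupIndep t) (c : ι → κ) :
    iSupIndep (fun k => ⨆ i, ⨆ (_ : c i = k), t i) := by
  rw [iSupIndep_def]
  intro k
  have h := ht.disjoint_biSup_biSup (s := {i | c i = k}) (t := {i | c i ≠ k}) (by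
    rw [Set.disjoint_left]; intro i hi hi'; exact hi' hi)
  refine h.mono le_rfl ?_
  refine iSup₂_le fun j hj => iSup₂_le fun i hi => ?_
  exact le_iSup₂_of_le i (show c i ≠ k from fun h' => hj (hi.symm.trans h')) le_rfl

/-- Weight space decomposition for a commuting family of semisimple operators normalised freely
by a group `E`: the space is the direct sum of the `E`-translates of a subspace. -/
theorem lemZ {K W E Y : Type*} [Field K] [IsAlgClosed K] [AddCommGroup W] [Module K W]
    [FiniteDimensional K W] [Group E] [DecidableEq E]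
    (f : Y → Module.End K W) (g : E →* Module.End K W) (α : E → Y → Y)
    (hcomm : ∀ y y', f y * f y' = f y' * f y)
    (m : ℕ) (hm : (m : K) ≠ 0) (hpow : ∀ y, f y ^ m = 1)
    (hα1 : ∀ y, α 1 y = y) (hαm : ∀ e e' y, α (e * e') y = α e (α e' y))
    (hrel : ∀ e y, g e * f y = f (α e y) * g e)
    (hfree : ∀ e, e ≠ 1 → ∀ y, ∃ y', f (α e y') = f y * f y')
    (hfix : ∀ w, (∀ y, f y w = w) → w = 0) :
    ∃ A1 : Submodule K W, DirectSum.IsInternal (fun e : E => A1.map (g e)) := by
  have hss : ∀ y, (f y).IsFinitelySemisimple := fun y => by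
    apply Module.End.IsSemisimple.isFinitelySemisimple
    apply Module.End.isSemisimple_of_squarefree_aeval_eq_zero (p := Polynomial.X ^ m - 1)
    · exact (Polynomial.X_pow_sub_one_separable_iff.mpr hm).squarefree
    · simp [hpow y]
  have heig : ∀ y (μ : K), (f y).maxGenEigenspace μ = (f y).eigenspace μ := fun y μ =>
    (hss y).maxGenEigenspace_eq_eigenspace μ
  let Wχ : (Y → K) → Submodule K W := fun χ => ⨅ y, (f y).maxGenEigenspace (χ y)
  have hmem : ∀ χ w, w ∈ Wχ χ ↔ ∀ y, f y w = χ y • w := by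
    intro χ w
    simp only [Wχ, Submodule.mem_iInf, heig, Module.End.mem_eigenspace_iff]
  have hind : iSupIndep Wχ := Module.End.independent_iInf_maxGenEigenspace_of_forall_mapsTo f
    (fun i j φ => Module.End.mapsTo_maxGenEigenspace_of_comm
      (show Commute (f j) (f i) from hcomm j i) φ)
  have htop : ⨆ χ, Wχ χ = ⊤ :=
    Module.End.iSup_iInf_maxGenEigenspace_eq_top_of_iSup_maxGenEigenspace_eq_top_of_commute f
      (fun i j _ => (show Commute (f i) (f j) from hcomm i j))
      (fun i => Module.End.iSup_maxGenEigenspace_eq_top (f i))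
  let act : E → (Y → K) → (Y → K) := fun e χ y => χ (α e⁻¹ y)
  have hact1 : ∀ χ, act 1 χ = χ := fun χ => by funext y; simp only [act, inv_one, hα1]
  have hactm : ∀ e e' χ, act (e * e') χ = act e (act e' χ) := fun e e' χ => by
    funext y; simp only [act, mul_inv_rev, hαm]
  have hgmul : ∀ e e' (x : W), g e (g e' x) = g (e * e') x := fun e e' x => by
    rw [map_mul]; rfl
  have hg1 : ∀ x : W, g 1 x = x := fun x => by rw [map_one]; rfl
  have hαinv : ∀ e y, α e (α e⁻¹ y) = y := fun e y => by rw [← hαm, mul_inv_cancel, hα1]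
  have hgmem : ∀ e χ w, w ∈ Wχ χ → g e w ∈ Wχ (act e χ) := by
    intro e χ w hw
    rw [hmem] at hw ⊢
    intro y
    have h1 : (g e * f (α e⁻¹ y)) w = (f (α e (α e⁻¹ y)) * g e) w := by rw [hrel]
    rw [hαinv] at h1
    simp only [Module.End.mul_apply] at h1
    rw [← h1, hw, map_smul]
  have hmap : ∀ e χ, (Wχ χ).map (g e) = Wχ (act e χ) := by
    intro e χ
    apply le_antisymm
    · rintro _ ⟨w, hw, rfl⟩
      exact hgmem e χ w hw
    · intro v hv
      refine ⟨g e⁻¹ v, ?_, ?_⟩
      · have := hgmem e⁻¹ _ v hv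
        rwa [← hactm, inv_mul_cancel, hact1] at this
      · rw [hgmul, mul_inv_cancel, hg1]
  let S : Set (Y → K) := {χ | Wχ χ ≠ ⊥}
  have hginj : ∀ e, Function.Injective (g e) := fun e x y hxy => by
    have := congrArg (g e⁻¹) hxy
    rwa [hgmul, hgmul, inv_mul_cancel, hg1, hg1] at this
  have hS : ∀ e χ, χ ∈ S → act e χ ∈ S := by
    intro e χ hχ
    obtain ⟨w, hw, hw0⟩ := (Submodule.ne_bot_iff _).mp hχ
    exact (Submodule.ne_bot_iff _).mpr ⟨g e w, hgmem e χ w hw,
      fun h => hw0 (hginj e (by rw [h, map_zero]))⟩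
  have hfreeS : ∀ e χ, χ ∈ S → act e χ = χ → e = 1 := by
    intro e χ hχ hfixχ
    by_contra he
    obtain ⟨w, hw, hw0⟩ := (Submodule.ne_bot_iff _).mp hχ
    rw [hmem] at hw
    apply hw0
    apply hfix
    intro y
    obtain ⟨y', hy'⟩ := hfree e he y
    have h1 : f (α e y') w = χ (α e y') • w := hw _
    have h2 : (f y * f y') w = (χ y * χ y') • w := by
      rw [Module.End.mul_apply, hw y', map_smul, hw y, smul_smul, mul_comm]
    rw [hy', h2] at h1
    have h3 : χ (α e y') = χ y' := by
      have := congrFun hfixχ (α e y')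
      simp only [act] at this
      rw [← hαm, inv_mul_cancel, hα1] at this
      exact this.symm
    rw [h3] at h1
    have h4 : χ y * χ y' = χ y' := by
      by_contra hne
      have : (χ y * χ y' - χ y') • w = 0 := by rw [sub_smul, h1, sub_self]
      rcases smul_eq_zero.mp this with h | h
      · exact hne (sub_eq_zero.mp h)
      · exact hw0 h
    have h5 : χ y' ≠ 0 := by
      intro h0
      have hm0 : m ≠ 0 := fun h => hm (by rw [h]; simp)
      obtain ⟨k, hk⟩ := Nat.exists_eq_succ_of_ne_zero hm0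
      have h6 : (f y' ^ m) w = w := by rw [hpow]; rfl
      rw [hk, pow_succ, Module.End.mul_apply, hw y', h0, zero_smul, map_zero] at h6
      exact hw0 h6.symm
    have h7 : χ y = 1 := by
      have : (χ y - 1) * χ y' = 0 := by rw [sub_mul, one_mul, h4, sub_self]
      rcases mul_eq_zero.mp this with h | h
      · exact sub_eq_zero.mp h
      · exact absurd h h5
    rw [hw y, h7, one_smul]
  obtain ⟨c, hc⟩ := exists_color act hact1 hactm S hS hfreeS
  let A : E → Submodule K W := fun e => ⨆ χ, ⨆ (_ : c χ = e), Wχ χ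
  have hAind : iSupIndep A := indep_fibers Wχ hind c
  have hAtop : ⨆ e, A e = ⊤ := by
    rw [eq_top_iff, ← htop]
    refine iSup_le fun χ => ?_
    exact le_iSup_of_le (c χ) (le_iSup₂_of_le χ rfl le_rfl)
  have hAmap : ∀ e, A e = (A 1).map (g e) := by
    intro e
    have hR : (A 1).map (g e) = ⨆ χ, ⨆ (_ : c χ = 1), Wχ (act e χ) := by
      show (⨆ χ, ⨆ (_ : c χ = 1), Wχ χ).map (g e) = _
      simp only [Submodule.map_iSup, hmap]
    rw [hR]
    show (⨆ χ, ⨆ (_ : c χ = e), Wχ χ) = _
    apply le_antisymm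
    · refine iSup₂_le fun χ' hχ' => ?_
      by_cases hS' : χ' ∈ S
      · have h1 : c (act e⁻¹ χ') = 1 := by rw [hc χ' hS', hχ', inv_mul_cancel]
        have h2 : act e (act e⁻¹ χ') = χ' := by rw [← hactm, mul_inv_cancel, hact1]
        exact le_iSup₂_of_le (act e⁻¹ χ') h1 (le_of_eq (by rw [h2]))
      · have : Wχ χ' = ⊥ := by
          by_contra h; exact hS' h
        rw [this]; exact bot_le
    · refine iSup₂_le fun χ hχ => ?_
      by_cases hS' : χ ∈ S
      · have h1 : c (act e χ) = e := by rw [hc χ hS', hχ, mul_one]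
        exact le_iSup₂_of_le (act e χ) h1 le_rfl
      · have : Wχ χ = ⊥ := by
          by_contra h; exact hS' h
        rw [← hmap, this, Submodule.map_bot]; exact bot_le
  refine ⟨A 1, ?_⟩
  have hfam : (fun e : E => (A 1).map (g e)) = A := funext fun e => (hAmap e).symm
  rw [hfam]
  exact DirectSum.isInternal_submodule_of_iSupIndep_of_iSup_eq_top hAind hAtop

end Cfsg.Agent.Lib.Helper10.FrobFree
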