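import Mathlib
import Cfsg.Agent.Lib.Helper10.FrobFree1
import Cfsg.Agent.Lib.Helper10.FrobFree2

set_option autoImplicit false

namespace Cfsg.Agent.Lib.Helper10.FrobFree

open Module

section basic

variable {K V F : Type*} [Field K] [AddCommGroup V] [Module K V] [Group F]

/-- The fixed space of a set of group elements. -/
def fixS (ρ : F →* Module.End K V) (B : Set F) : Submodule K V where
  carrier := {v | ∀ b ∈ B, ρ b v = v}
  add_mem' := fun {x y} hx hy b hb => by rw [map_add, hx b hb, hy b hb]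
  zero_mem' := fun b _ => map_zero _
  smul_mem' := fun c x hx b hb => by rw [map_smul, hx b hb]

theorem mem_fixS (ρ : F →* Module.End K V) (B : Set F) (v : V) :
    v ∈ fixS ρ B ↔ ∀ b ∈ B, ρ b v = v := Iff.rfl

theorem rho_mul (ρ : F →* Module.End K V) (x y : F) (v : V) : ρ x (ρ y v) = ρ (x * y) v := by
  rw [map_mul]; rfl

theorem rho_one (ρ : F →* Module.End K V) (v : V) : ρ 1 v = v := by
  rw [map_one]; rfl

/-- The averaging operator of a subgroup. -/
noncomputable def avg [Finite F] (ρ : F →* Module.End K V) (B : Subgroup F) : Module.End K V :=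
  letI := Fintype.ofFinite B
  (Nat.card B : K)⁻¹ • ∑ b : B, ρ b

theorem avg_apply [Finite F] (ρ : F →* Module.End K V) (B : Subgroup F) (v : V) :
    avg ρ B v = (Nat.card B : K)⁻¹ • ∑ b ∈ @Finset.univ B (Fintype.ofFinite B), ρ b v := by
  unfold avg
  simp only [LinearMap.smul_apply, LinearMap.sum_apply]

theorem avg_of_mem [Finite F] (ρ : F →* Module.End K V) (B : Subgroup F)
    (hB : (Nat.card B : K) ≠ 0) (v : V) (hv : v ∈ fixS ρ (B : Set F)) : avg ρ B v = v := by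
  letI := Fintype.ofFinite B
  rw [avg_apply, Finset.sum_congr rfl (fun (b : ↥B) _ => hv b b.2), Finset.sum_const, Finset.card_univ,
    ← Nat.card_eq_fintype_card, ← Nat.cast_smul_eq_nsmul K, smul_smul, inv_mul_cancel₀ hB,
    one_smul]

theorem avg_mem [Finite F] (ρ : F →* Module.End K V) (B : Subgroup F) (v : V) :
    avg ρ B v ∈ fixS ρ (B : Set F) := by
  letI := Fintype.ofFinite B
  intro b0 hb0
  rw [avg_apply, map_smul, map_sum]
  congr 1
  exact Fintype.sum_equiv (Equiv.mulLeft (⟨b0, hb0⟩ : B)) (fun b => ρ b0 (ρ b v))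
    (fun b => ρ b v) (fun b => rho_mul ρ b0 b v)

theorem avg_comm [Finite F] (ρ : F →* Module.End K V) (B : Subgroup F) [B.Normal] (x : F)
    (v : V) : ρ x (avg ρ B v) = avg ρ B (ρ x v) := by
  letI := Fintype.ofFinite B
  rw [avg_apply, avg_apply, map_smul, map_sum]
  congr 1
  refine Fintype.sum_equiv (MulAut.conjNormal x : B ≃* B).toEquiv (fun b => ρ x (ρ b v))
    (fun b => ρ b (ρ x v)) (fun b => ?_)
  show ρ x (ρ b v) = ρ (x * b * x⁻¹) (ρ x v)
  rw [rho_mul, rho_mul, inv_mul_cancel_right]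

theorem split_finrank [FiniteDimensional K V] (P : Module.End K V) (hP : ∀ v, P (P v) = P v)
    (N : Submodule K V) (hN : ∀ v ∈ N, P v ∈ N) :
    Module.finrank K N = Module.finrank K ↥(N ⊓ LinearMap.range P) +
      Module.finrank K ↥(N ⊓ LinearMap.ker P) := by
  have h := Submodule.finrank_sup_add_finrank_inf_eq (N ⊓ LinearMap.range P) (N ⊓ LinearMap.ker P)
  have h1 : (N ⊓ LinearMap.range P) ⊓ (N ⊓ LinearMap.ker P) = ⊥ := by
    rw [eq_bot_iff]
    intro v hv
    obtain ⟨hv1, hv2⟩ := Submodule.mem_inf.mp hv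
    obtain ⟨w, rfl⟩ := (Submodule.mem_inf.mp hv1).2
    have hk := (Submodule.mem_inf.mp hv2).2
    rw [LinearMap.mem_ker, hP] at hk
    rw [Submodule.mem_bot]; exact hk
  have h2 : (N ⊓ LinearMap.range P) ⊔ (N ⊓ LinearMap.ker P) = N := by
    apply le_antisymm
    · exact sup_le inf_le_left inf_le_left
    · intro v hv
      have : v = P v + (v - P v) := by abel
      rw [this]
      refine Submodule.add_mem_sup (Submodule.mem_inf.mpr ⟨hN v hv, ⟨v, rfl⟩⟩)
        (Submodule.mem_inf.mpr ⟨N.sub_mem hv (hN v hv), ?_⟩)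
      rw [LinearMap.mem_ker, map_sub, hP, sub_self]
  rw [h1, h2, finrank_bot, add_zero] at h
  exact h

theorem grp_aux {G : Type*} [Group G] (e a b : G)
    (h : e * a * e⁻¹ * a⁻¹ = e * b * e⁻¹ * b⁻¹) : e * (b⁻¹ * a) = (b⁻¹ * a) * e := by
  have h1 : a * e⁻¹ * a⁻¹ = b * e⁻¹ * b⁻¹ :=
    mul_left_cancel (a := e) (by simpa only [mul_assoc] using h)
  calc e * (b⁻¹ * a) = e * (b⁻¹ * (a * e⁻¹ * a⁻¹) * a * e) := by group
    _ = e * (b⁻¹ * (b * e⁻¹ * b⁻¹) * a * e) := by rw [h1]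
    _ = b⁻¹ * a * e := by group

end basic

section main

variable {K V F : Type*} [Field K] [IsAlgClosed K] [AddCommGroup V] [Module K V]
  [FiniteDimensional K V] [Group F] [Finite F]

/-- The key claim on an invariant subspace on which `B'` acts through commuting operators
without fixed points. -/
theorem kc_sub (ρ : F →* Module.End K V) (U E : Subgroup F)
    (hfpf : ∀ e ∈ E, e ≠ 1 → ∀ u ∈ U, e * u = u * e → u = 1)
    (B' : Subgroup F) [hB'n : B'.Normal] (hB'U : B' ≤ U) (hchar : (Nat.card B' : K) ≠ 0)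
    (W : Submodule K V) (hWinv : ∀ x v, v ∈ W → ρ x v ∈ W)
    (hWcomm : ∀ x ∈ B', ∀ y ∈ B', ∀ v ∈ W, ρ x (ρ y v) = ρ y (ρ x v))
    (hWfix : ∀ v ∈ W, (∀ b ∈ B', ρ b v = v) → v = 0) :
    Module.finrank K ↥W = Nat.card E * Module.finrank K ↥(W ⊓ fixS ρ (E : Set F)) := by
  classical
  let rW : F →* Module.End K ↥W :=
    { toFun := fun x => (ρ x).restrict (hWinv x)
      map_one' := by
        ext v
        show ρ 1 (v : V) = v
        exact rho_one ρ _
      map_mul' := fun x y => by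
        ext v
        show ρ (x * y) (v : V) = ρ x (ρ y (v : V))
        exact (rho_mul ρ x y _).symm }
  have hrW : ∀ x (w : ↥W), ((rW x w : ↥W) : V) = ρ x (w : V) := fun x w => rfl
  let f : ↥B' → Module.End K ↥W := fun y => rW (y : F)
  let g : ↥E →* Module.End K ↥W := rW.comp E.subtype
  let α : ↥E → ↥B' → ↥B' := fun e y =>
    ⟨(e : F) * y * (e : F)⁻¹, hB'n.conj_mem y y.2 e⟩
  have hα1 : ∀ y, α 1 y = y := fun y => Subtype.ext (by simp [α])
  have hαm : ∀ e e' y, α (e * e') y = α e (α e' y) := fun e e' y =>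
    Subtype.ext (by simp [α, mul_assoc])
  have hfcomm : ∀ y y', f y * f y' = f y' * f y := by
    intro y y'
    ext w
    show ρ y (ρ y' (w : V)) = ρ y' (ρ y (w : V))
    exact hWcomm y y.2 y' y'.2 w w.2
  have hpow : ∀ y, f y ^ Nat.card B' = 1 := by
    intro y
    show rW (y : F) ^ Nat.card B' = 1
    rw [← map_pow, ← Subgroup.coe_pow, pow_card_eq_one', Subgroup.coe_one, map_one]
  have hrel : ∀ e y, g e * f y = f (α e y) * g e := by
    intro e y
    show rW (e : F) * rW (y : F) = rW ((e : F) * y * (e : F)⁻¹) * rW (e : F)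
    rw [← map_mul, ← map_mul, inv_mul_cancel_right]
  have hfree : ∀ e, e ≠ 1 → ∀ y, ∃ y', f (α e y') = f y * f y' := by
    intro e he y
    have he1 : (e : F) ≠ 1 := fun h => he (Subtype.ext h)
    let φ : ↥B' → ↥B' := fun y' =>
      ⟨(e : F) * y' * (e : F)⁻¹ * (y' : F)⁻¹,
        B'.mul_mem (hB'n.conj_mem y' y'.2 e) (B'.inv_mem y'.2)⟩
    have hφinj : Function.Injective φ := by
      intro y1 y2 h
      have h' : (e : F) * y1 * (e : F)⁻¹ * (y1 : F)⁻¹ = (e : F) * y2 * (e : F)⁻¹ * (y2 : F)⁻¹ :=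
        congrArg Subtype.val h
      have hu : (y2 : F)⁻¹ * y1 ∈ U := hB'U (B'.mul_mem (B'.inv_mem y2.2) y1.2)
      have hc := grp_aux (e : F) (y1 : F) (y2 : F) h'
      have := hfpf e e.2 he1 _ hu hc
      rw [inv_mul_eq_one] at this
      exact Subtype.ext this.symm
    obtain ⟨y', hy'⟩ := (Finite.injective_iff_surjective.mp hφinj) y
    refine ⟨y', ?_⟩
    have h' : (e : F) * y' * (e : F)⁻¹ * (y' : F)⁻¹ = y := congrArg Subtype.val hy'
    show rW ((e : F) * y' * (e : F)⁻¹) = rW (y : F) * rW (y' : F)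
    rw [← map_mul, ← h', inv_mul_cancel_right]
  have hfix : ∀ w : ↥W, (∀ y, f y w = w) → w = 0 := by
    intro w hw
    apply Subtype.ext
    apply hWfix (w : V) w.2
    intro b hb
    exact congrArg Subtype.val (hw ⟨b, hb⟩)
  obtain ⟨A1, hA1⟩ := lemZ f g α hfcomm (Nat.card B') hchar hpow hα1 hαm hrel hfree hfix
  letI : Fintype ↥E := Fintype.ofFinite _
  obtain ⟨h1, h2⟩ := free_count g A1 hA1
  have hX : (⨅ e : ↥E, LinearMap.ker (g e - 1)).map W.subtype = W ⊓ fixS ρ (E : Set F) := by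
    ext v
    constructor
    · rintro ⟨w, hw, rfl⟩
      have hw' := (Submodule.mem_iInf _).mp hw
      refine Submodule.mem_inf.mpr ⟨w.2, fun e he => ?_⟩
      have := hw' ⟨e, he⟩
      rw [LinearMap.mem_ker, LinearMap.sub_apply, sub_eq_zero] at this
      exact congrArg Subtype.val this
    · intro hv
      obtain ⟨hvW, hvE⟩ := Submodule.mem_inf.mp hv
      refine ⟨⟨v, hvW⟩, ?_, rfl⟩
      refine (Submodule.mem_iInf _).mpr fun e => ?_
      rw [LinearMap.mem_ker, LinearMap.sub_apply, sub_eq_zero]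
      apply Subtype.ext
      exact hvE e e.2
  rw [h1, ← h2, Nat.card_eq_fintype_card, ← hX, Submodule.finrank_map_subtype_eq]

/-- One step along a central series. -/
theorem step (ρ : F →* Module.End K V) (U E : Subgroup F)
    (hfpf : ∀ e ∈ E, e ≠ 1 → ∀ u ∈ U, e * u = u * e → u = 1)
    (B B' : Subgroup F) [hBn : B.Normal] [hB'n : B'.Normal] (hBB' : B ≤ B') (hB'U : B' ≤ U)
    (hcomm : ∀ x ∈ B', ∀ y ∈ B', x * y * x⁻¹ * y⁻¹ ∈ B)
    (hchar : (Nat.card B' : K) ≠ 0) :
    Module.finrank K ↥(fixS ρ (B : Set F)) +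
        Nat.card E * Module.finrank K ↥(fixS ρ (B' : Set F) ⊓ fixS ρ (E : Set F))
      = Module.finrank K ↥(fixS ρ (B' : Set F)) +
        Nat.card E * Module.finrank K ↥(fixS ρ (B : Set F) ⊓ fixS ρ (E : Set F)) := by
  classical
  obtain ⟨P, hPfix, hPmem, hPcomm⟩ : ∃ P : Module.End K V,
      (∀ v ∈ fixS ρ (B' : Set F), P v = v) ∧ (∀ v, P v ∈ fixS ρ (B' : Set F)) ∧
      (∀ x v, ρ x (P v) = P (ρ x v)) :=
    ⟨avg ρ B', avg_of_mem ρ B' hchar, avg_mem ρ B', avg_comm ρ B'⟩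
  have hPP : ∀ v, P (P v) = P v := fun v => hPfix _ (hPmem v)
  have hrange : LinearMap.range P = fixS ρ (B' : Set F) := by
    ext v; constructor
    · rintro ⟨w, rfl⟩; exact hPmem w
    · intro hv; exact ⟨v, hPfix v hv⟩
  have hle : fixS ρ (B' : Set F) ≤ fixS ρ (B : Set F) := fun v hv b hb => hv b (hBB' hb)
  have hinvB : ∀ x v, v ∈ fixS ρ (B : Set F) → ρ x v ∈ fixS ρ (B : Set F) := by
    intro x v hv b hb
    have h1 : x⁻¹ * b * x ∈ B := by
      have := hBn.conj_mem b hb x⁻¹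
      rwa [inv_inv] at this
    rw [rho_mul, show b * x = x * (x⁻¹ * b * x) by group, ← rho_mul, hv _ h1]
  have hPB : ∀ v ∈ fixS ρ (B : Set F), P v ∈ fixS ρ (B : Set F) := fun v _ => hle (hPmem v)
  have s1 := split_finrank P hPP (fixS ρ (B : Set F)) hPB
  have hNr : fixS ρ (B : Set F) ⊓ LinearMap.range P = fixS ρ (B' : Set F) := by
    rw [hrange]; exact inf_eq_right.mpr hle
  rw [hNr] at s1
  have hPNE : ∀ v ∈ fixS ρ (B : Set F) ⊓ fixS ρ (E : Set F),
      P v ∈ fixS ρ (B : Set F) ⊓ fixS ρ (E : Set F) := by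
    intro v hv
    obtain ⟨hv1, hv2⟩ := Submodule.mem_inf.mp hv
    refine Submodule.mem_inf.mpr ⟨hPB v hv1, fun e he => ?_⟩
    rw [hPcomm e v, hv2 e he]
  have s2 := split_finrank P hPP (fixS ρ (B : Set F) ⊓ fixS ρ (E : Set F)) hPNE
  have hNEr : (fixS ρ (B : Set F) ⊓ fixS ρ (E : Set F)) ⊓ LinearMap.range P =
      fixS ρ (B' : Set F) ⊓ fixS ρ (E : Set F) := by
    rw [hrange, inf_right_comm, inf_eq_right.mpr hle]
  have hNEk : (fixS ρ (B : Set F) ⊓ fixS ρ (E : Set F)) ⊓ LinearMap.ker P =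
      (fixS ρ (B : Set F) ⊓ LinearMap.ker P) ⊓ fixS ρ (E : Set F) := inf_right_comm _ _ _
  rw [hNEr, hNEk] at s2
  have key : Module.finrank K ↥(fixS ρ (B : Set F) ⊓ LinearMap.ker P) =
      Nat.card E * Module.finrank K
        ↥((fixS ρ (B : Set F) ⊓ LinearMap.ker P) ⊓ fixS ρ (E : Set F)) := by
    refine kc_sub ρ U E hfpf B' hB'U hchar _ ?_ ?_ ?_
    · intro x v hv
      obtain ⟨hv1, hv2⟩ := Submodule.mem_inf.mp hv
      refine Submodule.mem_inf.mpr ⟨hinvB x v hv1, ?_⟩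
      rw [LinearMap.mem_ker] at hv2 ⊢
      rw [← hPcomm x v, hv2, map_zero]
    · intro x hx y hy v hv
      have hc : x⁻¹ * y⁻¹ * x * y ∈ B := by
        have := hcomm x⁻¹ (B'.inv_mem hx) y⁻¹ (B'.inv_mem hy)
        rwa [inv_inv, inv_inv] at this
      have hv' : ρ (x⁻¹ * y⁻¹ * x * y) v = v := (Submodule.mem_inf.mp hv).1 _ hc
      calc ρ x (ρ y v) = ρ (x * y) v := rho_mul ρ x y v
        _ = ρ (y * x * (x⁻¹ * y⁻¹ * x * y)) v := by
            rw [show y * x * (x⁻¹ * y⁻¹ * x * y) = x * y by group]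
        _ = ρ (y * x) (ρ (x⁻¹ * y⁻¹ * x * y) v) := (rho_mul ρ _ _ v).symm
        _ = ρ (y * x) v := by rw [hv']
        _ = ρ y (ρ x v) := (rho_mul ρ y x v).symm
    · intro v hv hfixv
      have h1 : P v = v := hPfix v hfixv
      have h2 : P v = 0 := LinearMap.mem_ker.mp (Submodule.mem_inf.mp hv).2
      rw [← h1, h2]
  rw [s1, s2, key]; ring

/-- The dimension formula over an algebraically closed field. -/
theorem thmFK (ρ : F →* Module.End K V) (U E : Subgroup F) [U.Normal]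
    (hfpf : ∀ e ∈ E, e ≠ 1 → ∀ u ∈ U, e * u = u * e → u = 1)
    (hnil : Group.IsNilpotent U) (hchar : (Nat.card U : K) ≠ 0) :
    Module.finrank K V + Nat.card E * Module.finrank K ↥(fixS ρ (U : Set F) ⊓ fixS ρ (E : Set F))
      = Module.finrank K ↥(fixS ρ (U : Set F)) +
        Nat.card E * Module.finrank K ↥(fixS ρ (E : Set F)) := by
  let Z : ℕ → Subgroup F := fun i => (Subgroup.upperCentralSeries ↥U i).map U.subtype
  have hZn : ∀ i, (Z i).Normal := fun i => ConjAct.normal_of_characteristic_of_normal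
  have hZle : ∀ i, Z i ≤ Z (i + 1) := fun i =>
    Subgroup.map_mono (Subgroup.upperCentralSeries_mono _ (Nat.le_succ i))
  have hZU : ∀ i, Z i ≤ U := fun i => by
    rintro _ ⟨u, _, rfl⟩; exact u.2
  have hZcomm : ∀ i, ∀ x ∈ Z (i + 1), ∀ y ∈ Z (i + 1), x * y * x⁻¹ * y⁻¹ ∈ Z i := by
    rintro i _ ⟨x, hx, rfl⟩ _ ⟨y, hy, rfl⟩
    rw [SetLike.mem_coe, Subgroup.mem_upperCentralSeries_succ_iff] at hx
    exact ⟨x * y * x⁻¹ * y⁻¹, hx y, rfl⟩
  have hZchar : ∀ i, (Nat.card (Z i) : K) ≠ 0 := by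
    intro i h
    obtain ⟨k, hk⟩ := Subgroup.card_dvd_of_le (hZU i)
    apply hchar
    rw [hk, Nat.cast_mul, h, zero_mul]
  have hstep : ∀ i, Module.finrank K ↥(fixS ρ (Z i : Set F)) +
        Nat.card E * Module.finrank K ↥(fixS ρ (Z (i + 1) : Set F) ⊓ fixS ρ (E : Set F))
      = Module.finrank K ↥(fixS ρ (Z (i + 1) : Set F)) +
        Nat.card E * Module.finrank K ↥(fixS ρ (Z i : Set F) ⊓ fixS ρ (E : Set F)) := fun i =>
    haveI := hZn i
    haveI := hZn (i + 1)
    step ρ U E hfpf (Z i) (Z (i + 1)) (hZle i) (hZU _) (hZcomm i) (hZchar _)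
  have hind : ∀ i, Module.finrank K ↥(fixS ρ (Z 0 : Set F)) +
        Nat.card E * Module.finrank K ↥(fixS ρ (Z i : Set F) ⊓ fixS ρ (E : Set F))
      = Module.finrank K ↥(fixS ρ (Z i : Set F)) +
        Nat.card E * Module.finrank K ↥(fixS ρ (Z 0 : Set F) ⊓ fixS ρ (E : Set F)) := by
    intro i
    induction i with
    | zero => rfl
    | succ i ih =>
      have := hstep i
      linarith
  obtain ⟨n, hn⟩ := hnil.nilpotent'
  have h0 : fixS ρ (Z 0 : Set F) = ⊤ := by
    rw [eq_top_iff]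
    intro v _ b hb
    have hb1 : b = 1 := by
      obtain ⟨u, hu, rfl⟩ := hb
      rw [SetLike.mem_coe, Subgroup.upperCentralSeries_zero, Subgroup.mem_bot] at hu
      rw [hu]; rfl
    rw [hb1]; exact rho_one ρ v
  have hnU : (Z n : Set F) = U := by
    show ((Subgroup.upperCentralSeries ↥U n).map U.subtype : Set F) = U
    rw [hn]; ext x; constructor
    · rintro ⟨u, _, rfl⟩; exact u.2
    · intro hx; exact ⟨⟨x, hx⟩, trivial, rfl⟩
  have := hind n
  rw [h0, hnU, top_inf_eq, finrank_top] at this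
  exact this

end main

end Cfsg.Agent.Lib.Helper10.FrobFree
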