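import Mathlib
import Cfsg.Agent.Lib.Helper10.FrobFree3

set_option autoImplicit false

namespace Cfsg.Agent.Lib.Helper10.FrobFree

open Module TensorProduct

section bc

variable {k K V F : Type*} [Field k] [Field K] [Algebra k K] [AddCommGroup V] [Module k V]
  [Group F]

/-- Base change of a representation. -/
noncomputable def bcRep (K : Type*) [Field K] [Algebra k K] (ρ : F →* Module.End k V) :
    F →* Module.End K (K ⊗[k] V) :=
  ((Module.End.baseChangeHom k K V : Module.End k V →ₐ[k] Module.End K (K ⊗[k] V)) :
    Module.End k V →* Module.End K (K ⊗[k] V)).comp ρ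

theorem bcRep_apply (ρ : F →* Module.End k V) (x : F) :
    bcRep K ρ x = (ρ x).baseChange K := rfl

theorem finrank_range_baseChange [FiniteDimensional k V] (P : Module.End k V) :
    finrank K ↥(LinearMap.range (P.baseChange K)) = finrank k ↥(LinearMap.range P) := by
  have hP : P = (LinearMap.range P).subtype ∘ₗ P.rangeRestrict := rfl
  have hπ : Function.Surjective (P.rangeRestrict.baseChange K) := by
    rw [LinearMap.baseChange_eq_ltensor]
    exact LinearMap.lTensor_surjective K P.surjective_rangeRestrict
  have hι : Function.Injective ((LinearMap.range P).subtype.baseChange K) := by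
    rw [LinearMap.baseChange_eq_ltensor]
    exact Module.Flat.lTensor_preserves_injective_linearMap _ (Submodule.injective_subtype _)
  have hrange : LinearMap.range (P.baseChange K) =
      LinearMap.range ((LinearMap.range P).subtype.baseChange K) := by
    conv_lhs => rw [hP]
    rw [LinearMap.baseChange_comp,
      LinearMap.range_comp_of_range_eq_top _ (LinearMap.range_eq_top.mpr hπ)]
  rw [hrange, ← (LinearEquiv.ofInjective ((LinearMap.range P).subtype.baseChange K) hι).finrank_eq,
    Module.finrank_baseChange]

theorem finrank_fix_bc [FiniteDimensional k V] [Finite F] (ρ : F →* Module.End k V)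
    (B : Subgroup F) (hB : (Nat.card B : k) ≠ 0) :
    finrank K ↥(fixS (bcRep K ρ) (B : Set F)) = finrank k ↥(fixS ρ (B : Set F)) := by
  have hr : LinearMap.range (avg ρ B) = fixS ρ (B : Set F) := by
    ext v; constructor
    · rintro ⟨w, rfl⟩; exact avg_mem ρ B w
    · intro hv; exact ⟨v, avg_of_mem ρ B hB v hv⟩
  have hrK : LinearMap.range ((avg ρ B).baseChange K) = fixS (bcRep K ρ) (B : Set F) := by
    ext w; constructor
    · rintro ⟨z, rfl⟩
      intro b hb
      show (ρ b).baseChange K ((avg ρ B).baseChange K z) = (avg ρ B).baseChange K z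
      rw [← LinearMap.comp_apply, ← LinearMap.baseChange_comp]
      have : ρ b ∘ₗ avg ρ B = avg ρ B := LinearMap.ext fun v => avg_mem ρ B v b hb
      rw [this]
    · intro hw
      refine ⟨w, ?_⟩
      letI := Fintype.ofFinite B
      have h1 : (avg ρ B).baseChange K = (Nat.card B : k)⁻¹ • ∑ b : B, (ρ b).baseChange K := by
        unfold avg
        rw [LinearMap.baseChange_smul]
        congr 1
        exact map_sum (LinearMap.baseChangeHom k K V V) _ _
      have hw' : ∀ b : ↥B, ((ρ (b : F)).baseChange K) w = w := fun b => hw b b.2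
      rw [h1, LinearMap.smul_apply, LinearMap.sum_apply, Finset.sum_congr rfl (fun b _ => hw' b),
        Finset.sum_const, Finset.card_univ, ← Nat.card_eq_fintype_card,
        ← Nat.cast_smul_eq_nsmul k, smul_smul, inv_mul_cancel₀ hB, one_smul]
  rw [← hrK, ← hr, finrank_range_baseChange]

theorem fix_sup (ρ : F →* Module.End k V) (U E : Subgroup F) :
    fixS ρ (U : Set F) ⊓ fixS ρ (E : Set F) = fixS ρ ((U ⊔ E : Subgroup F) : Set F) := by
  apply le_antisymm
  · intro v hv
    obtain ⟨hU, hE⟩ := Submodule.mem_inf.mp hv
    let S : Subgroup F :=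
      { carrier := {x | ρ x v = v}
        mul_mem' := fun {x y} hx hy => by
          have hx' : ρ x v = v := hx
          have hy' : ρ y v = v := hy
          show ρ (x * y) v = v
          rw [← rho_mul, hy', hx']
        one_mem' := rho_one ρ v
        inv_mem' := fun {x} hx => by
          have hx' : ρ x v = v := hx
          show ρ x⁻¹ v = v
          have : ρ x⁻¹ (ρ x v) = v := by rw [rho_mul, inv_mul_cancel, rho_one]
          rwa [hx'] at this }
    have hS : U ⊔ E ≤ S := sup_le (fun u hu => hU u hu) (fun e he => hE e he)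
    exact fun b hb => hS hb
  · intro v hv
    exact Submodule.mem_inf.mpr ⟨fun b hb => hv b (Subgroup.mem_sup_left hb),
      fun b hb => hv b (Subgroup.mem_sup_right hb)⟩

/-- The dimension formula over a field `k` admitting an algebraically closed extension `K`. -/
theorem formula_of_bc (K : Type*) [Field K] [Algebra k K] [IsAlgClosed K]
    [FiniteDimensional k V] [Finite F]
    (ρ : F →* Module.End k V) (U E : Subgroup F) [U.Normal] (hUE : U ⊔ E = ⊤)
    (hfpf : ∀ e ∈ E, e ≠ 1 → ∀ u ∈ U, e * u = u * e → u = 1)
    (hnil : Group.IsNilpotent U) (hchar : (Nat.card F : k) ≠ 0) :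
    finrank k V + Nat.card E * finrank k ↥(fixS ρ (Set.univ : Set F))
      = finrank k ↥(fixS ρ (U : Set F)) + Nat.card E * finrank k ↥(fixS ρ (E : Set F)) := by
  have hB : ∀ B : Subgroup F, (Nat.card B : k) ≠ 0 := by
    intro B h
    obtain ⟨m, hm⟩ := Subgroup.card_subgroup_dvd_card B
    apply hchar
    rw [hm, Nat.cast_mul, h, zero_mul]
  have hUK : (Nat.card U : K) ≠ 0 := by
    intro h
    apply hB U
    apply (algebraMap k K).injective
    rw [map_natCast, map_zero]; exact h
  have main := thmFK (bcRep K ρ) U E hfpf hnil hUK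
  rw [fix_sup, hUE, finrank_fix_bc ρ ⊤ (hB ⊤), finrank_fix_bc ρ U (hB U),
    finrank_fix_bc ρ E (hB E), Module.finrank_baseChange, Subgroup.coe_top] at main
  exact main

end bc

end Cfsg.Agent.Lib.Helper10.FrobFree
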