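import Mathlib
import Cfsg.Agent.Lib.Helper10.FrobFree4

set_option autoImplicit false

namespace Cfsg.Agent.Lib.Helper10.FrobFree

open Module TensorProduct

/-- The fixed subgroup of a set of group elements acting by automorphisms. -/
def fixG {A F : Type*} [Group A] [Group F] (φ : F →* MulAut A) (B : Set F) : Subgroup A where
  carrier := {a | ∀ b ∈ B, φ b a = a}
  mul_mem' := fun {x y} hx hy b hb => by rw [map_mul, hx b hb, hy b hb]
  one_mem' := fun b _ => map_one _
  inv_mem' := fun {x} hx b hb => by rw [map_inv, hx b hb]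

theorem mem_fixG {A F : Type*} [Group A] [Group F] (φ : F →* MulAut A) (B : Set F) (a : A) :
    a ∈ fixG φ B ↔ ∀ b ∈ B, φ b a = a := Iff.rfl

/-- The linear representation over `ZMod r` attached to an action on an abelian group. -/
noncomputable def addRep (r : ℕ) {A F : Type*} [CommGroup A] [Group F]
    [Module (ZMod r) (Additive A)] (φ : F →* MulAut A) :
    F →* Module.End (ZMod r) (Additive A) where
  toFun := fun x => AddMonoidHom.toZModLinearMap r (MonoidHom.toAdditive (φ x).toMonoidHom)
  map_one' := LinearMap.ext fun a => by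
    rw [map_one]
    rfl
  map_mul' := fun x y => LinearMap.ext fun a => by
    rw [map_mul]
    rfl

theorem addRep_apply (r : ℕ) {A F : Type*} [CommGroup A] [Group F]
    [Module (ZMod r) (Additive A)] (φ : F →* MulAut A) (x : F) (a : Additive A) :
    addRep r φ x a = Additive.ofMul (φ x a.toMul) := rfl

/-- The counting formula for a finite module over `ZMod r`. -/
theorem card_formula_lin (r : ℕ) [hr : Fact r.Prime] {V F : Type*} [AddCommGroup V]
    [Module (ZMod r) V] [Finite V] [Group F] [Finite F]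
    (ρ : F →* Module.End (ZMod r) V) (U E : Subgroup F) [U.Normal] (hUE : U ⊔ E = ⊤)
    (hfpf : ∀ e ∈ E, e ≠ 1 → ∀ u ∈ U, e * u = u * e → u = 1)
    (hnil : Group.IsNilpotent U) (hcop : ¬ r ∣ Nat.card F) :
    Nat.card ↥(fixS ρ (Set.univ : Set F)) ^ Nat.card E * Nat.card V
      = Nat.card ↥(fixS ρ (E : Set F)) ^ Nat.card E * Nat.card ↥(fixS ρ (U : Set F)) := by
  haveI : Module.Finite (ZMod r) V := Module.Finite.of_finite
  have hcardfix : ∀ B : Set F,
      Nat.card ↥(fixS ρ B) = r ^ Module.finrank (ZMod r) ↥(fixS ρ B) := by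
    intro B
    have h := Module.natCard_eq_pow_finrank (K := ZMod r) (V := ↥(fixS ρ B))
    rw [Nat.card_zmod] at h
    exact h
  have hA : Nat.card V = r ^ Module.finrank (ZMod r) V := by
    have h := Module.natCard_eq_pow_finrank (K := ZMod r) (V := V)
    rw [Nat.card_zmod] at h
    exact h
  have hchar : (Nat.card F : ZMod r) ≠ 0 := fun h0 =>
    hcop ((ZMod.natCast_eq_zero_iff _ r).mp h0)
  have main := formula_of_bc (AlgebraicClosure (ZMod r)) ρ U E hUE hfpf hnil hchar
  rw [hcardfix, hcardfix, hcardfix, hA, ← pow_mul, ← pow_mul, ← pow_add, ← pow_add]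
  congr 1
  linarith

theorem elemAb_aux {A F : Type*} [CommGroup A] [Finite A] [Group F] [Finite F]
    (r : ℕ) [hr : Fact r.Prime] [Module (ZMod r) (Additive A)]
    (φ : F →* MulAut A) (U E : Subgroup F) [U.Normal] (hUE : U ⊔ E = ⊤)
    (hfpf : ∀ e ∈ E, e ≠ 1 → ∀ u ∈ U, e * u = u * e → u = 1)
    (hnil : Group.IsNilpotent U) (hcop : ¬ r ∣ Nat.card F) :
    Nat.card (fixG φ (Set.univ : Set F)) ^ Nat.card E * Nat.card A
      = Nat.card (fixG φ (E : Set F)) ^ Nat.card E * Nat.card (fixG φ (U : Set F)) := by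
  have hcardfix : ∀ B : Set F,
      Nat.card ↥(fixG φ B) = Nat.card ↥(fixS (addRep r φ) B) := by
    intro B
    exact Nat.card_congr (Equiv.subtypeEquiv Additive.ofMul (fun a => Iff.rfl))
  have hA : Nat.card A = Nat.card (Additive A) := Nat.card_congr Additive.ofMul
  have main := card_formula_lin r (addRep r φ) U E hUE hfpf hnil hcop
  rw [hcardfix, hcardfix, hcardfix, hA]
  exact main

/-- The formula for an elementary abelian group. -/
theorem elemAb_formula {A F : Type*} [CommGroup A] [Finite A] [Group F] [Finite F]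
    (φ : F →* MulAut A) (U E : Subgroup F) [U.Normal] (hUE : U ⊔ E = ⊤)
    (hfpf : ∀ e ∈ E, e ≠ 1 → ∀ u ∈ U, e * u = u * e → u = 1)
    (hnil : Group.IsNilpotent U)
    (r : ℕ) [hr : Fact r.Prime] (hexp : ∀ a : A, a ^ r = 1) (hcop : ¬ r ∣ Nat.card F) :
    Nat.card (fixG φ (Set.univ : Set F)) ^ Nat.card E * Nat.card A
      = Nat.card (fixG φ (E : Set F)) ^ Nat.card E * Nat.card (fixG φ (U : Set F)) := by
  letI : Module (ZMod r) (Additive A) := AddCommGroup.zmodModule (fun x => by
    show r • x = 0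
    exact congrArg Additive.ofMul (hexp x.toMul))
  exact elemAb_aux r φ U E hUE hfpf hnil hcop

end Cfsg.Agent.Lib.Helper10.FrobFree
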