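import Mathlib
import Cfsg.Agent.Lib.Helper10.FrobFree3
import Cfsg.Agent.Lib.Helper10.FrobFree8

set_option autoImplicit false

namespace Cfsg.Agent.Lib.Helper10.FrobFree

open Module

section comm

variable {K V F : Type*} [Field K] [IsAlgClosed K] [AddCommGroup V] [Module K V]
  [FiniteDimensional K V] [Group F] [Finite F]

omit [IsAlgClosed K] in
/-- Proportionality in a subspace of dimension at most one. -/
theorem prop_of_finrank_le_one (S : Submodule K V) (hS : finrank K ↥S ≤ 1) (w x : V)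
    (hw : w ∈ S) (hx : x ∈ S) (hw0 : w ≠ 0) : ∃ a : K, x = a • w := by
  obtain ⟨v0, hv0⟩ := finrank_le_one_iff.mp hS
  obtain ⟨c, hc⟩ := hv0 ⟨w, hw⟩
  obtain ⟨d, hd⟩ := hv0 ⟨x, hx⟩
  have hc' : (w : V) = c • (v0 : V) := (congrArg Subtype.val hc).symm
  have hd' : (x : V) = d • (v0 : V) := (congrArg Subtype.val hd).symm
  have hc0 : c ≠ 0 := by
    rintro rfl
    apply hw0
    rw [hc', zero_smul]
  refine ⟨d * c⁻¹, ?_⟩
  rw [hc', hd', smul_smul, mul_assoc, inv_mul_cancel₀ hc0, mul_one]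

/-- A single central layer acting without fixed vectors on a space of dimension at most `|E|`
forces `U` to act through commuting operators. -/
theorem comm_layer (ρ : F →* Module.End K V) (U E : Subgroup F)
    (hfpf : ∀ e ∈ E, e ≠ 1 → ∀ u ∈ U, e * u = u * e → u = 1)
    (B' : Subgroup F) [hB'n : B'.Normal] (hB'U : B' ≤ U) (hchar : (Nat.card B' : K) ≠ 0)
    (hcomm : ∀ x ∈ B', ∀ u ∈ U, ∀ v : V, ρ x (ρ u v) = ρ u (ρ x v))
    (hfix : ∀ v : V, (∀ b ∈ B', ρ b v = v) → v = 0)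
    (hdim : finrank K V ≤ Nat.card E) :
    ∀ u ∈ U, ∀ u' ∈ U, ∀ v : V, ρ u (ρ u' v) = ρ u' (ρ u v) := by
  classical
  let f : ↥B' → Module.End K V := fun y => ρ (y : F)
  let g : ↥E →* Module.End K V := ρ.comp E.subtype
  let α : ↥E → ↥B' → ↥B' := fun e y =>
    ⟨(e : F) * y * (e : F)⁻¹, hB'n.conj_mem y y.2 e⟩
  have hα1 : ∀ y, α 1 y = y := fun y => Subtype.ext (by simp [α])
  have hαm : ∀ e e' y, α (e * e') y = α e (α e' y) := fun e e' y =>
    Subtype.ext (by simp [α, mul_assoc])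
  have hfcomm : ∀ y y', f y * f y' = f y' * f y := by
    intro y y'
    ext v
    exact hcomm y y.2 y' (hB'U y'.2) v
  have hpow : ∀ y, f y ^ Nat.card B' = 1 := by
    intro y
    show ρ (y : F) ^ Nat.card B' = 1
    rw [← map_pow, ← Subgroup.coe_pow, pow_card_eq_one', Subgroup.coe_one, map_one]
  have hrel : ∀ e y, g e * f y = f (α e y) * g e := by
    intro e y
    show ρ (e : F) * ρ (y : F) = ρ ((e : F) * y * (e : F)⁻¹) * ρ (e : F)
    rw [← map_mul, ← map_mul, inv_mul_cancel_right]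
  have hfree : ∀ e, e ≠ 1 → ∀ y, ∃ y', f (α e y') = f y * f y' := by
    intro e he y
    have he1 : (e : F) ≠ 1 := fun h => he (Subtype.ext h)
    let φ : ↥B' → ↥B' := fun y' =>
      ⟨(e : F) * y' * (e : F)⁻¹ * (y' : F)⁻¹,
        B'.mul_mem (hB'n.conj_mem y' y'.2 e) (B'.inv_mem y'.2)⟩
    have hφinj : Function.Injective φ := by
      intro y1 y2 h
      have h' : (e : F) * y1 * (e : F)⁻¹ * (y1 : F)⁻¹ = (e : F) * y2 * (e : F)⁻¹ * (y2 : F)⁻¹ :=
        congrArg Subtype.val h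
      have hu : (y2 : F)⁻¹ * y1 ∈ U := hB'U (B'.mul_mem (B'.inv_mem y2.2) y1.2)
      have hc := grp_aux (e : F) (y1 : F) (y2 : F) h'
      have := hfpf e e.2 he1 _ hu hc
      rw [inv_mul_eq_one] at this
      exact Subtype.ext this.symm
    obtain ⟨y', hy'⟩ := (Finite.injective_iff_surjective.mp hφinj) y
    refine ⟨y', ?_⟩
    have h' : (e : F) * y' * (e : F)⁻¹ * (y' : F)⁻¹ = y := congrArg Subtype.val hy'
    show ρ ((e : F) * y' * (e : F)⁻¹) = ρ (y : F) * ρ (y' : F)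
    rw [← map_mul, ← h', inv_mul_cancel_right]
  have hfix' : ∀ w : V, (∀ y, f y w = w) → w = 0 := fun w hw =>
    hfix w (fun b hb => hw ⟨b, hb⟩)
  obtain ⟨A1, hA1, htop, hmem, hle⟩ :=
    lemZ_ext f g α hfcomm (Nat.card B') hchar hpow hα1 hαm hrel hfree hfix'
  letI : Fintype ↥E := Fintype.ofFinite _
  obtain ⟨h1, h2⟩ := free_count g A1 hA1
  have hEpos : 0 < Fintype.card ↥E := Fintype.card_pos
  have hA1le : finrank K ↥A1 ≤ 1 := by
    have h3 : Fintype.card ↥E * finrank K ↥A1 ≤ Fintype.card ↥E := by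
      rw [← h1, ← Nat.card_eq_fintype_card]; exact hdim
    exact Nat.le_of_mul_le_mul_left (by rw [mul_one]; exact h3) hEpos
  have hgmul : ∀ e e' (x : V), g e (g e' x) = g (e * e') x := fun e e' x => by
    rw [map_mul]; rfl
  have hg1 : ∀ x : V, g 1 x = x := fun x => by rw [map_one]; rfl
  have hginj : ∀ e, Function.Injective (g e) := fun e x y hxy => by
    have := congrArg (g e⁻¹) hxy
    rwa [hgmul, hgmul, inv_mul_cancel, hg1, hg1] at this
  have hAe : ∀ e : ↥E, finrank K ↥(A1.map (g e)) ≤ 1 := fun e => by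
    rw [← (Submodule.equivMapOfInjective (g e) (hginj e) A1).finrank_eq]; exact hA1le
  intro u hu u' hu' v
  have hv : v ∈ ⨆ χ : ↥B' → K, ⨅ y, (f y).maxGenEigenspace (χ y) := by
    rw [htop]; trivial
  refine Submodule.iSup_induction _ (motive := fun v => ρ u (ρ u' v) = ρ u' (ρ u v)) hv ?_ ?_ ?_
  · intro χ w hw
    obtain ⟨e, he⟩ := hle χ
    have hpres : ∀ t ∈ U, ρ t w ∈ ⨅ y, (f y).maxGenEigenspace (χ y) := by
      intro t ht
      have hx := (hmem χ w).mp hw
      refine (hmem χ _).mpr fun y => ?_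
      have h3 : ρ (y : F) (ρ t w) = ρ t (ρ (y : F) w) := hcomm y y.2 t ht w
      have h4 : ρ (y : F) w = χ y • w := hx y
      show ρ (y : F) (ρ t w) = χ y • ρ t w
      rw [h3, h4, map_smul]
    by_cases hw0 : w = 0
    · rw [hw0]; simp
    · obtain ⟨a, ha⟩ := prop_of_finrank_le_one _ (hAe e) w (ρ u w) (he hw)
        (he (hpres u hu)) hw0
      obtain ⟨b, hb⟩ := prop_of_finrank_le_one _ (hAe e) w (ρ u' w) (he hw)
        (he (hpres u' hu')) hw0
      calc ρ u (ρ u' w) = ρ u (b • w) := by rw [hb]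
        _ = b • ρ u w := map_smul _ _ _
        _ = b • a • w := by rw [ha]
        _ = a • b • w := smul_comm _ _ _
        _ = a • ρ u' w := by rw [hb]
        _ = ρ u' (a • w) := (map_smul _ _ _).symm
        _ = ρ u' (ρ u w) := by rw [ha]
  · simp
  · intro x y hx hy
    rw [map_add, map_add, hx, hy, map_add, map_add]

/-- If the kernel has no fixed vectors and the complement has a fixed space of dimension at most
one, then the kernel acts through commuting operators. -/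
theorem thmComm (ρ : F →* Module.End K V) (U E : Subgroup F) [U.Normal]
    (hfpf : ∀ e ∈ E, e ≠ 1 → ∀ u ∈ U, e * u = u * e → u = 1)
    (hnil : Group.IsNilpotent U) (hchar : (Nat.card U : K) ≠ 0)
    (hU0 : fixS ρ (U : Set F) = ⊥) (hE1 : finrank K ↥(fixS ρ (E : Set F)) ≤ 1) :
    ∀ u ∈ U, ∀ u' ∈ U, ∀ v : V, ρ u (ρ u' v) = ρ u' (ρ u v) := by
  classical
  have hFK := thmFK ρ U E hfpf hnil hchar
  rw [hU0, bot_inf_eq, finrank_bot, mul_zero, add_zero, zero_add] at hFK
  have hdim : finrank K V ≤ Nat.card E := by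
    rw [hFK]
    calc Nat.card E * finrank K ↥(fixS ρ (E : Set F)) ≤ Nat.card E * 1 :=
          Nat.mul_le_mul_left _ hE1
      _ = Nat.card E := mul_one _
  by_cases hV : finrank K V = 0
  · haveI : Subsingleton V := Module.finrank_zero_iff.mp hV
    intro u _ u' _ v
    exact Subsingleton.elim _ _
  let Z : ℕ → Subgroup F := fun i => (Subgroup.upperCentralSeries ↥U i).map U.subtype
  have hZn : ∀ i, (Z i).Normal := fun i => ConjAct.normal_of_characteristic_of_normal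
  have hZU : ∀ i, Z i ≤ U := fun i => by
    rintro _ ⟨u, _, rfl⟩; exact u.2
  have hZcommU : ∀ i, ∀ x ∈ Z (i + 1), ∀ y ∈ U, x * y * x⁻¹ * y⁻¹ ∈ Z i := by
    rintro i _ ⟨x, hx, rfl⟩ y hy
    rw [SetLike.mem_coe, Subgroup.mem_upperCentralSeries_succ_iff] at hx
    exact ⟨x * ⟨y, hy⟩ * x⁻¹ * ⟨y, hy⟩⁻¹, hx ⟨y, hy⟩, rfl⟩
  have hZchar : ∀ i, (Nat.card (Z i) : K) ≠ 0 := by
    intro i h
    obtain ⟨k, hk⟩ := Subgroup.card_dvd_of_le (hZU i)
    apply hchar
    rw [hk, Nat.cast_mul, h, zero_mul]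
  obtain ⟨n, hn⟩ := hnil.nilpotent'
  have h0 : fixS ρ (Z 0 : Set F) = ⊤ := by
    rw [eq_top_iff]
    intro v _ b hb
    have hb1 : b = 1 := by
      obtain ⟨u, hu, rfl⟩ := hb
      rw [SetLike.mem_coe, Subgroup.upperCentralSeries_zero, Subgroup.mem_bot] at hu
      rw [hu]; rfl
    rw [hb1]; exact rho_one ρ v
  have hnU : (Z n : Set F) = U := by
    show ((Subgroup.upperCentralSeries ↥U n).map U.subtype : Set F) = U
    rw [hn]; ext x; constructor
    · rintro ⟨u, _, rfl⟩; exact u.2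
    · intro hx; exact ⟨⟨x, hx⟩, trivial, rfl⟩
  have hex : ∃ j, fixS ρ (Z j : Set F) ≠ ⊤ := by
    refine ⟨n, ?_⟩
    rw [hnU, hU0]
    intro h
    have h' : finrank K ↥(⊥ : Submodule K V) = finrank K ↥(⊤ : Submodule K V) := by rw [h]
    rw [finrank_bot, finrank_top] at h'
    exact hV h'.symm
  have hj : fixS ρ (Z (Nat.find hex) : Set F) ≠ ⊤ := Nat.find_spec hex
  have hj0 : Nat.find hex ≠ 0 := fun h => hj (by rw [h]; exact h0)
  obtain ⟨i, hi⟩ := Nat.exists_eq_succ_of_ne_zero hj0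
  have hiT : fixS ρ (Z i : Set F) = ⊤ := by
    by_contra hne
    exact Nat.find_min hex (show i < Nat.find hex by omega) hne
  have hj' : fixS ρ (Z (i + 1) : Set F) ≠ ⊤ := by
    have h := hj
    rw [hi] at h
    exact h
  haveI := hZn i
  haveI := hZn (i + 1)
  obtain ⟨P, hPfix, hPmem, hPcomm⟩ : ∃ P : Module.End K V,
      (∀ v ∈ fixS ρ (Z (i + 1) : Set F), P v = v) ∧ (∀ v, P v ∈ fixS ρ (Z (i + 1) : Set F)) ∧
      (∀ x v, ρ x (P v) = P (ρ x v)) :=
    ⟨avg ρ (Z (i + 1)), avg_of_mem ρ _ (hZchar _), avg_mem ρ _, avg_comm ρ _⟩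
  have hPP : ∀ v, P (P v) = P v := fun v => hPfix _ (hPmem v)
  have hrange : LinearMap.range P = fixS ρ (Z (i + 1) : Set F) := by
    ext v; constructor
    · rintro ⟨w, rfl⟩; exact hPmem w
    · intro hv; exact ⟨v, hPfix v hv⟩
  have hZi : ∀ z ∈ Z i, ∀ v, ρ z v = v := fun z hz v => by
    have : v ∈ fixS ρ (Z i : Set F) := by rw [hiT]; trivial
    exact this z hz
  have hWinv : ∀ x v, v ∈ LinearMap.ker P → ρ x v ∈ LinearMap.ker P := by
    intro x v hv
    rw [LinearMap.mem_ker] at hv ⊢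
    rw [← hPcomm x v, hv, map_zero]
  have hcommZU : ∀ x ∈ Z (i + 1), ∀ u ∈ U, ∀ v : V, ρ x (ρ u v) = ρ u (ρ x v) := by
    intro x hx u hu v
    have hc : x⁻¹ * u⁻¹ * x * u ∈ Z i := by
      have := hZcommU i x⁻¹ ((Z (i + 1)).inv_mem hx) u⁻¹ (U.inv_mem hu)
      rwa [inv_inv, inv_inv] at this
    calc ρ x (ρ u v) = ρ (x * u) v := rho_mul ρ x u v
      _ = ρ (u * x * (x⁻¹ * u⁻¹ * x * u)) v := by
          rw [show u * x * (x⁻¹ * u⁻¹ * x * u) = x * u by group]
      _ = ρ (u * x) (ρ (x⁻¹ * u⁻¹ * x * u) v) := (rho_mul ρ _ _ v).symm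
      _ = ρ (u * x) v := by rw [hZi _ hc v]
      _ = ρ u (ρ x v) := (rho_mul ρ u x v).symm
  have key := kc_sub ρ U E hfpf (Z (i + 1)) (hZU _) (hZchar _) (LinearMap.ker P) hWinv
    (fun x hx y hy v _ => hcommZU x hx y (hZU _ hy) v)
    (fun v hv hfixv => by
      have h1 : P v = v := hPfix v hfixv
      have h2 : P v = 0 := LinearMap.mem_ker.mp hv
      rw [← h1, h2])
  have hkerne : LinearMap.ker P ≠ ⊥ := by
    intro hbot
    apply hj'
    rw [← hrange, eq_top_iff]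
    intro v _
    have h3 : v - P v ∈ LinearMap.ker P := by
      rw [LinearMap.mem_ker, map_sub, hPP, sub_self]
    rw [hbot, Submodule.mem_bot, sub_eq_zero] at h3
    exact ⟨v, h3.symm⟩
  have hkpos : 0 < finrank K ↥(LinearMap.ker P) := by
    rw [Module.finrank_pos_iff]
    exact Submodule.nontrivial_iff_ne_bot.mpr hkerne
  have hkE : 1 ≤ finrank K ↥(LinearMap.ker P ⊓ fixS ρ (E : Set F)) := by
    by_contra hlt
    have h0' : finrank K ↥(LinearMap.ker P ⊓ fixS ρ (E : Set F)) = 0 := by omega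
    rw [h0', mul_zero] at key
    omega
  have hkerT : LinearMap.ker P = ⊤ := by
    apply Submodule.eq_top_of_finrank_eq
    apply le_antisymm (Submodule.finrank_le _)
    calc finrank K V ≤ Nat.card E := hdim
      _ = Nat.card E * 1 := (mul_one _).symm
      _ ≤ Nat.card E * finrank K ↥(LinearMap.ker P ⊓ fixS ρ (E : Set F)) :=
          Nat.mul_le_mul_left _ hkE
      _ = finrank K ↥(LinearMap.ker P) := key.symm
  exact comm_layer ρ U E hfpf (Z (i + 1)) (hZU _) (hZchar _) hcommZU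
    (fun v hfixv => by
      have h1 : P v = v := hPfix v hfixv
      have h2 : v ∈ LinearMap.ker P := by rw [hkerT]; trivial
      rw [← h1]; exact LinearMap.mem_ker.mp h2)
    hdim

end comm

end Cfsg.Agent.Lib.Helper10.FrobFree
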