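import Mathlib
import Cfsg.Agent.Lib.Helper10.FrobFree5
import Cfsg.Agent.Lib.Helper10.FrobFree9

set_option autoImplicit false

namespace Cfsg.Agent.Lib.Helper10.FrobFree

open Module TensorProduct

section bc2

variable {k V F : Type*} [Field k] [AddCommGroup V] [Module k V] [Group F]

theorem tmul_one_injective (K : Type*) [Field K] [Algebra k K] (v v' : V)
    (h : (1 : K) ⊗ₜ[k] v = (1 : K) ⊗ₜ[k] v') : v = v' := by
  have hinj : Function.Injective ((Algebra.linearMap k K).rTensor V) :=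
    Module.Flat.rTensor_preserves_injective_linearMap _ (algebraMap k K).injective
  have h1 : ((Algebra.linearMap k K).rTensor V) ((1 : k) ⊗ₜ[k] v) =
      ((Algebra.linearMap k K).rTensor V) ((1 : k) ⊗ₜ[k] v') := by
    simp only [LinearMap.rTensor_tmul, Algebra.linearMap_apply, map_one]
    exact h
  have h2 := hinj h1
  have h3 := congrArg (TensorProduct.lid k V) h2
  simpa using h3

theorem comm_of_bc (K : Type*) [Field K] [Algebra k K] [IsAlgClosed K]
    [FiniteDimensional k V] [Finite F]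
    (ρ : F →* Module.End k V) (U E : Subgroup F) [U.Normal]
    (hfpf : ∀ e ∈ E, e ≠ 1 → ∀ u ∈ U, e * u = u * e → u = 1)
    (hnil : Group.IsNilpotent U) (hchar : (Nat.card F : k) ≠ 0)
    (hU0 : fixS ρ (U : Set F) = ⊥) (hE1 : finrank k ↥(fixS ρ (E : Set F)) ≤ 1) :
    ∀ u ∈ U, ∀ u' ∈ U, ∀ v : V, ρ u (ρ u' v) = ρ u' (ρ u v) := by
  have hB : ∀ B : Subgroup F, (Nat.card B : k) ≠ 0 := by
    intro B h
    obtain ⟨m, hm⟩ := Subgroup.card_subgroup_dvd_card B
    apply hchar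
    rw [hm, Nat.cast_mul, h, zero_mul]
  have hUK : (Nat.card U : K) ≠ 0 := by
    intro h
    apply hB U
    apply (algebraMap k K).injective
    rw [map_natCast, map_zero]; exact h
  have hU0K : fixS (bcRep K ρ) (U : Set F) = ⊥ := by
    rw [← Submodule.finrank_eq_zero, finrank_fix_bc ρ U (hB U), hU0, finrank_bot]
  have hE1K : finrank K ↥(fixS (bcRep K ρ) (E : Set F)) ≤ 1 := by
    rw [finrank_fix_bc ρ E (hB E)]; exact hE1
  intro u hu u' hu' v
  have h1 := thmComm (bcRep K ρ) U E hfpf hnil hUK hU0K hE1K u hu u' hu' ((1 : K) ⊗ₜ[k] v)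
  have h2 : (1 : K) ⊗ₜ[k] (ρ u (ρ u' v)) = (1 : K) ⊗ₜ[k] (ρ u' (ρ u v)) := h1
  exact tmul_one_injective K _ _ h2

end bc2

theorem comm_lin (r : ℕ) [hr : Fact r.Prime] {V F : Type*} [AddCommGroup V]
    [Module (ZMod r) V] [Finite V] [Group F] [Finite F]
    (ρ : F →* Module.End (ZMod r) V) (U E : Subgroup F) [U.Normal]
    (hfpf : ∀ e ∈ E, e ≠ 1 → ∀ u ∈ U, e * u = u * e → u = 1)
    (hnil : Group.IsNilpotent U) (hcop : ¬ r ∣ Nat.card F)
    (hU0 : Nat.card ↥(fixS ρ (U : Set F)) = 1) (hE1 : Nat.card ↥(fixS ρ (E : Set F)) ≤ r) :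
    ∀ u ∈ U, ∀ u' ∈ U, ∀ v : V, ρ u (ρ u' v) = ρ u' (ρ u v) := by
  haveI : Module.Finite (ZMod r) V := Module.Finite.of_finite
  have hcardfix : ∀ B : Set F,
      Nat.card ↥(fixS ρ B) = r ^ Module.finrank (ZMod r) ↥(fixS ρ B) := by
    intro B
    have h := Module.natCard_eq_pow_finrank (K := ZMod r) (V := ↥(fixS ρ B))
    rw [Nat.card_zmod] at h
    exact h
  have hchar : (Nat.card F : ZMod r) ≠ 0 := fun h0 =>
    hcop ((ZMod.natCast_eq_zero_iff _ r).mp h0)
  have hU0' : fixS ρ (U : Set F) = ⊥ := by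
    rw [← Submodule.finrank_eq_zero]
    have h := hcardfix (U : Set F)
    rw [hU0] at h
    by_contra hd
    have : 1 < r ^ finrank (ZMod r) ↥(fixS ρ (U : Set F)) := Nat.one_lt_pow hd hr.out.one_lt
    omega
  have hE1' : finrank (ZMod r) ↥(fixS ρ (E : Set F)) ≤ 1 := by
    have h := hcardfix (E : Set F)
    rw [h] at hE1
    by_contra hd
    push_neg at hd
    have h1 : r ^ 2 ≤ r ^ finrank (ZMod r) ↥(fixS ρ (E : Set F)) :=
      Nat.pow_le_pow_right hr.out.pos hd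
    have h2 : r < r ^ 2 := by
      have := hr.out.one_lt
      rw [pow_two]; nlinarith
    omega
  exact comm_of_bc (AlgebraicClosure (ZMod r)) ρ U E hfpf hnil hchar hU0' hE1'

theorem elemAb_comm_aux {A F : Type*} [CommGroup A] [Finite A] [Group F] [Finite F]
    (r : ℕ) [hr : Fact r.Prime] [Module (ZMod r) (Additive A)]
    (φ : F →* MulAut A) (U E : Subgroup F) [U.Normal]
    (hfpf : ∀ e ∈ E, e ≠ 1 → ∀ u ∈ U, e * u = u * e → u = 1)
    (hnil : Group.IsNilpotent U) (hcop : ¬ r ∣ Nat.card F)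
    (hU0 : fixG φ (U : Set F) = ⊥) (hE1 : Nat.card ↥(fixG φ (E : Set F)) ≤ r) :
    ∀ u ∈ U, ∀ u' ∈ U, ∀ a : A, φ (u * u' * u⁻¹ * u'⁻¹) a = a := by
  have hcardfix : ∀ B : Set F,
      Nat.card ↥(fixG φ B) = Nat.card ↥(fixS (addRep r φ) B) := by
    intro B
    exact Nat.card_congr (Equiv.subtypeEquiv Additive.ofMul (fun a => Iff.rfl))
  have h1 : Nat.card ↥(fixS (addRep r φ) (U : Set F)) = 1 := by
    rw [← hcardfix, hU0]; exact Subgroup.card_bot
  have h2 : Nat.card ↥(fixS (addRep r φ) (E : Set F)) ≤ r := by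
    rw [← hcardfix]; exact hE1
  have hc := comm_lin r (addRep r φ) U E hfpf hnil hcop h1 h2
  intro u hu u' hu' a
  have h3 : addRep r φ (u * u' * u⁻¹ * u'⁻¹) (Additive.ofMul a) = Additive.ofMul a := by
    rw [← rho_mul, ← rho_mul, ← rho_mul, hc u hu u' hu', rho_mul (addRep r φ) u u⁻¹,
      mul_inv_cancel, rho_one, rho_mul, mul_inv_cancel, rho_one]
  exact h3

/-- Commutativity for an elementary abelian group. -/
theorem elemAb_comm {A F : Type*} [CommGroup A] [Finite A] [Group F] [Finite F]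
    (φ : F →* MulAut A) (U E : Subgroup F) [U.Normal]
    (hfpf : ∀ e ∈ E, e ≠ 1 → ∀ u ∈ U, e * u = u * e → u = 1)
    (hnil : Group.IsNilpotent U)
    (r : ℕ) [hr : Fact r.Prime] (hexp : ∀ a : A, a ^ r = 1) (hcop : ¬ r ∣ Nat.card F)
    (hU0 : fixG φ (U : Set F) = ⊥) (hcyc : IsCyclic ↥(fixG φ (E : Set F))) :
    ∀ u ∈ U, ∀ u' ∈ U, ∀ a : A, φ (u * u' * u⁻¹ * u'⁻¹) a = a := by
  letI : Module (ZMod r) (Additive A) := AddCommGroup.zmodModule (fun x => by
    show r • x = 0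
    exact congrArg Additive.ofMul (hexp x.toMul))
  have hE1 : Nat.card ↥(fixG φ (E : Set F)) ≤ r := by
    have h1 : Monoid.exponent ↥(fixG φ (E : Set F)) ∣ r :=
      Monoid.exponent_dvd_of_forall_pow_eq_one (fun g => Subtype.ext (by
        rw [Subgroup.coe_pow]; exact hexp _))
    rw [IsCyclic.exponent_eq_card] at h1
    exact Nat.le_of_dvd hr.out.pos h1
  exact elemAb_comm_aux r φ U E hfpf hnil hcop hU0 hE1

end Cfsg.Agent.Lib.Helper10.FrobFree
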