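import Mathlib
import Cfsg.Agent.S0022
import Cfsg.Agent.Lib.Helper10.Coprime
import Cfsg.Agent.Lib.Helper10.FrobFree5

set_option autoImplicit false

namespace Cfsg.Agent.Lib.Helper10.FrobFree

section acts

variable {H F : Type*} [Group H] [Group F]

/-- Restriction of an action to an invariant subgroup. -/
def resAct (φ : F →* MulAut H) (M : Subgroup H) (hinv : ∀ x : F, ∀ h ∈ M, φ x h ∈ M) :
    F →* MulAut ↥M where
  toFun x :=
    { toFun := fun m => ⟨φ x m, hinv x m m.2⟩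
      invFun := fun m => ⟨φ x⁻¹ m, hinv x⁻¹ m m.2⟩
      left_inv := fun m => Subtype.ext (by
        show φ x⁻¹ (φ x m) = m
        rw [← MulAut.mul_apply, ← map_mul, inv_mul_cancel, map_one]; rfl)
      right_inv := fun m => Subtype.ext (by
        show φ x (φ x⁻¹ m) = m
        rw [← MulAut.mul_apply, ← map_mul, mul_inv_cancel, map_one]; rfl)
      map_mul' := fun m m' => Subtype.ext (map_mul (φ x) _ _) }
  map_one' := MulEquiv.ext fun m => Subtype.ext (by
    show φ 1 (m : H) = m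
    rw [map_one]; rfl)
  map_mul' := fun x y => MulEquiv.ext fun m => Subtype.ext (by
    show φ (x * y) (m : H) = φ x (φ y m)
    rw [map_mul]; rfl)

theorem resAct_apply (φ : F →* MulAut H) (M : Subgroup H)
    (hinv : ∀ x : F, ∀ h ∈ M, φ x h ∈ M) (x : F) (m : ↥M) :
    ((resAct φ M hinv x m : ↥M) : H) = φ x m := rfl

theorem map_eq_of_inv (φ : F →* MulAut H) (M : Subgroup H)
    (hinv : ∀ x : F, ∀ h ∈ M, φ x h ∈ M) (x : F) :
    M.map ((φ x : H ≃* H) : H →* H) = M := by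
  apply le_antisymm
  · rintro _ ⟨m, hm, rfl⟩; exact hinv x m hm
  · intro m hm
    refine ⟨φ x⁻¹ m, hinv x⁻¹ m hm, ?_⟩
    show φ x (φ x⁻¹ m) = m
    rw [← MulAut.mul_apply, ← map_mul, mul_inv_cancel, map_one]; rfl

/-- The induced action on the quotient by an invariant normal subgroup. -/
def quoAct (φ : F →* MulAut H) (M : Subgroup H) [M.Normal]
    (hinv : ∀ x : F, ∀ h ∈ M, φ x h ∈ M) : F →* MulAut (H ⧸ M) where
  toFun x := QuotientGroup.congr M M (φ x) (map_eq_of_inv φ M hinv x)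
  map_one' := MulEquiv.ext fun q => QuotientGroup.induction_on q fun h => by
    show ((φ 1 h : H) : H ⧸ M) = (h : H ⧸ M)
    rw [map_one]; rfl
  map_mul' := fun x y => MulEquiv.ext fun q => QuotientGroup.induction_on q fun h => by
    show ((φ (x * y) h : H) : H ⧸ M) = ((φ x (φ y h) : H) : H ⧸ M)
    rw [map_mul]; rfl

theorem quoAct_mk (φ : F →* MulAut H) (M : Subgroup H) [M.Normal]
    (hinv : ∀ x : F, ∀ h ∈ M, φ x h ∈ M) (x : F) (h : H) :
    quoAct φ M hinv x (h : H ⧸ M) = ((φ x h : H) : H ⧸ M) := rfl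

open SemidirectProduct in
/-- Coprime action: fixed points of the quotient lift. -/
theorem lift_fixed [Finite H] [Finite F] (φ : F →* MulAut H)
    (hcop : Nat.Coprime (Nat.card H) (Nat.card F)) (hsolv : Group.IsSolvable H)
    (M : Subgroup H) [hMn : M.Normal] (hinv : ∀ x : F, ∀ h ∈ M, φ x h ∈ M) (B : Subgroup F)
    (h : H) (hh : ∀ b ∈ B, φ b h * h⁻¹ ∈ M) :
    ∃ c : H, (∀ b ∈ B, φ b c = c) ∧ h⁻¹ * c ∈ M := by
  haveI : Finite (H ⋊[φ] F) := Finite.of_equiv _ (SemidirectProduct.equivProd (φ := φ)).symm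
  haveI := hsolv
  let A : Subgroup (H ⋊[φ] F) := B.map (inr : F →* H ⋊[φ] F)
  let K : Subgroup (H ⋊[φ] F) := (inl : H →* H ⋊[φ] F).range
  let N : Subgroup (H ⋊[φ] F) := M.map (inl : H →* H ⋊[φ] F)
  have hKconj : ∀ g : H ⋊[φ] F, ∀ k ∈ K, g * k * g⁻¹ ∈ K := by
    intro g k hk
    have hk' : k ∈ (rightHom : H ⋊[φ] F →* F).ker := by
      rw [← range_inl_eq_ker_rightHom]; exact hk
    have : g * k * g⁻¹ ∈ (rightHom : H ⋊[φ] F →* F).ker :=
      (inferInstance : (rightHom : H ⋊[φ] F →* F).ker.Normal).conj_mem k hk' g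
    rw [← range_inl_eq_ker_rightHom] at this
    exact this
  have hNconj : ∀ g : H ⋊[φ] F, ∀ n ∈ N, g * n * g⁻¹ ∈ N := by
    rintro g _ ⟨m, hm, rfl⟩
    refine ⟨g.left * φ g.right m * g.left⁻¹, hMn.conj_mem _ (hinv _ m hm) _, ?_⟩
    conv_rhs => rw [← inl_left_mul_inr_right g]
    rw [map_mul, map_mul, inl_aut, map_inv, map_inv, mul_inv_rev]
    simp only [mul_assoc]
  have hAK : A ≤ Subgroup.normalizer (K : Set (H ⋊[φ] F)) := fun a _ =>
    Coprime.mem_normalizer_of_conj_mem (fun k hk => hKconj a k hk)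
  have hKN : K ≤ Subgroup.normalizer (N : Set (H ⋊[φ] F)) := fun a _ =>
    Coprime.mem_normalizer_of_conj_mem (fun n hn => hNconj a n hn)
  have hAN : A ≤ Subgroup.normalizer (N : Set (H ⋊[φ] F)) := fun a _ =>
    Coprime.mem_normalizer_of_conj_mem (fun n hn => hNconj a n hn)
  have hcopAK : (Nat.card A).Coprime (Nat.card K) := by
    have h1 : Nat.card A ∣ Nat.card F :=
      (Subgroup.card_map_dvd _ _).trans (Subgroup.card_subgroup_dvd_card B)
    have h2 : Nat.card K ∣ Nat.card H := Subgroup.card_range_dvd _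
    exact Nat.Coprime.coprime_dvd_left h1 (Nat.Coprime.coprime_dvd_right h2 hcop.symm)
  have hKsolv : Group.IsSolvable K :=
    solvable_of_surjective (MonoidHom.rangeRestrict_surjective (inl : H →* H ⋊[φ] F))
  have hNK : N ≤ K := by
    rintro _ ⟨m, _, rfl⟩; exact ⟨m, rfl⟩
  have hfix' : ∀ a ∈ A, a * inl h * a⁻¹ * (inl h : H ⋊[φ] F)⁻¹ ∈ N := by
    rintro _ ⟨b, hb, rfl⟩
    refine ⟨φ b h * h⁻¹, hh b hb, ?_⟩
    rw [map_mul, inl_aut, map_inv, map_inv]
  obtain ⟨c, hc, hcN⟩ := Cfsg.Agent.S0022.result A K hAK hcopAK (Or.inr hKsolv) N hNK hKN hAN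
    (inl h) ⟨h, rfl⟩ hfix'
  obtain ⟨⟨h', rfl⟩, hcent⟩ := hc
  refine ⟨h', ?_, ?_⟩
  · intro b hb
    have h1 := Subgroup.mem_centralizer_iff.mp hcent (inr b) ⟨b, hb, rfl⟩
    apply inl_injective (φ := φ)
    rw [inl_aut, h1, map_inv, mul_inv_cancel_right]
  · obtain ⟨m, hm, hmeq⟩ := hcN
    have : m = h⁻¹ * h' := inl_injective (φ := φ) (by rw [hmeq, map_mul, map_inv])
    rw [← this]; exact hm

/-- Multiplicativity of fixed point counts along an invariant normal subgroup. -/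
theorem card_fix_mul [Finite H] [Finite F] (φ : F →* MulAut H)
    (hcop : Nat.Coprime (Nat.card H) (Nat.card F)) (hsolv : Group.IsSolvable H)
    (M : Subgroup H) [hMn : M.Normal] (hinv : ∀ x : F, ∀ h ∈ M, φ x h ∈ M) (B : Subgroup F) :
    Nat.card (fixG φ (B : Set F)) =
      Nat.card (fixG (resAct φ M hinv) (B : Set F)) *
        Nat.card (fixG (quoAct φ M hinv) (B : Set F)) := by
  let π : ↥(fixG φ (B : Set F)) →* H ⧸ M :=
    (QuotientGroup.mk' M).comp (fixG φ (B : Set F)).subtype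
  have hπ : ∀ k : ↥(fixG φ (B : Set F)), π k = ((k : H) : H ⧸ M) := fun k => rfl
  have hrange : π.range = fixG (quoAct φ M hinv) (B : Set F) := by
    ext q
    constructor
    · rintro ⟨⟨h, hh⟩, rfl⟩
      intro b hb
      show quoAct φ M hinv b ((h : H) : H ⧸ M) = ((h : H) : H ⧸ M)
      rw [quoAct_mk, hh b hb]
    · intro hq
      obtain ⟨h, rfl⟩ := QuotientGroup.mk_surjective q
      have hh : ∀ b ∈ B, φ b h * h⁻¹ ∈ M := by
        intro b hb
        have h1 : (((φ b h : H)) : H ⧸ M) = (h : H ⧸ M) := hq b hb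
        apply (QuotientGroup.eq_one_iff _).mp
        rw [QuotientGroup.mk_mul, QuotientGroup.mk_inv, h1, mul_inv_cancel]
      obtain ⟨c, hc, hcM⟩ := lift_fixed φ hcop hsolv M hinv B h hh
      exact ⟨⟨c, hc⟩, (QuotientGroup.eq.mpr hcM).symm⟩
  have hkM : ∀ k : ↥(fixG φ (B : Set F)), k ∈ π.ker → (k : H) ∈ M := fun k hk =>
    (QuotientGroup.eq_one_iff (k : H)).mp (MonoidHom.mem_ker.mp hk)
  have hMk : ∀ k : ↥(fixG φ (B : Set F)), (k : H) ∈ M → k ∈ π.ker := fun k hk =>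
    MonoidHom.mem_ker.mpr ((QuotientGroup.eq_one_iff (k : H)).mpr hk)
  have hker : Nat.card π.ker = Nat.card (fixG (resAct φ M hinv) (B : Set F)) := by
    refine Nat.card_congr
      { toFun := fun k => ⟨⟨((k : ↥(fixG φ (B : Set F))) : H), hkM k.1 k.2⟩,
          fun b hb => Subtype.ext (k.1.2 b hb)⟩
        invFun := fun m => ⟨⟨((m : ↥M) : H), fun b hb => congrArg Subtype.val (m.2 b hb)⟩,
          hMk _ m.1.2⟩
        left_inv := fun k => rfl
        right_inv := fun m => rfl }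
  rw [← hrange, ← hker, ← Subgroup.index_ker π, Subgroup.card_mul_index]

end acts

end Cfsg.Agent.Lib.Helper10.FrobFree
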