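import Mathlib
import Cfsg.Agent.Lib.Helper10.FrobFree6
import Cfsg.Agent.Lib.Helper10.FrobFree10

set_option autoImplicit false

namespace Cfsg.Agent.Lib.Helper10.FrobFree

universe u

open scoped commutatorElement

section secs

variable {H F : Type*} [Group H] [Group F]

theorem range_fix_quot [Finite H] [Finite F] (φ : F →* MulAut H)
    (hcop : Nat.Coprime (Nat.card H) (Nat.card F)) (hsolv : Group.IsSolvable H)
    (M : Subgroup H) [hMn : M.Normal] (hinv : ∀ x : F, ∀ h ∈ M, φ x h ∈ M) (B : Subgroup F) :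
    ((QuotientGroup.mk' M).comp (fixG φ (B : Set F)).subtype).range =
      fixG (quoAct φ M hinv) (B : Set F) := by
  ext q
  constructor
  · rintro ⟨⟨h, hh⟩, rfl⟩
    intro b hb
    show quoAct φ M hinv b ((h : H) : H ⧸ M) = ((h : H) : H ⧸ M)
    rw [quoAct_mk, hh b hb]
  · intro hq
    obtain ⟨h, rfl⟩ := QuotientGroup.mk_surjective q
    have hh : ∀ b ∈ B, φ b h * h⁻¹ ∈ M := by
      intro b hb
      have h1 : (((φ b h : H)) : H ⧸ M) = (h : H ⧸ M) := hq b hb
      apply (QuotientGroup.eq_one_iff _).mp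
      rw [QuotientGroup.mk_mul, QuotientGroup.mk_inv, h1, mul_inv_cancel]
    obtain ⟨c, hc, hcM⟩ := lift_fixed φ hcop hsolv M hinv B h hh
    exact ⟨⟨c, hc⟩, (QuotientGroup.eq.mpr hcM).symm⟩

theorem triv_of_sections [Finite H] [Finite F] (φ : F →* MulAut H)
    (hcop : Nat.Coprime (Nat.card H) (Nat.card F)) (hsolv : Group.IsSolvable H)
    (M : Subgroup H) [hMn : M.Normal] (hinv : ∀ x : F, ∀ h ∈ M, φ x h ∈ M) (d : F)
    (h1 : ∀ m : ↥M, resAct φ M hinv d m = m) (h2 : ∀ q : H ⧸ M, quoAct φ M hinv d q = q) :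
    ∀ h : H, φ d h = h := by
  intro h
  have hq1 : quoAct φ M hinv d = 1 := MulEquiv.ext h2
  have hh : ∀ b ∈ Subgroup.zpowers d, φ b h * h⁻¹ ∈ M := by
    intro b hb
    obtain ⟨k, rfl⟩ := Subgroup.mem_zpowers_iff.mp hb
    have h3 : quoAct φ M hinv (d ^ k) (h : H ⧸ M) = (h : H ⧸ M) := by
      rw [map_zpow, hq1, one_zpow]; rfl
    rw [quoAct_mk] at h3
    apply (QuotientGroup.eq_one_iff _).mp
    rw [QuotientGroup.mk_mul, QuotientGroup.mk_inv, h3, mul_inv_cancel]
  obtain ⟨c, hc, hcM⟩ := lift_fixed φ hcop hsolv M hinv (Subgroup.zpowers d) h hh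
  have hcd : φ d c = c := hc d (Subgroup.mem_zpowers d)
  have hn : φ d (h⁻¹ * c) = h⁻¹ * c := congrArg Subtype.val (h1 ⟨h⁻¹ * c, hcM⟩)
  rw [map_mul, hcd, map_inv] at hn
  exact inv_injective (mul_right_cancel hn)

end secs

/-- If the kernel has no fixed points and the complement has cyclic fixed points, then the
derived subgroup of the kernel acts trivially. -/
theorem comm_abs {F : Type*} [Group F] [Finite F] (U E : Subgroup F) [U.Normal]
    (hfpf : ∀ e ∈ E, e ≠ 1 → ∀ u ∈ U, e * u = u * e → u = 1) (hnil : Group.IsNilpotent U) :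
    ∀ (n : ℕ) (H : Type u) [Group H] [Finite H], Nat.card H = n → ∀ (φ : F →* MulAut H),
      Group.IsSolvable H → Nat.Coprime (Nat.card H) (Nat.card F) →
      fixG φ (U : Set F) = ⊥ → IsCyclic ↥(fixG φ (E : Set F)) →
      ∀ u ∈ U, ∀ u' ∈ U, ∀ h : H, φ (u * u' * u⁻¹ * u'⁻¹) h = h := by
  intro n
  induction n using Nat.strong_induction_on with
  | _ n ih =>
  intro H _ _ hn φ hsolv hcop hU0 hcyc
  haveI := hsolv
  haveI := hcyc
  have hred : ∀ (M : Subgroup H) (hMn : M.Normal), (∀ x : F, ∀ h ∈ M, φ x h ∈ M) → M ≠ ⊥ →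
      M ≠ ⊤ → ∀ u ∈ U, ∀ u' ∈ U, ∀ h : H, φ (u * u' * u⁻¹ * u'⁻¹) h = h := by
    intro M hMn hinv hbot htop
    haveI := hMn
    have hcardH : Nat.card H = Nat.card M * Nat.card (H ⧸ M) := by
      rw [mul_comm]; exact Subgroup.card_eq_card_quotient_mul_card_subgroup M
    have hM1 : 1 < Nat.card M := M.one_lt_card_iff_ne_bot.mpr hbot
    have hQ1 : 1 < Nat.card (H ⧸ M) := by
      have h0 : 0 < Nat.card (H ⧸ M) := Nat.card_pos
      have h1 : Nat.card (H ⧸ M) ≠ 1 := fun h => htop (Subgroup.index_eq_one.mp h)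
      omega
    have hMlt : Nat.card M < n := by rw [← hn, hcardH]; nlinarith
    have hQlt : Nat.card (H ⧸ M) < n := by rw [← hn, hcardH]; nlinarith
    have hU0M : fixG (resAct φ M hinv) (U : Set F) = ⊥ := by
      rw [eq_bot_iff]
      intro m hm
      have h1 : (m : H) ∈ fixG φ (U : Set F) := fun b hb => congrArg Subtype.val (hm b hb)
      rw [hU0, Subgroup.mem_bot] at h1
      exact Subgroup.mem_bot.mpr (Subtype.ext h1)
    have hcycM : IsCyclic ↥(fixG (resAct φ M hinv) (E : Set F)) := by
      let ι : ↥(fixG (resAct φ M hinv) (E : Set F)) →* ↥(fixG φ (E : Set F)) :=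
        { toFun := fun m => ⟨((m : ↥M) : H), fun b hb => congrArg Subtype.val (m.2 b hb)⟩
          map_one' := rfl
          map_mul' := fun _ _ => rfl }
      exact isCyclic_of_injective ι (fun a b hab =>
        Subtype.ext (Subtype.ext (congrArg (fun x : ↥(fixG φ (E : Set F)) => (x : H)) hab)))
    have hU0Q : fixG (quoAct φ M hinv) (U : Set F) = ⊥ := by
      rw [← range_fix_quot φ hcop hsolv M hinv U, eq_bot_iff]
      rintro _ ⟨k, rfl⟩
      have hk : (k : H) = 1 := Subgroup.mem_bot.mp (le_of_eq hU0 k.2)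
      rw [Subgroup.mem_bot]
      show ((k : H) : H ⧸ M) = 1
      rw [hk]; rfl
    have hcycQ : IsCyclic ↥(fixG (quoAct φ M hinv) (E : Set F)) := by
      rw [← range_fix_quot φ hcop hsolv M hinv E]
      exact isCyclic_of_surjective _ (MonoidHom.rangeRestrict_surjective _)
    have I1 := ih _ hMlt ↥M rfl (resAct φ M hinv) inferInstance
      (hcop.coprime_dvd_left (Subgroup.card_subgroup_dvd_card M)) hU0M hcycM
    have I2 := ih _ hQlt (H ⧸ M) rfl (quoAct φ M hinv) inferInstance
      (hcop.coprime_dvd_left (Dvd.intro_left _ hcardH.symm)) hU0Q hcycQ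
    intro u hu u' hu'
    exact triv_of_sections φ hcop hsolv M hinv _ (I1 u hu u' hu') (I2 u hu u' hu')
  by_cases hH1 : Nat.card H = 1
  · have hsub : Subsingleton H := (Nat.card_eq_one_iff_unique.mp hH1).1
    intro u _ u' _ h
    exact Subsingleton.elim _ _
  · haveI : Nontrivial H := by
      rw [← Finite.one_lt_card_iff_nontrivial]
      have h0 : 0 < Nat.card H := Nat.card_pos
      omega
    by_cases hab : ∀ a b : H, a * b = b * a
    · obtain ⟨r, hr, hrd⟩ := Nat.exists_prime_and_dvd hH1
      haveI : Fact r.Prime := ⟨hr⟩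
      let M : Subgroup H :=
        { carrier := {h | h ^ r = 1}
          mul_mem' := fun {a b} ha hb => by
            have ha' : a ^ r = 1 := ha
            have hb' : b ^ r = 1 := hb
            show (a * b) ^ r = 1
            rw [(show Commute a b from hab a b).mul_pow, ha', hb', one_mul]
          one_mem' := one_pow r
          inv_mem' := fun {a} ha => by
            have ha' : a ^ r = 1 := ha
            show a⁻¹ ^ r = 1
            rw [inv_pow, ha', inv_one] }
      have hMn : M.Normal := ⟨fun m hm g => by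
        rw [hab g m, mul_inv_cancel_right]; exact hm⟩
      have hinv : ∀ x : F, ∀ h ∈ M, φ x h ∈ M := fun x h hh => by
        have hh' : h ^ r = 1 := hh
        show (φ x h) ^ r = 1
        rw [← map_pow, hh', map_one]
      have hMbot : M ≠ ⊥ := by
        obtain ⟨g, hg⟩ := exists_prime_orderOf_dvd_card' r hrd
        intro hbot
        have hgM : g ∈ M := by
          show g ^ r = 1
          rw [← hg]; exact pow_orderOf_eq_one g
        rw [hbot, Subgroup.mem_bot] at hgM
        rw [hgM, orderOf_one] at hg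
        exact hr.one_lt.ne hg
      by_cases hMtop : M = ⊤
      · have hexp : ∀ a : H, a ^ r = 1 := fun a => by
          have : a ∈ M := by rw [hMtop]; trivial
          exact this
        have hcopr : ¬ r ∣ Nat.card F := fun hdiv => by
          have h1 : r ∣ Nat.gcd (Nat.card H) (Nat.card F) := Nat.dvd_gcd hrd hdiv
          rw [Nat.Coprime] at hcop
          rw [hcop] at h1
          exact hr.one_lt.ne' (Nat.dvd_one.mp h1)
        letI : CommGroup H := { (inferInstance : Group H) with mul_comm := hab }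
        exact elemAb_comm φ U E hfpf hnil r hexp hcopr hU0 hcyc
      · exact hred M hMn hinv hMbot hMtop
    · have hchar : (commutator H).Characteristic := Subgroup.commutator_characteristic ⊤ ⊤
      have hMn : (commutator H).Normal := inferInstance
      have hinv : ∀ x : F, ∀ h ∈ commutator H, φ x h ∈ commutator H := fun x h hh =>
        (Subgroup.characteristic_iff_map_le.mp hchar (φ x)) (Subgroup.mem_map_of_mem _ hh)
      have hbot : commutator H ≠ ⊥ := by
        intro hb
        apply hab
        intro a b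
        have : ⁅a, b⁆ ∈ commutator H :=
          Subgroup.commutator_mem_commutator (Subgroup.mem_top a) (Subgroup.mem_top b)
        rw [hb, Subgroup.mem_bot, commutatorElement_def] at this
        calc a * b = (a * b * a⁻¹ * b⁻¹) * b * a := by group
          _ = b * a := by rw [this, one_mul]
      have htop : commutator H ≠ ⊤ := (IsSolvable.commutator_lt_top_of_nontrivial H).ne
      exact hred (commutator H) hMn hinv hbot htop

end Cfsg.Agent.Lib.Helper10.FrobFree
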