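import Mathlib
import Cfsg.Agent.Lib.Helper10.FrobFree6

set_option autoImplicit false

namespace Cfsg.Agent.Lib.Helper10.FrobFree

universe u

open scoped commutatorElement

theorem mul_aux (a1 a2 m q b1 b2 c1 c2 : ℕ) (h1 : a1 * m = b1 * c1) (h2 : a2 * q = b2 * c2) :
    a1 * a2 * (m * q) = b1 * b2 * (c1 * c2) := by
  calc a1 * a2 * (m * q) = (a1 * m) * (a2 * q) := by ring
    _ = (b1 * c1) * (b2 * c2) := by rw [h1, h2]
    _ = b1 * b2 * (c1 * c2) := by ring

/-- The fixed point formula for an abstract coprime action of a Frobenius group. -/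
theorem main_abs {F : Type*} [Group F] [Finite F] (U E : Subgroup F) [U.Normal]
    (hUE : U ⊔ E = ⊤)
    (hfpf : ∀ e ∈ E, e ≠ 1 → ∀ u ∈ U, e * u = u * e → u = 1) (hnil : Group.IsNilpotent U) :
    ∀ (n : ℕ) (H : Type u) [Group H] [Finite H], Nat.card H = n → ∀ (φ : F →* MulAut H),
      Group.IsSolvable H → Nat.Coprime (Nat.card H) (Nat.card F) →
      Nat.card (fixG φ (Set.univ : Set F)) ^ Nat.card E * Nat.card H
        = Nat.card (fixG φ (E : Set F)) ^ Nat.card E * Nat.card (fixG φ (U : Set F)) := by
  intro n
  induction n using Nat.strong_induction_on with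
  | _ n ih =>
  intro H _ _ hn φ hsolv hcop
  haveI := hsolv
  have hred : ∀ (M : Subgroup H) (hMn : M.Normal), (∀ x : F, ∀ h ∈ M, φ x h ∈ M) → M ≠ ⊥ →
      M ≠ ⊤ → Nat.card (fixG φ (Set.univ : Set F)) ^ Nat.card E * Nat.card H
        = Nat.card (fixG φ (E : Set F)) ^ Nat.card E * Nat.card (fixG φ (U : Set F)) := by
    intro M hMn hinv hbot htop
    haveI := hMn
    have hcardH : Nat.card H = Nat.card M * Nat.card (H ⧸ M) := by
      rw [mul_comm]; exact Subgroup.card_eq_card_quotient_mul_card_subgroup M
    have hM1 : 1 < Nat.card M := M.one_lt_card_iff_ne_bot.mpr hbot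
    have hQ1 : 1 < Nat.card (H ⧸ M) := by
      have h0 : 0 < Nat.card (H ⧸ M) := Nat.card_pos
      have h1 : Nat.card (H ⧸ M) ≠ 1 := fun h => htop (Subgroup.index_eq_one.mp h)
      omega
    have hMlt : Nat.card M < n := by rw [← hn, hcardH]; nlinarith
    have hQlt : Nat.card (H ⧸ M) < n := by rw [← hn, hcardH]; nlinarith
    have I1 := ih _ hMlt ↥M rfl (resAct φ M hinv) inferInstance
      (hcop.coprime_dvd_left (Subgroup.card_subgroup_dvd_card M))
    have I2 := ih _ hQlt (H ⧸ M) rfl (quoAct φ M hinv) inferInstance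
      (hcop.coprime_dvd_left (Dvd.intro_left _ hcardH.symm))
    have m1 := card_fix_mul φ hcop hsolv M hinv ⊤
    have m2 := card_fix_mul φ hcop hsolv M hinv E
    have m3 := card_fix_mul φ hcop hsolv M hinv U
    rw [Subgroup.coe_top] at m1
    rw [m1, m2, m3, hcardH, mul_pow, mul_pow]
    exact mul_aux _ _ _ _ _ _ _ _ I1 I2
  by_cases hH1 : Nat.card H = 1
  · have hsub : Subsingleton H := (Nat.card_eq_one_iff_unique.mp hH1).1
    have h1 : ∀ B : Set F, Nat.card (fixG φ B) = 1 := fun B => by
      rw [Nat.card_eq_one_iff_unique]; exact ⟨inferInstance, ⟨1⟩⟩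
    rw [h1, h1, h1, hH1]
  · haveI : Nontrivial H := by
      rw [← Finite.one_lt_card_iff_nontrivial]
      have h0 : 0 < Nat.card H := Nat.card_pos
      omega
    by_cases hab : ∀ a b : H, a * b = b * a
    · obtain ⟨r, hr, hrd⟩ := Nat.exists_prime_and_dvd hH1
      haveI : Fact r.Prime := ⟨hr⟩
      let M : Subgroup H :=
        { carrier := {h | h ^ r = 1}
          mul_mem' := fun {a b} ha hb => by
            have ha' : a ^ r = 1 := ha
            have hb' : b ^ r = 1 := hb
            show (a * b) ^ r = 1
            rw [(show Commute a b from hab a b).mul_pow, ha', hb', one_mul]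
          one_mem' := one_pow r
          inv_mem' := fun {a} ha => by
            have ha' : a ^ r = 1 := ha
            show a⁻¹ ^ r = 1
            rw [inv_pow, ha', inv_one] }
      have hMn : M.Normal := ⟨fun m hm g => by
        rw [hab g m, mul_inv_cancel_right]; exact hm⟩
      have hinv : ∀ x : F, ∀ h ∈ M, φ x h ∈ M := fun x h hh => by
        have hh' : h ^ r = 1 := hh
        show (φ x h) ^ r = 1
        rw [← map_pow, hh', map_one]
      have hMbot : M ≠ ⊥ := by
        obtain ⟨g, hg⟩ := exists_prime_orderOf_dvd_card' r hrd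
        intro hbot
        have hgM : g ∈ M := by
          show g ^ r = 1
          rw [← hg]; exact pow_orderOf_eq_one g
        rw [hbot, Subgroup.mem_bot] at hgM
        rw [hgM, orderOf_one] at hg
        exact hr.one_lt.ne hg
      by_cases hMtop : M = ⊤
      · have hexp : ∀ a : H, a ^ r = 1 := fun a => by
          have : a ∈ M := by rw [hMtop]; trivial
          exact this
        have hcopr : ¬ r ∣ Nat.card F := fun hdiv => by
          have h1 : r ∣ Nat.gcd (Nat.card H) (Nat.card F) := Nat.dvd_gcd hrd hdiv
          rw [Nat.Coprime] at hcop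
          rw [hcop] at h1
          exact hr.one_lt.ne' (Nat.dvd_one.mp h1)
        letI : CommGroup H := { (inferInstance : Group H) with mul_comm := hab }
        exact elemAb_formula φ U E hUE hfpf hnil r hexp hcopr
      · exact hred M hMn hinv hMbot hMtop
    · have hchar : (commutator H).Characteristic := Subgroup.commutator_characteristic ⊤ ⊤
      have hMn : (commutator H).Normal := inferInstance
      have hinv : ∀ x : F, ∀ h ∈ commutator H, φ x h ∈ commutator H := fun x h hh =>
        (Subgroup.characteristic_iff_map_le.mp hchar (φ x)) (Subgroup.mem_map_of_mem _ hh)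
      have hbot : commutator H ≠ ⊥ := by
        intro hb
        apply hab
        intro a b
        have : ⁅a, b⁆ ∈ commutator H :=
          Subgroup.commutator_mem_commutator (Subgroup.mem_top a) (Subgroup.mem_top b)
        rw [hb, Subgroup.mem_bot, commutatorElement_def] at this
        calc a * b = (a * b * a⁻¹ * b⁻¹) * b * a := by group
          _ = b * a := by rw [this, one_mul]
      have htop : commutator H ≠ ⊤ := (IsSolvable.commutator_lt_top_of_nontrivial H).ne
      exact hred (commutator H) hMn hinv hbot htop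

end Cfsg.Agent.Lib.Helper10.FrobFree
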