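import Mathlib
import Cfsg.Prelude.Def_Local
import Cfsg.Agent.Lib.Lead.Cores
import Cfsg.Agent.Lib.Lead.Hall
import Cfsg.Agent.Lib.Helper10.Coprime2

set_option autoImplicit false
open Pointwise

namespace Cfsg.Agent.Lib.Helper10.PLength

open Cfsg.Agent.Lib.Helper10.Coprime
open Cfsg.Agent.Lib.Helper10.SZ
open Cfsg.Agent.Lib.Lead.Cores
open Cfsg.Agent.Lib.Lead.Hall

theorem upper_one {G : Type*} [Group G] (p : ℕ) :
    (Cfsg.upperPSeries p G 1).1 =
      (Cfsg.pPrimeCore p (G ⧸ (Cfsg.upperPSeries p G 0).1)).comap (QuotientGroup.mk' _) := by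
  rw [Cfsg.upperPSeries]
  simp

theorem upper_two {G : Type*} [Group G] (p : ℕ) :
    (Cfsg.upperPSeries p G 2).1 =
      (Cfsg.pCore p (G ⧸ (Cfsg.upperPSeries p G 1).1)).comap (QuotientGroup.mk' _) := by
  rw [Cfsg.upperPSeries]
  simp

theorem upper_three {G : Type*} [Group G] (p : ℕ) :
    (Cfsg.upperPSeries p G 3).1 =
      (Cfsg.pPrimeCore p (G ⧸ (Cfsg.upperPSeries p G 2).1)).comap (QuotientGroup.mk' _) := by
  rw [Cfsg.upperPSeries]
  simp

/-- Structure of groups of `p`-length at most one: `K = O_{p'}(G)` is a normal `p'`-subgroup and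
`G = K N_G(S)` for every Sylow `p`-subgroup `S`. -/
theorem plength_one {G : Type*} [Group G] [Finite G] (p : ℕ) [hp : Fact p.Prime]
    (h : Cfsg.PLengthLE p 1 G) :
    ∃ K : Subgroup G, K.Normal ∧ (Nat.card K).Coprime p ∧
      ∀ S : Sylow p G, K ⊔ Subgroup.normalizer ((S : Subgroup G) : Set G) = ⊤ := by
  have h3 : (Cfsg.upperPSeries p G 3).1 = ⊤ := h
  obtain ⟨U₁, hU₁⟩ : ∃ U₁ : Subgroup G, U₁ = (Cfsg.upperPSeries p G 1).1 := ⟨_, rfl⟩
  obtain ⟨U₂, hU₂⟩ : ∃ U₂ : Subgroup G, U₂ = (Cfsg.upperPSeries p G 2).1 := ⟨_, rfl⟩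
  have hn1 : U₁.Normal := hU₁ ▸ Cfsg.upperPSeries_normal p G 1
  have hn2 : U₂.Normal := hU₂ ▸ Cfsg.upperPSeries_normal p G 2
  have e2 : U₂ = (Cfsg.pCore p (G ⧸ U₁)).comap (QuotientGroup.mk' U₁) := by
    subst hU₁
    rw [hU₂, upper_two]
  have e3 : (Cfsg.pPrimeCore p (G ⧸ U₂)).comap (QuotientGroup.mk' U₂) = ⊤ := by
    subst hU₂
    rw [← upper_three, h3]
  have hcop1 : (Nat.card U₁).Coprime p := by
    rw [hU₁, upper_one, card_comap_mk]
    have h0 : Nat.card (Cfsg.upperPSeries p G 0).1 = 1 := by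
      have h00 : (Cfsg.upperPSeries p G 0).1 = ⊥ := rfl
      rw [h00, Subgroup.card_bot]
    rw [h0, one_mul]
    exact pPrimeCore_card_coprime p
  obtain ⟨j, hj⟩ := IsPGroup.iff_card.mp (pCore_isPGroup (G := G ⧸ U₁) p)
  have hcard2 : Nat.card U₂ = Nat.card U₁ * p ^ j := by
    rw [e2, card_comap_mk, hj]
  have hidx2 : (U₂.index).Coprime p := by
    have h4 := card_comap_mk U₂ (Cfsg.pPrimeCore p (G ⧸ U₂))
    rw [e3, Subgroup.card_top, ← U₂.card_mul_index] at h4
    have h5 : U₂.index = Nat.card (Cfsg.pPrimeCore p (G ⧸ U₂)) :=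
      Nat.eq_of_mul_eq_mul_left Nat.card_pos h4
    rw [h5]
    exact pPrimeCore_card_coprime p
  have h12 : U₁ ≤ U₂ := by
    rw [e2]
    intro x hx
    rw [Subgroup.mem_comap]
    have : QuotientGroup.mk' U₁ x = 1 := (QuotientGroup.eq_one_iff x).mpr hx
    rw [this]
    exact Subgroup.one_mem _
  refine ⟨U₁, hn1, hcop1, ?_⟩
  intro S
  obtain ⟨a, ha⟩ := IsPGroup.iff_card.mp S.isPGroup'
  have hSU₂ : (S : Subgroup G) ≤ U₂ := by
    have h4 : Nat.card ((S : Subgroup G).map (QuotientGroup.mk' U₂)) = 1 := by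
      have h5 : Nat.card ((S : Subgroup G).map (QuotientGroup.mk' U₂)) ∣ p ^ a :=
        ha ▸ Subgroup.card_map_dvd _ _
      have h6 : Nat.card ((S : Subgroup G).map (QuotientGroup.mk' U₂)) ∣ U₂.index := by
        rw [Subgroup.index_eq_card]
        exact Subgroup.card_subgroup_dvd_card _
      have h7 := Nat.dvd_gcd h5 h6
      rw [Nat.Coprime.gcd_eq_one (Nat.Coprime.pow_left a hidx2.symm)] at h7
      exact Nat.dvd_one.mp h7
    have h8 := Subgroup.eq_bot_of_card_eq _ h4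
    rw [Subgroup.map_eq_bot_iff, QuotientGroup.ker_mk'] at h8
    exact h8
  have hcopS : (Nat.card U₁).Coprime (Nat.card (S : Subgroup G)) := by
    rw [ha]
    exact Nat.Coprime.pow_right a hcop1
  have hsup : U₁ ⊔ (S : Subgroup G) = U₂ := by
    apply le_antisymm (sup_le h12 hSU₂)
    rw [← Subgroup.relIndex_eq_one]
    have h4 : (U₁ ⊔ (S : Subgroup G)).relIndex U₂ ∣ p ^ j := by
      have h5 : U₁.relIndex U₂ = p ^ j := by
        have h6 := card_mul_relIndex' h12
        rw [hcard2] at h6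
        exact Nat.eq_of_mul_eq_mul_left Nat.card_pos h6
      rw [← h5]
      exact Subgroup.relIndex_dvd_of_le_left U₂ le_sup_left
    have h5 : (U₁ ⊔ (S : Subgroup G)).relIndex U₂ ∣ (S : Subgroup G).index := by
      have h6 : (U₁ ⊔ (S : Subgroup G)).relIndex U₂ ∣ (S : Subgroup G).relIndex U₂ :=
        Subgroup.relIndex_dvd_of_le_left U₂ le_sup_right
      exact h6.trans (Dvd.intro _ (Subgroup.relIndex_mul_index hSU₂))
    have h6 := Nat.dvd_gcd h4 h5
    have h7 : (p ^ j).Coprime (S : Subgroup G).index :=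
      Nat.Coprime.pow_left j ((Nat.Prime.coprime_iff_not_dvd hp.out).mpr S.not_dvd_index)
    rw [Nat.Coprime.gcd_eq_one h7] at h6
    exact Nat.dvd_one.mp h6
  have hsolvS : Group.IsSolvable (S : Subgroup G) := by
    have := S.isPGroup'.isNilpotent
    infer_instance
  have hSN : (S : Subgroup G) ≤ Subgroup.normalizer (U₁ : Set G) := by
    rw [Subgroup.normalizer_eq_top]
    exact le_top
  rw [eq_top_iff]
  intro g _
  have hB : MulAut.conj g • (S : Subgroup G) ≤ U₁ ⊔ (S : Subgroup G) := by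
    rw [hsup]
    apply conj_smul_le_of_le_normalizer _ hSU₂
    rw [Subgroup.normalizer_eq_top]
    exact Subgroup.mem_top g
  obtain ⟨n, hn, hconj⟩ := rel_conj U₁ (S : Subgroup G) _ hSN hB (card_conj_smul _ _) hcopS
    (Or.inr hsolvS)
  have h4 : n⁻¹ * g ∈ Subgroup.normalizer ((S : Subgroup G) : Set G) := by
    rw [mem_normalizer_iff_conj_smul, conj_mul_smul, ← hconj, ← conj_mul_smul, inv_mul_cancel,
      map_one, one_smul]
  have h5 := Subgroup.mul_mem_sup hn h4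
  rwa [mul_inv_cancel_left] at h5

end Cfsg.Agent.Lib.Helper10.PLength
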