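import Mathlib
import Cfsg.Agent.Lib.Helper10.FS

set_option autoImplicit false
set_option linter.unusedSectionVars false
set_option linter.unusedVariables false

namespace Cfsg.Agent.Lib.Helper10.RealRep

open scoped ComplexConjugate
open Matrix

section pos

variable {G : Type*} [Fintype G] {n : ℕ}

/-- Positivity of the averaged Hermitian form `∑ F(g)ᴴ F(g)` when some `F g0 = 1`. -/
theorem herm_pos (F : G → Matrix (Fin n) (Fin n) ℂ) (g0 : G) (hF1 : F g0 = 1)
    (x : Fin n → ℂ) (hx : x ≠ 0) :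
    ∃ r : ℝ, 0 < r ∧ star x ⬝ᵥ ((∑ g, (F g).conjTranspose * F g) *ᵥ x) = (r : ℂ) := by
  classical
  have hterm : ∀ y : Fin n → ℂ, star y ⬝ᵥ y = ((∑ k, Complex.normSq (y k) : ℝ) : ℂ) := by
    intro y
    rw [dotProduct, Complex.ofReal_sum]
    refine Finset.sum_congr rfl fun k _ => ?_
    rw [Pi.star_apply, Complex.normSq_eq_conj_mul_self]
    rfl
  refine ⟨∑ g, ∑ k, Complex.normSq ((F g *ᵥ x) k), ?_, ?_⟩
  · apply Finset.sum_pos'
    · intro g _
      exact Finset.sum_nonneg fun k _ => Complex.normSq_nonneg _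
    · refine ⟨g0, Finset.mem_univ _, ?_⟩
      rw [hF1, Matrix.one_mulVec]
      obtain ⟨k, hk⟩ : ∃ k, x k ≠ 0 := by
        by_contra hcon
        push_neg at hcon
        exact hx (funext hcon)
      apply Finset.sum_pos'
      · intro k _
        exact Complex.normSq_nonneg _
      · exact ⟨k, Finset.mem_univ _, Complex.normSq_pos.mpr hk⟩
  · rw [Matrix.sum_mulVec, dotProduct_sum, Complex.ofReal_sum]
    refine Finset.sum_congr rfl fun g _ => ?_
    rw [← hterm, ← Matrix.mulVec_mulVec, Matrix.dotProduct_mulVec, Matrix.star_mulVec]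

end pos

section main

variable {G : Type*} [Group G] [Fintype G] {n : ℕ}

/-- Entrywise complex conjugation as a ring homomorphism on square matrices. -/
noncomputable def cj : Matrix (Fin n) (Fin n) ℂ →+* Matrix (Fin n) (Fin n) ℂ :=
  (starRingEnd ℂ).mapMatrix

theorem cj_apply (Y : Matrix (Fin n) (Fin n) ℂ) (i j : Fin n) : cj Y i j = conj (Y i j) := rfl

theorem cj_cj (Y : Matrix (Fin n) (Fin n) ℂ) : cj (cj Y) = Y := by
  ext i j
  simp [cj_apply]

theorem conjTranspose_eq (Y : Matrix (Fin n) (Fin n) ℂ) : Y.conjTranspose = cj Y.transpose := by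
  ext i j
  simp [cj_apply, Matrix.conjTranspose_apply]

theorem cj_transpose (Y : Matrix (Fin n) (Fin n) ℂ) : cj Y.transpose = (cj Y).transpose := by
  ext i j
  rfl

theorem cj_smul (c : ℂ) (Y : Matrix (Fin n) (Fin n) ℂ) : cj (c • Y) = conj c • cj Y := by
  ext i j
  simp [cj_apply]

theorem cj_conjTranspose (Y : Matrix (Fin n) (Fin n) ℂ) :
    (cj Y).conjTranspose = Y.transpose := by
  rw [conjTranspose_eq, ← cj_transpose, cj_cj]

/-- Real matrices embedded in complex matrices. -/
noncomputable def ofR : Matrix (Fin n) (Fin n) ℝ →+* Matrix (Fin n) (Fin n) ℂ :=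
  Complex.ofRealHom.mapMatrix

theorem ofR_apply (Y : Matrix (Fin n) (Fin n) ℝ) (i j : Fin n) : ofR Y i j = (Y i j : ℂ) := rfl

theorem ofR_injective : Function.Injective (ofR (n := n)) := by
  intro Y Z h
  ext i j
  have := congrFun (congrFun h i) j
  rw [ofR_apply, ofR_apply] at this
  exact_mod_cast this

theorem ofR_trace (Y : Matrix (Fin n) (Fin n) ℝ) : (ofR Y).trace = (Y.trace : ℂ) := by
  simp [Matrix.trace, ofR_apply]

end main

end Cfsg.Agent.Lib.Helper10.RealRep
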