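import Mathlib
import Cfsg.Agent.Lib.Helper10.RealRep1

set_option autoImplicit false
set_option linter.unusedSectionVars false
set_option linter.unusedVariables false
set_option maxHeartbeats 800000

namespace Cfsg.Agent.Lib.Helper10.RealRep

open scoped ComplexConjugate
open Matrix

variable {G : Type*} [Group G] [Fintype G] {n : ℕ}

/-- An intertwiner `N` between the conjugate representation and the representation itself,
normalised so that `N * cj N = 1`, coming from a symmetric invertible invariant form. -/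
theorem exists_structure (X : G → Matrix (Fin n) (Fin n) ℂ)
    (hX : ∀ g h, X (g * h) = X g * X h) (hX1 : X 1 = 1) (hn : 0 < n)
    (hschur : ∀ Y : Matrix (Fin n) (Fin n) ℂ, (∀ g, Y * X g = X g * Y) → ∃ c : ℂ, Y = c • 1)
    (B : Matrix (Fin n) (Fin n) ℂ) (hBs : B.transpose = B) (hBu : IsUnit B)
    (hBinv : ∀ g, (X g).transpose * B * X g = B) :
    ∃ N : Matrix (Fin n) (Fin n) ℂ, N * cj N = 1 ∧ ∀ g, X g * N = N * cj (X g) := by
  classical
  set H : Matrix (Fin n) (Fin n) ℂ := ∑ g, (X g).conjTranspose * X g with hH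
  have hHinv : ∀ h, (X h).conjTranspose * H * X h = H := by
    intro h
    rw [hH, Matrix.mul_sum, Matrix.sum_mul]
    rw [← Equiv.sum_comp (Equiv.mulRight h) (fun g => (X g).conjTranspose * X g)]
    refine Finset.sum_congr rfl fun g _ => ?_
    simp only [Equiv.coe_mulRight, hX, Matrix.conjTranspose_mul, Matrix.mul_assoc]
  have hXX : ∀ h, X h⁻¹ * X h = 1 := fun h => by rw [← hX, inv_mul_cancel, hX1]
  have hHsw : ∀ h, H * X h = (X h⁻¹).conjTranspose * H := by
    intro h
    have := hHinv h⁻¹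
    calc H * X h = ((X h⁻¹).conjTranspose * H * X h⁻¹) * X h := by rw [this]
      _ = (X h⁻¹).conjTranspose * H * (X h⁻¹ * X h) := by simp only [Matrix.mul_assoc]
      _ = (X h⁻¹).conjTranspose * H := by rw [hXX, Matrix.mul_one]
  have hBsw : ∀ h, B * X h = (X h⁻¹).transpose * B := by
    intro h
    have := hBinv h⁻¹
    calc B * X h = ((X h⁻¹).transpose * B * X h⁻¹) * X h := by rw [this]
      _ = (X h⁻¹).transpose * B * (X h⁻¹ * X h) := by simp only [Matrix.mul_assoc]
      _ = (X h⁻¹).transpose * B := by rw [hXX, Matrix.mul_one]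
  have hHdet : IsUnit H.det := by
    rw [isUnit_iff_ne_zero]
    intro hdet
    obtain ⟨v, hv, hv0⟩ := (Matrix.exists_mulVec_eq_zero_iff).mpr hdet
    obtain ⟨r, hr, hr2⟩ := herm_pos X 1 hX1 v hv
    rw [← hH, hv0, dotProduct_zero] at hr2
    have h1 : (r : ℂ) = 0 := hr2.symm
    have h2 : r = 0 := by exact_mod_cast h1
    linarith
  have hHherm : H.conjTranspose = H := by
    rw [hH, Matrix.conjTranspose_sum]
    refine Finset.sum_congr rfl fun g _ => ?_
    rw [Matrix.conjTranspose_mul, Matrix.conjTranspose_conjTranspose]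
  set N : Matrix (Fin n) (Fin n) ℂ := H⁻¹ * cj B with hN
  have hHN : H * N = cj B := by
    rw [hN, ← Matrix.mul_assoc, Matrix.mul_nonsing_inv _ hHdet, Matrix.one_mul]
  clear_value N
  have hcancel : ∀ Y Z : Matrix (Fin n) (Fin n) ℂ, H * Y = H * Z → Y = Z := by
    intro Y Z h
    have h1 := congrArg (fun W => H⁻¹ * W) h
    simp only [← Matrix.mul_assoc, Matrix.nonsing_inv_mul _ hHdet, Matrix.one_mul] at h1
    exact h1
  have hNint : ∀ g, X g * N = N * cj (X g) := by
    intro g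
    apply hcancel
    calc H * (X g * N) = (H * X g) * N := by rw [Matrix.mul_assoc]
      _ = (X g⁻¹).conjTranspose * (H * N) := by rw [hHsw, Matrix.mul_assoc]
      _ = (X g⁻¹).conjTranspose * cj B := by rw [hHN]
      _ = cj ((X g⁻¹).transpose * B) := by rw [map_mul, conjTranspose_eq]
      _ = cj (B * X g) := by rw [hBsw]
      _ = cj B * cj (X g) := by rw [map_mul]
      _ = H * (N * cj (X g)) := by rw [← Matrix.mul_assoc, hHN]
  have hcomm : ∀ g, (N * cj N) * X g = X g * (N * cj N) := by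
    intro g
    have h1 : cj N * X g = cj (X g) * cj N := by
      calc cj N * X g = cj (N * cj (X g)) := by rw [map_mul, cj_cj]
        _ = cj (X g * N) := by rw [hNint]
        _ = cj (X g) * cj N := by rw [map_mul]
    calc (N * cj N) * X g = N * (cj N * X g) := Matrix.mul_assoc _ _ _
      _ = N * (cj (X g) * cj N) := by rw [h1]
      _ = (N * cj (X g)) * cj N := (Matrix.mul_assoc _ _ _).symm
      _ = (X g * N) * cj N := by rw [hNint]
      _ = X g * (N * cj N) := Matrix.mul_assoc _ _ _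
  obtain ⟨c, hc⟩ := hschur (N * cj N) hcomm
  -- positivity of c
  have hcjH : cj H = ∑ g, (cj (X g)).conjTranspose * cj (X g) := by
    rw [hH, map_sum]
    refine Finset.sum_congr rfl fun g _ => ?_
    rw [map_mul, cj_conjTranspose, conjTranspose_eq, cj_cj]
  have hcjHherm : (cj H).conjTranspose = cj H := by
    rw [cj_conjTranspose]
    have := congrArg cj hHherm
    rw [conjTranspose_eq, cj_cj] at this
    exact this
  set x : Fin n → ℂ := Pi.single ⟨0, hn⟩ 1 with hx
  have hx0 : x ≠ 0 := by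
    intro h
    have := congrFun h ⟨0, hn⟩
    simp [hx] at this
  set y : Fin n → ℂ := cj N *ᵥ x with hy
  have hHy : cj H *ᵥ y = B *ᵥ x := by
    rw [hy, Matrix.mulVec_mulVec, ← map_mul, hHN, cj_cj]
  have hBx : B *ᵥ x ≠ 0 := by
    intro h
    have hinj := (Matrix.mulVec_injective_iff_isUnit (A := B)).mpr hBu
    have : B *ᵥ x = B *ᵥ 0 := by rw [h, Matrix.mulVec_zero]
    exact hx0 (hinj this)
  have hy0 : y ≠ 0 := by
    intro h
    rw [h, Matrix.mulVec_zero] at hHy
    exact hBx hHy.symm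
  obtain ⟨r1, hr1, hr1e⟩ := herm_pos X 1 hX1 x hx0
  obtain ⟨r2, hr2, hr2e⟩ := herm_pos (fun g => cj (X g)) 1 (by rw [hX1, map_one]) y hy0
  rw [← hH] at hr1e
  rw [← hcjH] at hr2e
  have hBconj : B.conjTranspose = cj B := by rw [conjTranspose_eq, hBs]
  have hkey : c * (r1 : ℂ) = (r2 : ℂ) := by
    have h1 : H * (N * cj N) = c • H := by rw [hc, Matrix.mul_smul, Matrix.mul_one]
    have h2 : star x ⬝ᵥ ((c • H) *ᵥ x) = c * (r1 : ℂ) := by
      rw [Matrix.smul_mulVec, dotProduct_smul, hr1e, smul_eq_mul]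
    rw [← h2, ← h1, ← Matrix.mul_assoc, hHN, ← Matrix.mulVec_mulVec, ← hy,
      Matrix.dotProduct_mulVec, ← hBconj, ← Matrix.star_mulVec, ← hHy, Matrix.star_mulVec,
      hcjHherm, ← Matrix.dotProduct_mulVec, hr2e]
  have hr1ne : (r1 : ℂ) ≠ 0 := by exact_mod_cast hr1.ne'
  have hcq : c = ((r2 / r1 : ℝ) : ℂ) := by
    rw [Complex.ofReal_div]
    field_simp
    exact hkey
  have hq : 0 < r2 / r1 := div_pos hr2 hr1
  set s : ℝ := (Real.sqrt (r2 / r1))⁻¹ with hs
  have hss : s * s * (r2 / r1) = 1 := by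
    have h1 : Real.sqrt (r2 / r1) * Real.sqrt (r2 / r1) = r2 / r1 := Real.mul_self_sqrt hq.le
    have h2 : Real.sqrt (r2 / r1) ≠ 0 := (Real.sqrt_pos.mpr hq).ne'
    rw [hs]
    calc (Real.sqrt (r2 / r1))⁻¹ * (Real.sqrt (r2 / r1))⁻¹ * (r2 / r1)
        = (Real.sqrt (r2 / r1))⁻¹ * (Real.sqrt (r2 / r1))⁻¹ *
          (Real.sqrt (r2 / r1) * Real.sqrt (r2 / r1)) := by rw [h1]
      _ = 1 := by field_simp
  refine ⟨(s : ℂ) • N, ?_, ?_⟩
  · rw [cj_smul, Complex.conj_ofReal, Matrix.smul_mul, Matrix.mul_smul, smul_smul, hc, smul_smul,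
      hcq]
    have : (s : ℂ) * (s : ℂ) * ((r2 / r1 : ℝ) : ℂ) = 1 := by exact_mod_cast hss
    rw [this, one_smul]
  · intro g
    rw [Matrix.mul_smul, Matrix.smul_mul, hNint]

end Cfsg.Agent.Lib.Helper10.RealRep
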