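import Mathlib
import Cfsg.Agent.Lib.Helper10.RealRep2

set_option autoImplicit false
set_option linter.unusedSectionVars false
set_option linter.unusedVariables false
set_option maxHeartbeats 800000

namespace Cfsg.Agent.Lib.Helper10.RealRep

open scoped ComplexConjugate
open Matrix

variable {G : Type*} [Group G] [Fintype G] {n : ℕ}

/-- From a normalised intertwiner `N` (`N * cj N = 1`, `X g * N = N * cj (X g)`) to a
conjugate of the representation with real matrices. -/
theorem real_form (X : G → Matrix (Fin n) (Fin n) ℂ)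
    (hX : ∀ g h, X (g * h) = X g * X h) (hX1 : X 1 = 1)
    (N : Matrix (Fin n) (Fin n) ℂ) (hN1 : N * cj N = 1)
    (hNint : ∀ g, X g * N = N * cj (X g)) :
    ∃ R : G → Matrix (Fin n) (Fin n) ℝ, (∀ g h, R (g * h) = R g * R h) ∧ R 1 = 1 ∧
      ∀ g, ((R g).trace : ℂ) = (X g).trace := by
  classical
  set C0 : Matrix (Fin n) (Fin n) ℂ := 1 + N with hC0
  set D0 : Matrix (Fin n) (Fin n) ℂ := Complex.I • (1 - N) with hD0
  set Q : Polynomial ℂ :=
    (C0.map Polynomial.C + (Polynomial.X : Polynomial ℂ) • D0.map Polynomial.C).det with hQ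
  have hQeval : ∀ z : ℂ, Q.eval z = (C0 + z • D0).det := by
    intro z
    rw [hQ, ← Polynomial.coe_evalRingHom, RingHom.map_det]
    congr 1
    ext i j
    simp [RingHom.mapMatrix_apply, Matrix.add_apply, Matrix.smul_apply]
    exact mul_comm _ _
  have hQne : Q ≠ 0 := by
    intro h
    have h1 := hQeval (-Complex.I)
    rw [h, Polynomial.eval_zero] at h1
    have h2 : C0 + (-Complex.I) • D0 = (2 : ℂ) • (1 : Matrix (Fin n) (Fin n) ℂ) := by
      rw [hC0, hD0, smul_smul]
      have : -Complex.I * Complex.I = 1 := by rw [neg_mul, Complex.I_mul_I, neg_neg]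
      rw [this, one_smul]
      module
    rw [h2, Matrix.det_smul, Matrix.det_one, mul_one] at h1
    exact (pow_ne_zero _ two_ne_zero) h1.symm
  obtain ⟨t, ht⟩ : ∃ t : ℝ, Q.eval (t : ℂ) ≠ 0 := by
    by_contra hcon
    push_neg at hcon
    apply hQne
    apply Polynomial.eq_zero_of_infinite_isRoot
    apply Set.Infinite.mono _ (Set.infinite_range_of_injective Complex.ofReal_injective)
    rintro _ ⟨t, rfl⟩
    exact hcon t
  set P : Matrix (Fin n) (Fin n) ℂ := C0 + (t : ℂ) • D0 with hP
  have hPdet : IsUnit P.det := by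
    rw [isUnit_iff_ne_zero, ← hQeval]
    exact ht
  have hNP : N * cj P = P := by
    have e1 : cj P = (1 + cj N) + (t : ℂ) • ((-Complex.I) • (1 - cj N)) := by
      rw [hP, hC0, hD0, map_add, map_add, map_one, cj_smul, cj_smul, map_sub, map_one,
        Complex.conj_ofReal, Complex.conj_I]
    rw [e1]
    calc N * ((1 + cj N) + (t : ℂ) • ((-Complex.I) • (1 - cj N)))
        = N + N * cj N + (t : ℂ) • ((-Complex.I) • (N - N * cj N)) := by
          simp only [Matrix.mul_add, Matrix.mul_sub, Matrix.mul_one, Matrix.mul_smul]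
      _ = N + 1 + (t : ℂ) • ((-Complex.I) • (N - 1)) := by rw [hN1]
      _ = P := by
          rw [hP, hC0, hD0]
          module
  clear_value P
  have hcancel : ∀ Y Z : Matrix (Fin n) (Fin n) ℂ, P * Y = P * Z → Y = Z := by
    intro Y Z h
    have h1 := congrArg (fun W => P⁻¹ * W) h
    simp only [← Matrix.mul_assoc, Matrix.nonsing_inv_mul _ hPdet, Matrix.one_mul] at h1
    exact h1
  have hPW : ∀ g, P * (P⁻¹ * X g * P) = X g * P := by
    intro g
    simp only [← Matrix.mul_assoc, Matrix.mul_nonsing_inv _ hPdet, Matrix.one_mul]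
  have hWreal : ∀ g, cj (P⁻¹ * X g * P) = P⁻¹ * X g * P := by
    intro g
    apply hcancel
    calc P * cj (P⁻¹ * X g * P) = N * cj P * cj (P⁻¹ * X g * P) := by rw [hNP]
      _ = N * cj (P * (P⁻¹ * X g * P)) := by
          rw [map_mul cj P (P⁻¹ * X g * P), Matrix.mul_assoc]
      _ = N * cj (X g * P) := by rw [hPW]
      _ = (N * cj (X g)) * cj P := by rw [map_mul cj (X g) P, Matrix.mul_assoc]
      _ = X g * (N * cj P) := by rw [← hNint, Matrix.mul_assoc]
      _ = X g * P := by rw [hNP]
      _ = P * (P⁻¹ * X g * P) := (hPW g).symm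
  have hWmul : ∀ g h, P⁻¹ * X (g * h) * P = (P⁻¹ * X g * P) * (P⁻¹ * X h * P) := by
    intro g h
    rw [hX]
    calc P⁻¹ * (X g * X h) * P = P⁻¹ * X g * (P * P⁻¹) * X h * P := by
          rw [Matrix.mul_nonsing_inv _ hPdet, Matrix.mul_one]
          simp only [Matrix.mul_assoc]
      _ = P⁻¹ * X g * P * (P⁻¹ * X h * P) := by simp only [Matrix.mul_assoc]
  have hW1 : P⁻¹ * X 1 * P = 1 := by
    rw [hX1, Matrix.mul_one, Matrix.nonsing_inv_mul _ hPdet]
  have hWR : ∀ g, ofR ((P⁻¹ * X g * P).map Complex.re) = P⁻¹ * X g * P := by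
    intro g
    ext i j
    rw [ofR_apply, Matrix.map_apply]
    have := congrFun (congrFun (hWreal g) i) j
    rw [cj_apply] at this
    exact Complex.conj_eq_iff_re.mp this
  refine ⟨fun g => (P⁻¹ * X g * P).map Complex.re, ?_, ?_, ?_⟩
  · intro g h
    apply ofR_injective
    rw [map_mul, hWR, hWR, hWR, hWmul]
  · apply ofR_injective
    rw [map_one, hWR, hW1]
  · intro g
    rw [← ofR_trace, hWR, Matrix.trace_mul_comm, ← Matrix.mul_assoc,
      Matrix.mul_nonsing_inv _ hPdet, Matrix.one_mul]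

end Cfsg.Agent.Lib.Helper10.RealRep
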