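import Mathlib
import Cfsg.Agent.Lib.Helper10.RealRep3
import Cfsg.Agent.Lib.Helper1.CharComplete

set_option autoImplicit false
set_option linter.unusedSectionVars false
set_option linter.unusedVariables false
set_option maxHeartbeats 800000

namespace Cfsg.Agent.Lib.Helper10.RealRep

open scoped ComplexConjugate
open Matrix Cfsg.Agent.Lib.Helper1

variable {G : Type*} [Group G] [Fintype G]

/-- An irreducible representation whose character is afforded by real matrices has
Frobenius–Schur indicator `1`. -/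
theorem real_ind (n : ℕ) (ρ : Representation ℂ G (Fin n → ℂ)) [ρ.IsIrreducible]
    (R : G → Matrix (Fin n) (Fin n) ℝ) (hR : ∀ g h, R (g * h) = R g * R h) (hR1 : R 1 = 1)
    (htr : ∀ g, ((R g).trace : ℂ) = ρ.character g) : FS.ind ρ.character = 1 := by
  classical
  let X : G → Matrix (Fin n) (Fin n) ℂ := fun g => LinearMap.toMatrix' (ρ g)
  have hX : ∀ g h, X (g * h) = X g * X h := by
    intro g h
    show LinearMap.toMatrix' (ρ (g * h)) = _
    rw [map_mul, LinearMap.toMatrix'_mul]
  have hX1 : X 1 = 1 := by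
    show LinearMap.toMatrix' (ρ 1) = 1
    rw [map_one, LinearMap.toMatrix'_one]
  have hρX : ∀ g, ρ g = Matrix.toLin' (X g) := fun g => (Matrix.toLin'_toMatrix' (ρ g)).symm
  have hχ : ∀ g, ρ.character g = (X g).trace := by
    intro g
    rw [character_apply, LinearMap.trace_eq_matrix_trace ℂ (Pi.basisFun ℂ (Fin n)) (ρ g),
      LinearMap.toMatrix_eq_toMatrix']
  let Bc : G → Matrix (Fin n) (Fin n) ℂ := fun g => ofR (R g)
  have hB : ∀ g h, Bc (g * h) = Bc g * Bc h := by
    intro g h
    show ofR (R (g * h)) = _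
    rw [hR, map_mul]
  have hB1 : Bc 1 = 1 := by
    show ofR (R 1) = 1
    rw [hR1, map_one]
  have hBtr : ∀ g, (Bc g).trace = (X g).trace := by
    intro g
    show (ofR (R g)).trace = _
    rw [ofR_trace, htr, hχ]
  have hn : 0 < n := by
    have hnt := nontrivial_of_isIrreducible ρ
    rcases Nat.eq_zero_or_pos n with h | h
    · subst h
      exact absurd hnt (not_nontrivial_iff_subsingleton.mpr inferInstance)
    · exact h
  set S : Matrix (Fin n) (Fin n) ℂ := ∑ h, (Bc h).transpose * Bc h with hS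
  have hSinv : ∀ g, (Bc g).transpose * S * Bc g = S := by
    intro g
    rw [hS, Matrix.mul_sum, Matrix.sum_mul]
    rw [← Equiv.sum_comp (Equiv.mulRight g) (fun h => (Bc h).transpose * Bc h)]
    refine Finset.sum_congr rfl fun h _ => ?_
    simp only [Equiv.coe_mulRight, hB, Matrix.transpose_mul, Matrix.mul_assoc]
  have hSsym : S.transpose = S := by
    rw [hS, Matrix.transpose_sum]
    refine Finset.sum_congr rfl fun h _ => ?_
    rw [Matrix.transpose_mul, Matrix.transpose_transpose]
  have hS0 : S ≠ 0 := by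
    intro h0
    have h1 : S ⟨0, hn⟩ ⟨0, hn⟩ = 0 := by rw [h0]; rfl
    have h2 : S ⟨0, hn⟩ ⟨0, hn⟩ =
        ((∑ h, ∑ k, R h k ⟨0, hn⟩ * R h k ⟨0, hn⟩ : ℝ) : ℂ) := by
      rw [hS, Matrix.sum_apply, Complex.ofReal_sum]
      refine Finset.sum_congr rfl fun h _ => ?_
      rw [Matrix.mul_apply, Complex.ofReal_sum]
      refine Finset.sum_congr rfl fun k _ => ?_
      rw [Matrix.transpose_apply]
      show ofR (R h) k _ * ofR (R h) k _ = _
      rw [ofR_apply, Complex.ofReal_mul]
    rw [h2] at h1
    have h3 : (∑ h, ∑ k, R h k ⟨0, hn⟩ * R h k ⟨0, hn⟩ : ℝ) = 0 := by exact_mod_cast h1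
    have h4 : 0 < (∑ h, ∑ k, R h k ⟨0, hn⟩ * R h k ⟨0, hn⟩ : ℝ) := by
      apply Finset.sum_pos'
      · intro h _
        exact Finset.sum_nonneg fun k _ => mul_self_nonneg _
      · refine ⟨1, Finset.mem_univ _, ?_⟩
        apply Finset.sum_pos'
        · intro k _
          exact mul_self_nonneg _
        · refine ⟨⟨0, hn⟩, Finset.mem_univ _, ?_⟩
          rw [hR1]
          simp
    linarith
  -- the intertwiner
  have hΦ : ∀ (F : Matrix (Fin n) (Fin n) ℂ) (h : G),
      Bc h * (∑ g, Bc g * F * X g⁻¹) = (∑ g, Bc g * F * X g⁻¹) * X h := by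
    intro F h
    rw [Matrix.mul_sum, Matrix.sum_mul]
    rw [← Equiv.sum_comp (Equiv.mulLeft h) (fun g => Bc g * F * X g⁻¹ * X h)]
    refine Finset.sum_congr rfl fun g _ => ?_
    simp only [Equiv.coe_mulLeft, hB, _root_.mul_inv_rev, hX, Matrix.mul_assoc]
    rw [← hX h⁻¹ h, inv_mul_cancel, hX1, Matrix.mul_one]
  have hne : (Nat.card G : ℂ) ≠ 0 := by
    have := Nat.card_pos (α := G)
    exact_mod_cast this.ne'
  have hnorm : ∑ g, (Bc g).trace * (X g⁻¹).trace = (Nat.card G : ℂ) := by
    have h1 := classInner_irr_rep ρ ρ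
    rw [if_pos rfl] at h1
    unfold Cfsg.classInner at h1
    have h2 : ∑ g, ρ.character g * conj (ρ.character g) = (Nat.card G : ℂ) := by
      field_simp at h1
      exact h1
    rw [← h2]
    refine Finset.sum_congr rfl fun g _ => ?_
    rw [hBtr, ← hχ, ← hχ, char_inv]
  have hsum : ∑ i, ∑ j,
      (∑ g, Bc g * Matrix.single i j 1 * X g⁻¹ : Matrix (Fin n) (Fin n) ℂ) i j
        = (Nat.card G : ℂ) := by
    have h1 : ∀ i j, (∑ g, Bc g * Matrix.single i j 1 * X g⁻¹ : Matrix (Fin n) (Fin n) ℂ) i j
        = ∑ g, Bc g i i * X g⁻¹ j j := by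
      intro i j
      rw [Matrix.sum_apply]
      refine Finset.sum_congr rfl fun g _ => ?_
      rw [Matrix.mul_apply]
      simp only [Matrix.mul_apply, Matrix.single_apply, ite_and, mul_ite, mul_one, mul_zero,
        Finset.sum_ite_eq, Finset.mem_univ, if_true, ite_mul, zero_mul]
    simp only [h1]
    rw [← hnorm]
    calc ∑ i, ∑ j, ∑ g, Bc g i i * X g⁻¹ j j
        = ∑ i, ∑ g, ∑ j, Bc g i i * X g⁻¹ j j := by
          refine Finset.sum_congr rfl fun i _ => Finset.sum_comm
      _ = ∑ g, ∑ i, ∑ j, Bc g i i * X g⁻¹ j j := Finset.sum_comm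
      _ = ∑ g, (Bc g).trace * (X g⁻¹).trace := by
          refine Finset.sum_congr rfl fun g _ => ?_
          rw [Matrix.trace, Matrix.trace, Finset.sum_mul_sum]
          rfl
  obtain ⟨i, j, hij⟩ : ∃ i j,
      (∑ g, Bc g * Matrix.single i j 1 * X g⁻¹ : Matrix (Fin n) (Fin n) ℂ) ≠ 0 := by
    by_contra hcon
    push_neg at hcon
    apply hne
    rw [← hsum]
    simp [hcon]
  set Q : Matrix (Fin n) (Fin n) ℂ := ∑ g, Bc g * Matrix.single i j 1 * X g⁻¹ with hQ
  have hQint : ∀ h, Bc h * Q = Q * X h := fun h => hΦ _ h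
  clear_value Q
  have hQunit : IsUnit Q := by
    let W0 : Subrepresentation ρ :=
      { toSubmodule := LinearMap.ker (Matrix.toLin' Q)
        apply_mem_toSubmodule := by
          intro g v hv
          rw [LinearMap.mem_ker] at hv ⊢
          rw [hρX g, ← LinearMap.comp_apply, ← Matrix.toLin'_mul, ← hQint g, Matrix.toLin'_mul,
            LinearMap.comp_apply, hv, map_zero] }
    rcases eq_bot_or_eq_top W0 with h | h
    · have h1 : LinearMap.ker (Matrix.toLin' Q) = ⊥ := by
        have := congrArg Subrepresentation.toSubmodule h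
        exact this
      have h2 : Function.Injective (Matrix.toLin' Q) := LinearMap.ker_eq_bot.mp h1
      have h3 : Function.Injective Q.mulVec := h2
      exact (Matrix.mulVec_injective_iff_isUnit (A := Q)).mp h3
    · exfalso
      apply hij
      have h1 : LinearMap.ker (Matrix.toLin' Q) = ⊤ := by
        have := congrArg Subrepresentation.toSubmodule h
        exact this
      rw [LinearMap.ker_eq_top] at h1
      have h2 := congrArg LinearMap.toMatrix' h1
      rw [LinearMap.toMatrix'_toLin', map_zero] at h2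
      exact h2
  set M : Matrix (Fin n) (Fin n) ℂ := Q.transpose * S * Q with hM
  have hMinv : ∀ g, (X g).transpose * M * X g = M := by
    intro g
    calc (X g).transpose * (Q.transpose * S * Q) * X g
        = (Q * X g).transpose * S * (Q * X g) := by
          simp only [Matrix.transpose_mul, Matrix.mul_assoc]
      _ = (Bc g * Q).transpose * S * (Bc g * Q) := by rw [hQint]
      _ = Q.transpose * ((Bc g).transpose * S * Bc g) * Q := by
          simp only [Matrix.transpose_mul, Matrix.mul_assoc]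
      _ = Q.transpose * S * Q := by rw [hSinv]
  have hMsym : M.transpose = M := by
    rw [hM]
    simp only [Matrix.transpose_mul, Matrix.transpose_transpose, hSsym, Matrix.mul_assoc]
  have hM0 : M ≠ 0 := by
    intro h0
    apply hS0
    obtain ⟨u, hu⟩ := hQunit
    have h1 : Q * (↑u⁻¹ : Matrix (Fin n) (Fin n) ℂ) = 1 := by rw [← hu]; exact u.mul_inv
    calc S = (Q * (↑u⁻¹ : Matrix (Fin n) (Fin n) ℂ)).transpose * S *
          (Q * (↑u⁻¹ : Matrix (Fin n) (Fin n) ℂ)) := by
          rw [h1, Matrix.transpose_one, Matrix.one_mul, Matrix.mul_one]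
      _ = (↑u⁻¹ : Matrix (Fin n) (Fin n) ℂ).transpose * (Q.transpose * S * Q) *
          (↑u⁻¹ : Matrix (Fin n) (Fin n) ℂ) := by
          simp only [Matrix.transpose_mul, Matrix.mul_assoc]
      _ = 0 := by rw [← hM, h0, Matrix.mul_zero, Matrix.zero_mul]
  rcases FS.dichotomy n ρ with ⟨hall, -, -⟩ | ⟨M0, ε, -, -, -, hε, hind, -, hT, -⟩
  · exact absurd (hall M hMinv) hM0
  · have h1 := hT M hMinv
    rw [hMsym] at h1
    have hε1 : ε = 1 := by
      by_contra hne1
      apply hM0
      have h2 : (1 - ε) • M = 0 := by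
        rw [sub_smul, one_smul, ← h1, sub_self]
      rcases smul_eq_zero.mp h2 with h3 | h3
      · exact absurd (sub_eq_zero.mp h3).symm hne1
      · exact h3
    rw [hind, hε1]

end Cfsg.Agent.Lib.Helper10.RealRep
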