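import Mathlib
import Cfsg.Prelude.Def_Characters
import Cfsg.Agent.Lib.Helper1.CharMisc
import Cfsg.Agent.Lib.Helper10.Virt
import Cfsg.Agent.Lib.Helper10.CycTI
import Cfsg.Agent.Lib.Helper10.CycCount
import Cfsg.Agent.Lib.Helper10.KW
import Cfsg.Agent.Lib.Helper10.IndLin

/-!
The configuration `L = K ⋊ W₁`, `W₂ = C_K(x)` for all non-identity `x ∈ W₁`, both `W₁`, `W₂`
cyclic: the subset `W \ W₂` of `W = W₁ ⊔ W₂` is a trivial-intersection set with normalizer `W`,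
and the differences of linear characters of `W` agreeing on `W₂` induce to differences of
irreducible characters of `L`.
-/

set_option autoImplicit false

namespace Cfsg.Agent.Lib.Helper10.TypeP

open Cfsg.Agent.Lib.Helper1 Cfsg.Agent.Lib.Helper10.Virt Cfsg.Agent.Lib.Helper10.CycTI
open Cfsg.Agent.Lib.Helper10.IndLin Cfsg.Agent.Lib.Helper10.CycCount
open scoped ComplexConjugate

section family

variable {L : Type*} [Group L] [Fintype L]

theorem pn_logic {ι : Type*} {β : Type*} (p n : ι → β) (h : ∀ j k, p j = p k ∨ n j = n k) :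
    (∀ j k, p j = p k) ∨ (∀ j k, n j = n k) := by
  by_contra hcon
  push Not at hcon
  obtain ⟨⟨j, k, hjk⟩, ⟨j', k', hjk'⟩⟩ := hcon
  have hn : n j = n k := (h j k).resolve_left hjk
  have key : ∀ m, n m = n j := by
    intro m
    rcases h m j with h1 | h1
    · rcases h m k with h2 | h2
      · exact absurd (h1.symm.trans h2) hjk
      · rw [h2, hn]
    · exact h1
  exact hjk' ((key j').trans (key k').symm)

/-- A family of generalized characters `a i j` vanishing at `1`, additive in the indices, with the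
inner products of differences of an orthonormal family, is `δ (μ i - μ j)` for irreducible
characters `μ i` and one sign `δ`. -/
theorem family_coherent {ι : Type*} (a : ι → ι → (L → ℂ))
    (hgen : ∀ i j, Cfsg.IsGeneralizedCharacter L (a i j))
    (h1 : ∀ i j, a i j 1 = 0)
    (hnorm : ∀ i j, i ≠ j → Cfsg.classInner (a i j) (a i j) = 2)
    (hinner : ∀ i j k, i ≠ j → i ≠ k → j ≠ k → Cfsg.classInner (a i j) (a i k) = 1)
    (hco : ∀ i j k, a i j + a j k = a i k) :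
    ∃ (δ : ℂ) (μ : ι → (L → ℂ)), (δ = 1 ∨ δ = -1) ∧ (∀ i, Cfsg.IsIrrCharacter L (μ i)) ∧
      ∀ i j, a i j = δ • (μ i - μ j) := by
  classical
  by_cases hι : Nonempty ι
  swap
  · exact ⟨1, fun i => (hι ⟨i⟩).elim, Or.inl rfl, fun i => (hι ⟨i⟩).elim,
      fun i => (hι ⟨i⟩).elim⟩
  obtain ⟨i₀⟩ := hι
  have haii : ∀ i, a i i = 0 := by
    intro i
    have := hco i i i
    exact add_eq_left.mp this
  have hex : ∀ j, ∃ p n : L → ℂ, Cfsg.IsIrrCharacter L p ∧ Cfsg.IsIrrCharacter L n ∧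
      (j ≠ i₀ → a i₀ j = p - n) := by
    intro j
    by_cases hj : j = i₀
    · exact ⟨_, _, isIrrCharacter_one, isIrrCharacter_one, fun h => absurd hj h⟩
    · obtain ⟨p, n, hp, hn, -, e⟩ :=
        norm_two_vanish (hgen i₀ j) (hnorm i₀ j (Ne.symm hj)) (h1 i₀ j)
      exact ⟨p, n, hp, hn, fun _ => e⟩
  choose p n hp hn hpn using hex
  have hrel : ∀ j k : {j // j ≠ i₀}, p j = p k ∨ n j = n k := by
    rintro ⟨j, hj⟩ ⟨k, hk⟩
    by_cases hjk : j = k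
    · subst hjk; exact Or.inl rfl
    · have e := hinner i₀ j k (Ne.symm hj) (Ne.symm hk) hjk
      rw [hpn j hj, hpn k hk, classInner_sub_left, classInner_sub_right,
        classInner_sub_right, classInner_irr (hp j) (hp k), classInner_irr (hp j) (hn k),
        classInner_irr (hn j) (hp k), classInner_irr (hn j) (hn k)] at e
      by_contra hcon
      push Not at hcon
      simp only [] at hcon
      rw [if_neg hcon.1, if_neg hcon.2] at e
      split_ifs at e <;> norm_num at e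
  have hbase : ∀ i j, a i j = a i₀ j - a i₀ i := by
    intro i j
    rw [← hco i₀ i j]; abel
  rcases pn_logic (fun j : {j // j ≠ i₀} => p j) (fun j : {j // j ≠ i₀} => n j) hrel
    with hP | hN
  · by_cases hex : ∃ j, j ≠ i₀
    · obtain ⟨j₁, hj₁⟩ := hex
      refine ⟨1, fun i => if i = i₀ then p j₁ else n i, Or.inl rfl, ?_, ?_⟩
      · intro i
        dsimp only
        by_cases hi : i = i₀
        · rw [if_pos hi]; exact hp j₁
        · rw [if_neg hi]; exact hn i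
      · have base : ∀ j, a i₀ j = p j₁ - (if j = i₀ then p j₁ else n j) := by
          intro j
          by_cases hj : j = i₀
          · rw [if_pos hj, hj, haii, sub_self]
          · rw [if_neg hj, hpn j hj]
            have := hP ⟨j, hj⟩ ⟨j₁, hj₁⟩
            simp only [] at this
            rw [this]
        intro i j
        rw [hbase i j, base, base, one_smul]
        abel
    · push Not at hex
      refine ⟨1, fun _ => fun _ => 1, Or.inl rfl, fun _ => isIrrCharacter_one, ?_⟩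
      intro i j
      rw [hex i, hex j, haii, sub_self, smul_zero]
  · by_cases hex : ∃ j, j ≠ i₀
    · obtain ⟨j₁, hj₁⟩ := hex
      refine ⟨-1, fun i => if i = i₀ then n j₁ else p i, Or.inr rfl, ?_, ?_⟩
      · intro i
        dsimp only
        by_cases hi : i = i₀
        · rw [if_pos hi]; exact hn j₁
        · rw [if_neg hi]; exact hp i
      · have base : ∀ j, a i₀ j = (if j = i₀ then n j₁ else p j) - n j₁ := by
          intro j
          by_cases hj : j = i₀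
          · rw [if_pos hj, hj, haii, sub_self]
          · rw [if_neg hj, hpn j hj]
            have := hN ⟨j, hj⟩ ⟨j₁, hj₁⟩
            simp only [] at this
            rw [this]
        intro i j
        rw [hbase i j, base, base, neg_one_smul]
        abel
    · push Not at hex
      refine ⟨1, fun _ => fun _ => 1, Or.inl rfl, fun _ => isIrrCharacter_one, ?_⟩
      intro i j
      rw [hex i, hex j, haii, sub_self, smul_zero]

end family

section ti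

variable {L : Type*} [Group L]

/-- The hypotheses of the configuration. -/
structure Cfg (K W₁ W₂ : Subgroup L) : Prop where
  normal : K.Normal
  inf : K ⊓ W₁ = ⊥
  sup : K ⊔ W₁ = ⊤
  ne1 : W₁ ≠ ⊥
  cyc1 : IsCyclic W₁
  hall : Nat.Coprime (Nat.card W₁) W₁.index
  ne2 : W₂ ≠ ⊥
  cyc2 : IsCyclic W₂
  le : W₂ ≤ K
  cent : ∀ x ∈ W₁, x ≠ 1 → K ⊓ Subgroup.centralizer ({x} : Set L) = W₂

variable {K W₁ W₂ : Subgroup L}

theorem Cfg.comm12 (h : Cfg K W₁ W₂) : ∀ a ∈ W₁, ∀ b ∈ W₂, a * b = b * a := by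
  intro a ha b hb
  by_cases h1 : a = 1
  · rw [h1, one_mul, mul_one]
  · have hb' : b ∈ K ⊓ Subgroup.centralizer ({a} : Set L) := by rw [h.cent a ha h1]; exact hb
    exact ((Subgroup.mem_centralizer_singleton_iff).mp (Subgroup.mem_inf.mp hb').2).symm

theorem Cfg.disj12 (h : Cfg K W₁ W₂) : W₁ ⊓ W₂ = ⊥ := by
  rw [eq_bot_iff, ← h.inf]
  exact le_inf (inf_le_right.trans h.le) inf_le_left

theorem exists_mul_of_mem_sup (W₁ W₂ : Subgroup L)
    (hcomm : ∀ a ∈ W₁, ∀ b ∈ W₂, a * b = b * a) {w : L} (hw : w ∈ W₁ ⊔ W₂) :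
    ∃ a ∈ W₁, ∃ b ∈ W₂, w = a * b := by
  rw [Subgroup.sup_eq_closure] at hw
  induction hw using Subgroup.closure_induction with
  | mem x hx =>
    rcases hx with h | h
    · exact ⟨x, h, 1, W₂.one_mem, (mul_one x).symm⟩
    · exact ⟨1, W₁.one_mem, x, h, (one_mul x).symm⟩
  | one => exact ⟨1, W₁.one_mem, 1, W₂.one_mem, (mul_one 1).symm⟩
  | mul x y _ _ hx hy =>
    obtain ⟨a, ha, b, hb, rfl⟩ := hx
    obtain ⟨a', ha', b', hb', rfl⟩ := hy
    refine ⟨a * a', W₁.mul_mem ha ha', b * b', W₂.mul_mem hb hb', ?_⟩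
    calc a * b * (a' * b') = a * (b * a') * b' := by group
      _ = a * (a' * b) * b' := by rw [hcomm a' ha' b hb]
      _ = a * a' * (b * b') := by group
  | inv x _ hx =>
    obtain ⟨a, ha, b, hb, rfl⟩ := hx
    refine ⟨a⁻¹, W₁.inv_mem ha, b⁻¹, W₂.inv_mem hb, ?_⟩
    rw [mul_inv_rev, hcomm a⁻¹ (W₁.inv_mem ha) b⁻¹ (W₂.inv_mem hb)]

theorem Cfg.sup_comm (h : Cfg K W₁ W₂) {x y : L} (hx : x ∈ W₁ ⊔ W₂) (hy : y ∈ W₁ ⊔ W₂) :
    x * y = y * x := by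
  obtain ⟨a, ha, b, hb, rfl⟩ := exists_mul_of_mem_sup W₁ W₂ h.comm12 hx
  obtain ⟨a', ha', b', hb', rfl⟩ := exists_mul_of_mem_sup W₁ W₂ h.comm12 hy
  have h1 := KW.cyclic_comm W₁ h.cyc1 ha ha'
  have h2 := KW.cyclic_comm W₂ h.cyc2 hb hb'
  have h3 := h.comm12 a' ha' b hb
  have h4 := h.comm12 a ha b' hb'
  calc a * b * (a' * b') = a * (b * a') * b' := by group
    _ = a * (a' * b) * b' := by rw [h3]
    _ = (a * a') * (b * b') := by group
    _ = (a' * a) * (b' * b) := by rw [h1, h2]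
    _ = a' * (a * b') * b := by group
    _ = a' * (b' * a) * b := by rw [h4]
    _ = a' * b' * (a * b) := by group

/-- Elements of `W₁` outside the identity are outside `W₂`. -/
theorem Cfg.not_mem_two (h : Cfg K W₁ W₂) {a : L} (ha : a ∈ W₁) (ha1 : a ≠ 1) : a ∉ W₂ := by
  intro h2
  have : a ∈ W₁ ⊓ W₂ := Subgroup.mem_inf.mpr ⟨ha, h2⟩
  rw [h.disj12, Subgroup.mem_bot] at this
  exact ha1 this

/-- The trivial-intersection property of `W \ W₂`. -/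
theorem Cfg.mem_sup_of_conj_mem [Finite L] (h : Cfg K W₁ W₂) {w x : L} (hw : w ∈ W₁ ⊔ W₂)
    (hw2 : w ∉ W₂) (hy : x⁻¹ * w * x ∈ W₁ ⊔ W₂) : x ∈ W₁ ⊔ W₂ := by
  haveI := h.normal
  have hcomm := h.comm12
  obtain ⟨a, ha, b, hb, rfl⟩ := exists_mul_of_mem_sup W₁ W₂ hcomm hw
  obtain ⟨a', ha', b', hb', e⟩ := exists_mul_of_mem_sup W₁ W₂ hcomm hy
  have ha1 : a ≠ 1 := by rintro rfl; exact hw2 (by rw [one_mul]; exact hb)
  obtain ⟨k, hk, c, hc, rfl⟩ := KW.exists_decomp K W₁ h.sup x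
  have hca : c⁻¹ * a * c = a := by
    rw [mul_assoc, KW.cyclic_comm W₁ h.cyc1 ha hc]; group
  have haa' : a' = a := by
    have hmem : a'⁻¹ * a ∈ K ⊓ W₁ := by
      refine Subgroup.mem_inf.mpr ⟨?_, W₁.mul_mem (W₁.inv_mem ha') ha⟩
      apply (QuotientGroup.eq_one_iff _).mp
      have hq := congrArg (QuotientGroup.mk' K) e
      have h1 : QuotientGroup.mk' K k = 1 := (QuotientGroup.eq_one_iff k).mpr hk
      have h2 : QuotientGroup.mk' K b = 1 := (QuotientGroup.eq_one_iff b).mpr (h.le hb)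
      have h3 : QuotientGroup.mk' K b' = 1 := (QuotientGroup.eq_one_iff b').mpr (h.le hb')
      simp only [map_mul, map_inv, h1, h2, h3, one_mul, mul_one] at hq
      have hq' : QuotientGroup.mk' K a' = QuotientGroup.mk' K a := by
        rw [← hq, ← map_inv, ← map_mul, ← map_mul, hca]
      show QuotientGroup.mk' K (a'⁻¹ * a) = 1
      rw [map_mul, map_inv, hq', inv_mul_cancel]
    rw [h.inf, Subgroup.mem_bot] at hmem
    exact inv_mul_eq_one.mp hmem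
  rw [haa'] at e
  obtain ⟨-, -, hcop⟩ := KW.card_facts K W₁ h.inf h.sup h.hall
  have hN1 : 1 < Nat.card W₁ := by
    rw [Subgroup.one_lt_card_iff_ne_bot]
    exact h.ne1
  obtain ⟨m, -, hm⟩ := Nat.exists_mul_mod_eq_one_of_coprime hcop hN1
  have hpow : ∀ a ∈ W₁, ∀ b ∈ W₂, (a * b) ^ (Nat.card K * m) = a := by
    intro a ha b hb
    have hc : Commute a b := hcomm a ha b hb
    rw [hc.mul_pow]
    have hb1 : b ^ (Nat.card K * m) = 1 := by
      rw [pow_mul]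
      have : b ^ Nat.card K = 1 :=
        orderOf_dvd_iff_pow_eq_one.mp (Subgroup.orderOf_dvd_natCard K (h.le hb))
      rw [this, one_pow]
    have ha1 : a ^ (Nat.card K * m) = a := by
      have hdiv := Nat.div_add_mod (Nat.card K * m) (Nat.card W₁)
      rw [hm] at hdiv
      rw [← hdiv, pow_succ, pow_mul]
      have : a ^ Nat.card W₁ = 1 :=
        orderOf_dvd_iff_pow_eq_one.mp (Subgroup.orderOf_dvd_natCard W₁ ha)
      rw [this, one_pow, one_mul]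
    rw [hb1, ha1, mul_one]
  have hx : (k * c)⁻¹ * a * (k * c) = a := by
    have cp : ∀ (y z : L) (n : ℕ), (y⁻¹ * z * y) ^ n = y⁻¹ * z ^ n * y := by
      intro y z n
      have := @conj_pow L _ n y⁻¹ z
      rwa [inv_inv] at this
    have := congrArg (· ^ (Nat.card K * m)) e
    simp only [cp] at this
    rw [hpow a ha b hb, hpow a ha b' hb'] at this
    exact this
  have hk2 : k * a = a * k := by
    have hca' : c * a = a * c := KW.cyclic_comm W₁ h.cyc1 hc ha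
    have h1 : a * (k * c) = (k * c) * a := by
      calc a * (k * c) = (k * c) * ((k * c)⁻¹ * a * (k * c)) := by group
        _ = (k * c) * a := by rw [hx]
    have h2 : a * k * c = k * a * c := by
      rw [mul_assoc, h1, mul_assoc, hca', mul_assoc]
    exact (mul_right_cancel h2).symm
  have hkW₂ : k ∈ W₂ := by
    rw [← h.cent a ha ha1]
    exact Subgroup.mem_inf.mpr ⟨hk, Subgroup.mem_centralizer_singleton_iff.mpr hk2⟩
  exact Subgroup.mul_mem _ (Subgroup.mem_sup_right hkW₂) (Subgroup.mem_sup_left hc)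

end ti

section ind

variable {L : Type*} [Group L] [Fintype L] {K W₁ W₂ : Subgroup L}

/-- Induction from `W = W₁ ⊔ W₂` does not change values on `W \ W₂`. -/
theorem Cfg.indFun_off (h : Cfg K W₁ W₂) (f : ↥(W₁ ⊔ W₂) → ℂ) (t : ↥(W₁ ⊔ W₂))
    (ht2 : (t : L) ∉ W₂) : Cfsg.indFun (W₁ ⊔ W₂) f t = f t := by
  classical
  have hNne : (Nat.card ↥(W₁ ⊔ W₂) : ℂ) ≠ 0 := by
    have := Nat.card_pos (α := ↥(W₁ ⊔ W₂))
    exact_mod_cast this.ne'
  rw [indFun_apply]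
  have h1 : ∀ x : L, Cfsg.extendByZero (W₁ ⊔ W₂) f (x⁻¹ * (t : L) * x) =
      if x ∈ W₁ ⊔ W₂ then f t else 0 := by
    intro x
    by_cases hx : x ∈ W₁ ⊔ W₂
    · rw [if_pos hx]
      have hcm : x⁻¹ * (t : L) * x = t := by
        have := h.sup_comm t.2 hx
        rw [mul_assoc, this]; group
      rw [hcm, extendByZero_coe]
    · rw [if_neg hx]
      by_cases hmem : x⁻¹ * (t : L) * x ∈ W₁ ⊔ W₂
      · exact absurd (h.mem_sup_of_conj_mem t.2 ht2 hmem) hx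
      · exact extendByZero_of_not_mem _ _ hmem
  simp only [h1]
  rw [Finset.sum_ite, Finset.sum_const_zero, add_zero, Finset.sum_const, nsmul_eq_mul]
  have h2 : (Finset.univ.filter (fun x : L => x ∈ W₁ ⊔ W₂)).card = Nat.card ↥(W₁ ⊔ W₂) := by
    rw [Nat.card_eq_fintype_card, Fintype.card_subtype]
  rw [h2, ← mul_assoc, inv_mul_cancel₀ hNne, one_mul]

/-- Induction from `W` is an isometry on functions supported on `W \ W₂`. -/
theorem Cfg.indFun_off_inner [Fintype ↥(W₁ ⊔ W₂)] (h : Cfg K W₁ W₂) (f f' : ↥(W₁ ⊔ W₂) → ℂ)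
    (hf : ∀ w : ↥(W₁ ⊔ W₂), (w : L) ∈ W₂ → f w = 0) :
    Cfsg.classInner (Cfsg.indFun (W₁ ⊔ W₂) f) (Cfsg.indFun (W₁ ⊔ W₂) f') =
      Cfsg.classInner f f' := by
  rw [frobenius_reciprocity _ f (indFun_isClassFunction _ f')]
  simp only [Cfsg.classInner]
  congr 1
  refine Finset.sum_congr rfl (fun n _ => ?_)
  by_cases hn : (n : L) ∈ W₂
  · rw [hf n hn, zero_mul, zero_mul]
  · rw [h.indFun_off f' n hn]

end ind

section fourier

variable {X : Type*} [Group X]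

theorem hom_conj [Finite X] (ω : X →* ℂˣ) (u : X) :
    conj ((ω u : ℂˣ) : ℂ) = ((ω u⁻¹ : ℂˣ) : ℂ) := by
  have h1 : ((ω u : ℂˣ) : ℂ) ^ Nat.card X = 1 := by
    rw [← Units.val_pow_eq_pow_val, ← map_pow, pow_card_eq_one', map_one, Units.val_one]
  have h2 : ‖((ω u : ℂˣ) : ℂ)‖ = 1 := Complex.norm_eq_one_of_pow_eq_one h1 Nat.card_pos.ne'
  rw [← Complex.inv_eq_conj h2, map_inv, Units.val_inv_eq_inv_val]

open scoped Classical in
theorem sum_hom_mul_conj [Fintype X] (hcomm : ∀ a b : X, a * b = b * a) [Fintype (X →* ℂˣ)]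
    (w u : X) :
    ∑ ω : X →* ℂˣ, ((ω w : ℂˣ) : ℂ) * conj ((ω u : ℂˣ) : ℂ) =
      if w = u then (Nat.card X : ℂ) else 0 := by
  classical
  have hfilter : (Finset.univ.filter (fun φ : X →* ℂˣ => ∀ k ∈ (⊥ : Subgroup X), φ k = 1)) =
      Finset.univ := by
    apply Finset.filter_true_of_mem
    intro φ _ k hk
    rw [Subgroup.mem_bot.mp hk, map_one]
  have e : ∀ ω : X →* ℂˣ, ((ω w : ℂˣ) : ℂ) * conj ((ω u : ℂˣ) : ℂ) =
      ((ω (w * u⁻¹) : ℂˣ) : ℂ) := by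
    intro ω
    rw [hom_conj, map_mul, Units.val_mul]
  rw [Finset.sum_congr rfl (fun ω _ => e ω)]
  by_cases h : w = u
  · rw [if_pos h, h, mul_inv_cancel]
    have hc := card_triv hcomm (⊥ : Subgroup X)
    rw [hfilter, Subgroup.card_bot, mul_one] at hc
    simp only [map_one, Units.val_one, Finset.sum_const, nsmul_eq_mul, mul_one]
    rw [hc]
  · rw [if_neg h]
    have hne : w * u⁻¹ ∉ (⊥ : Subgroup X) := by
      rw [Subgroup.mem_bot, mul_inv_eq_one]; exact h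
    have := sum_hom_eq_zero hcomm (⊥ : Subgroup X) (w * u⁻¹) hne
    rw [hfilter] at this
    exact this

/-- Fourier inversion on a finite abelian group. -/
theorem fourier_inv [Fintype X] (hcomm : ∀ a b : X, a * b = b * a) [Fintype (X →* ℂˣ)]
    (F : X → ℂ) (w : X) :
    ∑ ω : X →* ℂˣ, ((ω w : ℂˣ) : ℂ) * Cfsg.classInner F (lin ω) = F w := by
  classical
  have hXne : (Nat.card X : ℂ) ≠ 0 := by
    have := Nat.card_pos (α := X)
    exact_mod_cast this.ne'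
  have e1 : ∑ ω : X →* ℂˣ, ((ω w : ℂˣ) : ℂ) * Cfsg.classInner F (lin ω) =
      (Nat.card X : ℂ)⁻¹ * ∑ u : X, F u *
        ∑ ω : X →* ℂˣ, ((ω w : ℂˣ) : ℂ) * conj ((ω u : ℂˣ) : ℂ) := by
    simp only [Cfsg.classInner, lin, Finset.mul_sum]
    rw [Finset.sum_comm]
    refine Finset.sum_congr rfl (fun u _ => Finset.sum_congr rfl (fun ω _ => ?_))
    ring
  rw [e1]
  simp only [sum_hom_mul_conj hcomm w]
  rw [Finset.sum_eq_single w]
  · rw [if_pos rfl]; field_simp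
  · intro u _ hu; rw [if_neg (Ne.symm hu), mul_zero]
  · intro h; exact absurd (Finset.mem_univ w) h

/-- A function on the dual group that is constant on the cosets of the annihilator of `H` has
Fourier transform supported on `H`. -/
theorem sum_family_const [Fintype X] (hcomm : ∀ a b : X, a * b = b * a) [Fintype (X →* ℂˣ)]
    (H : Subgroup X) (m : (X →* ℂˣ) → ℂ)
    (hm : ∀ ω φ : X →* ℂˣ, (∀ k ∈ H, φ k = 1) → m (ω * φ) = m ω) (w : X) (hw : w ∉ H) :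
    ∑ ω : X →* ℂˣ, ((ω w : ℂˣ) : ℂ) * m ω = 0 := by
  obtain ⟨φ₁, hφ₁H, hφ₁w⟩ := exists_hom_ne_one hcomm H w hw
  have hbij : ∑ ω : X →* ℂˣ, (((ω * φ₁) w : ℂˣ) : ℂ) * m (ω * φ₁) =
      ∑ ω : X →* ℂˣ, ((ω w : ℂˣ) : ℂ) * m ω := by
    apply Fintype.sum_equiv (Equiv.mulRight φ₁)
    intro ω
    rfl
  have h2 : ∑ ω : X →* ℂˣ, (((ω * φ₁) w : ℂˣ) : ℂ) * m (ω * φ₁) =
      ((φ₁ w : ℂˣ) : ℂ) * ∑ ω : X →* ℂˣ, ((ω w : ℂˣ) : ℂ) * m ω := by
    rw [Finset.mul_sum]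
    refine Finset.sum_congr rfl (fun ω _ => ?_)
    rw [hm ω φ₁ hφ₁H, MonoidHom.mul_apply, Units.val_mul]
    ring
  rw [hbij] at h2
  have h3 : (1 - ((φ₁ w : ℂˣ) : ℂ)) * ∑ ω : X →* ℂˣ, ((ω w : ℂˣ) : ℂ) * m ω = 0 := by
    linear_combination h2
  have h4 : (1 - ((φ₁ w : ℂˣ) : ℂ)) ≠ 0 := by
    intro h
    apply hφ₁w
    apply Units.ext
    rw [Units.val_one]
    exact (sub_eq_zero.mp h).symm
  exact (mul_eq_zero.mp h3).resolve_left h4

end fourier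

section main

variable {L : Type*} [Group L] [Fintype L] {K W₁ W₂ : Subgroup L}

theorem diff_vanish {ω ω' : ↥(W₁ ⊔ W₂) →* ℂˣ}
    (hag : ∀ w : ↥(W₁ ⊔ W₂), (w : L) ∈ W₂ → ω w = ω' w) :
    ∀ w : ↥(W₁ ⊔ W₂), (w : L) ∈ W₂ → (lin ω - lin ω') w = 0 := by
  intro w hw
  rw [Pi.sub_apply, lin_apply, lin_apply, hag w hw, sub_self]

open scoped Classical in
theorem lin_diff_inner {X : Type*} [Group X] [Fintype X] (ω₁ ω₂ ω₃ ω₄ : X →* ℂˣ) :
    Cfsg.classInner (lin ω₁ - lin ω₂) (lin ω₃ - lin ω₄) =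
      (if ω₁ = ω₃ then 1 else 0) - (if ω₁ = ω₄ then 1 else 0) -
        ((if ω₂ = ω₃ then 1 else 0) - (if ω₂ = ω₄ then 1 else 0)) := by
  rw [classInner_sub_left, classInner_sub_right, classInner_sub_right, lin_inner, lin_inner,
    lin_inner, lin_inner]

theorem Cfg.exists_family (h : Cfg K W₁ W₂) (ψ₀ : ↥(W₁ ⊔ W₂) →* ℂˣ) :
    ∃ (δ : ℂ) (ν : (↥(W₁ ⊔ W₂) →* ℂˣ) → (L → ℂ)), (δ = 1 ∨ δ = -1) ∧
      (∀ ω, (∀ w : ↥(W₁ ⊔ W₂), (w : L) ∈ W₂ → ω w = ψ₀ w) → Cfsg.IsIrrCharacter L (ν ω)) ∧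
      ∀ ω ω', (∀ w : ↥(W₁ ⊔ W₂), (w : L) ∈ W₂ → ω w = ψ₀ w) →
        (∀ w : ↥(W₁ ⊔ W₂), (w : L) ∈ W₂ → ω' w = ψ₀ w) →
        Cfsg.indFun (W₁ ⊔ W₂) (lin ω - lin ω') = δ • (ν ω - ν ω') := by
  classical
  haveI : Fintype ↥(W₁ ⊔ W₂) := Fintype.ofFinite _
  let ι := {ω : ↥(W₁ ⊔ W₂) →* ℂˣ // ∀ w : ↥(W₁ ⊔ W₂), (w : L) ∈ W₂ → ω w = ψ₀ w}
  have hvan : ∀ i j : ι, ∀ w : ↥(W₁ ⊔ W₂), (w : L) ∈ W₂ → (lin i.1 - lin j.1) w = 0 := by
    intro i j w hw
    rw [Pi.sub_apply, lin_apply, lin_apply, i.2 w hw, j.2 w hw, sub_self]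
  have key : ∃ (δ : ℂ) (μ : ι → (L → ℂ)), (δ = 1 ∨ δ = -1) ∧
      (∀ i, Cfsg.IsIrrCharacter L (μ i)) ∧
      ∀ i j : ι, Cfsg.indFun (W₁ ⊔ W₂) (lin i.1 - lin j.1) = δ • (μ i - μ j) := by
    refine family_coherent (L := L) (ι := ι)
      (fun i j => Cfsg.indFun (W₁ ⊔ W₂) (lin i.1 - lin j.1)) ?_ ?_ ?_ ?_ ?_
    · intro i j
      rw [indFun_sub]
      exact ⟨_, _, indFun_isCharacter _ (IsIrrCharacter.isCharacter (lin_irr i.1)),
        indFun_isCharacter _ (IsIrrCharacter.isCharacter (lin_irr j.1)), rfl⟩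
    · intro i j
      rw [indFun_one, Pi.sub_apply, lin_apply, lin_apply, map_one, map_one, sub_self, mul_zero]
    · intro i j hij
      rw [h.indFun_off_inner _ _ (hvan i j), lin_diff_inner]
      have hne : i.1 ≠ j.1 := fun e => hij (Subtype.ext e)
      rw [if_pos rfl, if_neg hne, if_neg (Ne.symm hne), if_pos rfl]
      norm_num
    · intro i j k hij hik hjk
      rw [h.indFun_off_inner _ _ (hvan i j), lin_diff_inner]
      have h1 : i.1 ≠ j.1 := fun e => hij (Subtype.ext e)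
      have h2 : i.1 ≠ k.1 := fun e => hik (Subtype.ext e)
      have h3 : j.1 ≠ k.1 := fun e => hjk (Subtype.ext e)
      rw [if_pos rfl, if_neg h2, if_neg (Ne.symm h1), if_neg h3]
      norm_num
    · intro i j k
      rw [← indFun_add]
      congr 1
      abel
  obtain ⟨δ, μ, hδ, hμ, hind⟩ := key
  refine ⟨δ, fun ω => if hω : (∀ w : ↥(W₁ ⊔ W₂), (w : L) ∈ W₂ → ω w = ψ₀ w) then
    μ ⟨ω, hω⟩ else 0, hδ, ?_, ?_⟩
  · intro ω hω
    dsimp only
    rw [dif_pos hω]; exact hμ _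
  · intro ω ω' hω hω'
    dsimp only
    rw [dif_pos hω, dif_pos hω']
    exact hind ⟨ω, hω⟩ ⟨ω', hω'⟩

theorem exists_rep (W₁ W₂ : Subgroup L) :
    ∃ rep : (↥(W₁ ⊔ W₂) →* ℂˣ) → (↥(W₁ ⊔ W₂) →* ℂˣ),
      (∀ ω, ∀ w : ↥(W₁ ⊔ W₂), (w : L) ∈ W₂ → ω w = rep ω w) ∧
      (∀ ω ω', (∀ w : ↥(W₁ ⊔ W₂), (w : L) ∈ W₂ → ω w = ω' w) → rep ω = rep ω') := by
  let s : Setoid (↥(W₁ ⊔ W₂) →* ℂˣ) :=
    { r := fun ω ω' => ∀ w : ↥(W₁ ⊔ W₂), (w : L) ∈ W₂ → ω w = ω' w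
      iseqv := ⟨fun _ _ _ => rfl, fun h w hw => (h w hw).symm,
        fun h h' w hw => (h w hw).trans (h' w hw)⟩ }
  refine ⟨fun ω => (Quotient.mk s ω).out, ?_, ?_⟩
  · intro ω w hw
    have := Quotient.mk_out (s := s) ω
    exact (this w hw).symm
  · intro ω ω' hag
    have : Quotient.mk s ω = Quotient.mk s ω' := Quotient.sound hag
    show (Quotient.mk s ω).out = (Quotient.mk s ω').out
    rw [this]

theorem Cfg.exists_mu (h : Cfg K W₁ W₂) :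
    ∃ (μ : (↥(W₁ ⊔ W₂) →* ℂˣ) → (L → ℂ)) (δ : (↥(W₁ ⊔ W₂) →* ℂˣ) → ℂ),
      (∀ ω, Cfsg.IsIrrCharacter L (μ ω)) ∧ (∀ ω, δ ω = 1 ∨ δ ω = -1) ∧
      (∀ ω ω' : ↥(W₁ ⊔ W₂) →* ℂˣ, (∀ w : ↥(W₁ ⊔ W₂), (w : L) ∈ W₂ → ω w = ω' w) →
        δ ω = δ ω' ∧ Cfsg.indFun (W₁ ⊔ W₂) (lin ω - lin ω') = δ ω • (μ ω - μ ω')) := by
  obtain ⟨rep, hrep1, hrep2⟩ := exists_rep W₁ W₂
  choose δf νf hδf hνirr hνind using fun ψ₀ => h.exists_family ψ₀
  refine ⟨fun ω => νf (rep ω) ω, fun ω => δf (rep ω), ?_, ?_, ?_⟩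
  · intro ω; exact hνirr (rep ω) ω (hrep1 ω)
  · intro ω; exact hδf (rep ω)
  · intro ω ω' hag
    have e := hrep2 ω ω' hag
    dsimp only
    refine ⟨by rw [e], ?_⟩
    rw [← e]
    exact hνind (rep ω) ω ω' (hrep1 ω) (by rw [e]; exact hrep1 ω')

theorem Cfg.exists_hom (h : Cfg K W₁ W₂) (w : ↥(W₁ ⊔ W₂)) (hw : (w : L) ∉ W₂) :
    ∃ φ : ↥(W₁ ⊔ W₂) →* ℂˣ, (∀ k : ↥(W₁ ⊔ W₂), (k : L) ∈ W₂ → φ k = 1) ∧ φ w ≠ 1 := by
  have hcomm : ∀ a b : ↥(W₁ ⊔ W₂), a * b = b * a :=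
    fun a b => Subtype.ext (h.sup_comm a.2 b.2)
  obtain ⟨φ, h1, h2⟩ := exists_hom_ne_one hcomm (W₂.subgroupOf (W₁ ⊔ W₂)) w
    (by rw [Subgroup.mem_subgroupOf]; exact hw)
  exact ⟨φ, fun k hk => h1 k (Subgroup.mem_subgroupOf.mpr hk), h2⟩

variable (h : Cfg K W₁ W₂) (μ : (↥(W₁ ⊔ W₂) →* ℂˣ) → (L → ℂ))
  (δ : (↥(W₁ ⊔ W₂) →* ℂˣ) → ℂ)
  (hirr : ∀ ω, Cfsg.IsIrrCharacter L (μ ω)) (hδ : ∀ ω, δ ω = 1 ∨ δ ω = -1)
  (hind : ∀ ω ω' : ↥(W₁ ⊔ W₂) →* ℂˣ, (∀ w : ↥(W₁ ⊔ W₂), (w : L) ∈ W₂ → ω w = ω' w) →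
        δ ω = δ ω' ∧ Cfsg.indFun (W₁ ⊔ W₂) (lin ω - lin ω') = δ ω • (μ ω - μ ω'))
include h hirr hδ hind

theorem inj_same {ω ω' : ↥(W₁ ⊔ W₂) →* ℂˣ}
    (hag : ∀ w : ↥(W₁ ⊔ W₂), (w : L) ∈ W₂ → ω w = ω' w) (hne : ω ≠ ω') : μ ω ≠ μ ω' := by
  classical
  haveI : Fintype ↥(W₁ ⊔ W₂) := Fintype.ofFinite _
  intro e
  have h1 := (hind ω ω' hag).2
  rw [e, sub_self, smul_zero] at h1
  have h2 := h.indFun_off_inner (lin ω - lin ω') (lin ω - lin ω') (diff_vanish hag)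
  rw [h1, lin_diff_inner, if_pos rfl, if_neg hne, if_neg (Ne.symm hne), if_pos rfl] at h2
  have h3 : Cfsg.classInner (0 : L → ℂ) 0 = 0 := by simp [Cfsg.classInner]
  rw [h3] at h2
  norm_num at h2

theorem mu_injective : Function.Injective μ := by
  classical
  haveI : Fintype ↥(W₁ ⊔ W₂) := Fintype.ofFinite _
  intro ω₁ ω₂ e
  by_contra hne
  by_cases hag : ∀ w : ↥(W₁ ⊔ W₂), (w : L) ∈ W₂ → ω₁ w = ω₂ w
  · exact inj_same h μ δ hirr hδ hind hag hne e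
  · obtain ⟨a, ha1⟩ := (Subgroup.ne_bot_iff_exists_ne_one).mp h.ne1
    have ha1' : (a : L) ≠ 1 := fun e => ha1 (Subtype.ext e)
    obtain ⟨φ₀, hφ₀, hφ₀a⟩ := h.exists_hom ⟨(a : L), Subgroup.mem_sup_left a.2⟩
      (h.not_mem_two a.2 ha1')
    have hag1 : ∀ w : ↥(W₁ ⊔ W₂), (w : L) ∈ W₂ → ω₁ w = (ω₁ * φ₀) w := by
      intro w hw; rw [MonoidHom.mul_apply, hφ₀ w hw, mul_one]
    have hag2 : ∀ w : ↥(W₁ ⊔ W₂), (w : L) ∈ W₂ → ω₂ w = (ω₂ * φ₀) w := by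
      intro w hw; rw [MonoidHom.mul_apply, hφ₀ w hw, mul_one]
    have hne1 : ω₁ ≠ ω₁ * φ₀ := by
      intro e1
      apply hφ₀a
      have := congrArg (fun f : ↥(W₁ ⊔ W₂) →* ℂˣ => f ⟨(a : L), Subgroup.mem_sup_left a.2⟩) e1
      simp only [MonoidHom.mul_apply] at this
      have this' : ω₁ ⟨(a : L), Subgroup.mem_sup_left a.2⟩ * 1 =
          ω₁ ⟨(a : L), Subgroup.mem_sup_left a.2⟩ * φ₀ ⟨(a : L), Subgroup.mem_sup_left a.2⟩ := by
        rw [mul_one]; exact this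
      exact (mul_left_cancel this').symm
    have hne2 : ω₂ ≠ ω₂ * φ₀ := by
      intro e1
      apply hφ₀a
      have := congrArg (fun f : ↥(W₁ ⊔ W₂) →* ℂˣ => f ⟨(a : L), Subgroup.mem_sup_left a.2⟩) e1
      simp only [MonoidHom.mul_apply] at this
      have this' : ω₂ ⟨(a : L), Subgroup.mem_sup_left a.2⟩ * 1 =
          ω₂ ⟨(a : L), Subgroup.mem_sup_left a.2⟩ * φ₀ ⟨(a : L), Subgroup.mem_sup_left a.2⟩ := by
        rw [mul_one]; exact this
      exact (mul_left_cancel this').symm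
    have hne3 : ω₁ ≠ ω₂ * φ₀ := by
      intro e1; apply hag; intro w hw; rw [e1, MonoidHom.mul_apply, hφ₀ w hw, mul_one]
    have hne4 : ω₁ * φ₀ ≠ ω₂ := by
      intro e1; apply hag; intro w hw; rw [← e1, MonoidHom.mul_apply, hφ₀ w hw, mul_one]
    have hne5 : ω₁ * φ₀ ≠ ω₂ * φ₀ := by
      intro e1; apply hne
      apply MonoidHom.ext; intro w
      have := congrArg (fun f : ↥(W₁ ⊔ W₂) →* ℂˣ => f w) e1
      simp only [MonoidHom.mul_apply] at this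
      exact mul_right_cancel this
    have h0 := h.indFun_off_inner (lin ω₁ - lin (ω₁ * φ₀)) (lin ω₂ - lin (ω₂ * φ₀))
      (diff_vanish hag1)
    rw [lin_diff_inner, if_neg hne, if_neg hne3, if_neg hne4, if_neg hne5] at h0
    rw [(hind _ _ hag1).2, (hind _ _ hag2).2, classInner_smul_left, classInner_smul_right,
      classInner_sub_left, classInner_sub_right, classInner_sub_right,
      classInner_irr (hirr ω₁) (hirr ω₂), classInner_irr (hirr ω₁) (hirr (ω₂ * φ₀)),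
      classInner_irr (hirr (ω₁ * φ₀)) (hirr ω₂),
      classInner_irr (hirr (ω₁ * φ₀)) (hirr (ω₂ * φ₀))] at h0
    have hm1 : μ ω₁ ≠ μ (ω₂ * φ₀) := by
      rw [e]; exact inj_same h μ δ hirr hδ hind hag2 hne2
    have hm2 : μ (ω₁ * φ₀) ≠ μ ω₂ := by
      rw [← e]; exact fun e' => inj_same h μ δ hirr hδ hind hag1 hne1 e'.symm
    rw [if_pos e, if_neg hm1, if_neg hm2] at h0
    have hd1 : δ ω₁ ≠ 0 := by rcases hδ ω₁ with h | h <;> rw [h] <;> norm_num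
    have hd2 : conj (δ ω₂) ≠ 0 := by rcases hδ ω₂ with h | h <;> rw [h] <;> simp
    split_ifs at h0
    · have : δ ω₁ * (conj (δ ω₂) * 2) = 0 := by linear_combination h0
      simp [hd1, hd2] at this
    · have : δ ω₁ * (conj (δ ω₂) * 1) = 0 := by linear_combination h0
      simp [hd1, hd2] at this

theorem inner_diff [Fintype ↥(W₁ ⊔ W₂)] {Θ : L → ℂ} (hΘ : Cfsg.IsClassFunction L Θ)
    {ω ω' : ↥(W₁ ⊔ W₂) →* ℂˣ} (hag : ∀ w : ↥(W₁ ⊔ W₂), (w : L) ∈ W₂ → ω w = ω' w) :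
    Cfsg.classInner (fun x : ↥(W₁ ⊔ W₂) => Θ x) (lin ω) -
        Cfsg.classInner (fun x : ↥(W₁ ⊔ W₂) => Θ x) (lin ω') =
      conj (δ ω) * (Cfsg.classInner Θ (μ ω) - Cfsg.classInner Θ (μ ω')) := by
  rw [← classInner_sub_right, ← classInner_conj_symm (lin ω - lin ω') _,
    ← frobenius_reciprocity _ _ hΘ, (hind ω ω' hag).2, classInner_smul_left, map_mul,
    classInner_sub_left, map_sub, classInner_conj_symm, classInner_conj_symm]

theorem vanish_off (θ : L → ℂ) (hθ : Cfsg.IsIrrCharacter L θ) (hne : ∀ ω, θ ≠ μ ω)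
    (w : ↥(W₁ ⊔ W₂)) (hw : (w : L) ∉ W₂) : θ w = 0 := by
  classical
  haveI : Fintype ↥(W₁ ⊔ W₂) := Fintype.ofFinite _
  haveI : Fintype (↥(W₁ ⊔ W₂) →* ℂˣ) := Fintype.ofFinite _
  have hcomm : ∀ a b : ↥(W₁ ⊔ W₂), a * b = b * a :=
    fun a b => Subtype.ext (h.sup_comm a.2 b.2)
  have hF : ∑ ω : ↥(W₁ ⊔ W₂) →* ℂˣ, ((ω w : ℂˣ) : ℂ) *
      Cfsg.classInner (fun x : ↥(W₁ ⊔ W₂) => θ x) (lin ω) = θ w :=
    fourier_inv hcomm (fun x : ↥(W₁ ⊔ W₂) => θ x) w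
  rw [← hF]
  apply sum_family_const hcomm (W₂.subgroupOf (W₁ ⊔ W₂))
  · intro ω φ hφ
    have hag : ∀ k : ↥(W₁ ⊔ W₂), (k : L) ∈ W₂ → (ω * φ) k = ω k := by
      intro k hk
      rw [MonoidHom.mul_apply, hφ k (Subgroup.mem_subgroupOf.mpr hk), mul_one]
    have := inner_diff h μ δ hirr hδ hind (IsIrrCharacter.isClassFunction hθ) hag
    rw [classInner_irr_ne hθ (hirr _) (hne _), classInner_irr_ne hθ (hirr _) (hne _), sub_self,
      mul_zero] at this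
    exact sub_eq_zero.mp this
  · rw [Subgroup.mem_subgroupOf]; exact hw

theorem value_off (ω₀ : ↥(W₁ ⊔ W₂) →* ℂˣ) (w : ↥(W₁ ⊔ W₂)) (hw : (w : L) ∉ W₂) :
    μ ω₀ w = δ ω₀ * ((ω₀ w : ℂˣ) : ℂ) := by
  classical
  haveI : Fintype ↥(W₁ ⊔ W₂) := Fintype.ofFinite _
  haveI : Fintype (↥(W₁ ⊔ W₂) →* ℂˣ) := Fintype.ofFinite _
  have hcomm : ∀ a b : ↥(W₁ ⊔ W₂), a * b = b * a :=
    fun a b => Subtype.ext (h.sup_comm a.2 b.2)
  have hinj := mu_injective h μ δ hirr hδ hind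
  have hF : ∑ ω : ↥(W₁ ⊔ W₂) →* ℂˣ, ((ω w : ℂˣ) : ℂ) *
      Cfsg.classInner (fun x : ↥(W₁ ⊔ W₂) => μ ω₀ x) (lin ω) = μ ω₀ w :=
    fourier_inv hcomm (fun x : ↥(W₁ ⊔ W₂) => μ ω₀ x) w
  have hS := sum_family_const hcomm (W₂.subgroupOf (W₁ ⊔ W₂))
    (fun ω => Cfsg.classInner (fun x : ↥(W₁ ⊔ W₂) => μ ω₀ x) (lin ω) -
      δ ω₀ * (if ω = ω₀ then 1 else 0)) ?_ w (by rw [Subgroup.mem_subgroupOf]; exact hw)
  · simp only [mul_sub, Finset.sum_sub_distrib] at hS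
    rw [hF] at hS
    have hsum : ∑ ω : ↥(W₁ ⊔ W₂) →* ℂˣ, ((ω w : ℂˣ) : ℂ) *
        (δ ω₀ * (if ω = ω₀ then 1 else 0)) = δ ω₀ * ((ω₀ w : ℂˣ) : ℂ) := by
      rw [Finset.sum_eq_single ω₀]
      · rw [if_pos rfl]; ring
      · intro ω _ hω; rw [if_neg hω]; ring
      · intro hh; exact absurd (Finset.mem_univ _) hh
    rw [hsum] at hS
    exact sub_eq_zero.mp hS
  · intro ω φ hφ
    have hag : ∀ k : ↥(W₁ ⊔ W₂), (k : L) ∈ W₂ → (ω * φ) k = ω k := by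
      intro k hk
      rw [MonoidHom.mul_apply, hφ k (Subgroup.mem_subgroupOf.mpr hk), mul_one]
    have hd := inner_diff h μ δ hirr hδ hind (IsIrrCharacter.isClassFunction (hirr ω₀)) hag
    rw [classInner_irr (hirr ω₀) (hirr _), classInner_irr (hirr ω₀) (hirr _)] at hd
    have hδeq := (hind _ _ hag).1
    have hconj : ∀ ω', conj (δ ω') = δ ω' := by
      intro ω'; rcases hδ ω' with h | h <;> rw [h] <;> simp
    rw [hconj] at hd
    have hA : (μ ω₀ = μ (ω * φ)) ↔ (ω * φ = ω₀) := ⟨fun e => (hinj e).symm, fun e => by rw [e]⟩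
    have hB : (μ ω₀ = μ ω) ↔ (ω = ω₀) := ⟨fun e => (hinj e).symm, fun e => by rw [e]⟩
    simp only [hA, hB] at hd
    by_cases h1 : ω * φ = ω₀
    · have hd0 : δ (ω * φ) = δ ω₀ := by rw [h1]
      rw [hd0] at hd
      linear_combination hd
    · by_cases h2 : ω = ω₀
      · have hd0 : δ (ω * φ) = δ ω₀ := by rw [hδeq, h2]
        rw [hd0] at hd
        linear_combination hd
      · rw [if_neg h1, if_neg h2] at hd ⊢
        linear_combination hd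

theorem degree_mod (ω : ↥(W₁ ⊔ W₂) →* ℂˣ) :
    ∃ n : ℤ, μ ω 1 - δ ω = n * (Nat.card W₁ : ℂ) := by
  classical
  haveI : Fintype W₁ := Fintype.ofFinite _
  have hval := value_off h μ δ hirr hδ hind ω
  have hχ := IsCharacter.restrict (IsIrrCharacter.isCharacter (hirr ω)) W₁
  obtain ⟨n₁, hn₁⟩ := IsCharacter.classInner_nat hχ (isCharacter_one (G := W₁))
  obtain ⟨ω₁, hω₁⟩ : ∃ ω₁ : W₁ →* ℂˣ, ∀ x : W₁,
      ω₁ x = ω ⟨(x : L), Subgroup.mem_sup_left x.2⟩ :=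
    ⟨ω.comp (Subgroup.inclusion (le_sup_left : W₁ ≤ W₁ ⊔ W₂)), fun x => rfl⟩
  obtain ⟨n₂, hn₂⟩ := IsCharacter.classInner_nat (IsIrrCharacter.isCharacter (lin_irr ω₁))
    (isCharacter_one (G := W₁))
  have hW₁ne : (Nat.card W₁ : ℂ) ≠ 0 := by
    have := Nat.card_pos (α := W₁)
    exact_mod_cast this.ne'
  have e1 : ∑ x : W₁, μ ω x = n₁ * (Nat.card W₁ : ℂ) := by
    rw [← hn₁]
    simp only [Cfsg.classInner, map_one, mul_one]
    field_simp
  have e2 : ∑ x : W₁, lin ω₁ x = n₂ * (Nat.card W₁ : ℂ) := by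
    rw [← hn₂]
    simp only [Cfsg.classInner, map_one, mul_one]
    field_simp
  have e3 : ∀ x : W₁, μ ω x = δ ω * lin ω₁ x + (if x = 1 then (μ ω 1 - δ ω) else 0) := by
    intro x
    by_cases hx : x = 1
    · rw [if_pos hx, hx, lin_apply, map_one]
      simp
    · rw [if_neg hx, add_zero, lin_apply, hω₁]
      have hx' : (x : L) ≠ 1 := fun e => hx (Subtype.ext e)
      exact hval ⟨(x : L), Subgroup.mem_sup_left x.2⟩ (h.not_mem_two x.2 hx')
  have e4 : ∑ x : W₁, μ ω x = δ ω * (n₂ * (Nat.card W₁ : ℂ)) + (μ ω 1 - δ ω) := by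
    rw [Finset.sum_congr rfl (fun x _ => e3 x), Finset.sum_add_distrib, ← Finset.mul_sum, e2]
    simp
  rcases hδ ω with hd | hd
  · refine ⟨(n₁ : ℤ) - n₂, ?_⟩
    rw [hd] at e4 ⊢
    push_cast
    linear_combination e1 - e4
  · refine ⟨(n₁ : ℤ) + n₂, ?_⟩
    rw [hd] at e4 ⊢
    push_cast
    linear_combination e1 - e4

end main

end Cfsg.Agent.Lib.Helper10.TypeP
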